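import Cfsg.Agent.LocalEven.JEndgame

/-!
Members with different fixed involutions cannot occur.
-/

set_option autoImplicit false

open Cfsg
open scoped commutatorElement

namespace Cfsg.Agent.LocalEven

variable {G : Type*} [Group G] [Finite G] {T : Subgroup G} {V : Set (Subgroup G)}

/-- The element `abc` of three conjugate involutions with common commutator `z`. -/
theorem triple_identities {a b c z : G} (ha : a * a = 1) (hb : b * b = 1) (hc : c * c = 1)
    (hz : z * z = 1) (hza : z * a = a * z) (hzb : z * b = b * z) (hba : b * a = z * (a * b))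
    (hcb : c * b = z * (b * c)) (hac : a * c = z * (c * a)) :
    (a * b * c) * a = a * (a * b * c) ∧ (a * b * c) * (a * b * c) = z := by
  have h1 : c * a = z * (a * c) := by rw [hac, ← mul_assoc, hz, one_mul]
  have h2 : (a * b * c) * a = a * (a * b * c) := by
    calc (a * b * c) * a = a * b * (c * a) := by group
      _ = a * (b * z) * (a * c) := by rw [h1]; group
      _ = a * (z * b) * (a * c) := by rw [hzb]
      _ = (a * z) * (b * a) * c := by group
      _ = (z * a) * (z * (a * b)) * c := by rw [hba, hza]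
      _ = z * (a * z) * (a * b) * c := by group
      _ = z * (z * a) * (a * b) * c := by rw [hza]
      _ = (z * z) * (a * (a * b * c)) := by group
      _ = a * (a * b * c) := by rw [hz, one_mul]
  refine ⟨h2, ?_⟩
  calc (a * b * c) * (a * b * c) = ((a * b * c) * a) * (b * c) := by group
    _ = (a * a) * (b * (c * b) * c) := by rw [h2]; group
    _ = (b * z) * (b * (c * c)) := by rw [ha, hcb, one_mul]; group
    _ = z * (b * b) := by rw [← hzb, hc, mul_one, mul_assoc]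
    _ = z := by rw [hb, mul_one]

theorem Member.thompson_not_normal {K : Subgroup G} (hm : Member T K) :
    ¬ K ≤ Subgroup.normalizer (T : Set G) := by
  intro hle
  have hKT : K ≤ T := by
    conv_lhs => rw [← hm.comm]
    rw [Subgroup.commutator_le]
    intro k hk j hj
    rw [commutatorElement_def]
    exact mul_mem ((Subgroup.mem_normalizer_iff.1 (hle hk) j).1 (thompsonOf_le T hj))
      (inv_mem (thompsonOf_le T hj))
  have h3 := hm.idx
  rw [eq_bot_of_gen hm.hT hm.gen hKT, Subgroup.relIndex_bot_right] at h3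
  omega

/-- A normalizer containing `T` and an element of order three of `K` contains `K`. -/
theorem Member.le_of_sigma {K X : Subgroup G} (hm : Member T K) (hTX : T ≤ X) {σ : G}
    (hσ : σ ∈ K) (hσQ : σ ∉ pCoreOf 2 K) (hσX : σ ∈ X) : K ⊔ T ≤ X := by
  refine sup_le ?_ hTX
  rw [← sup_zpowers_eq hm.idx hσ hσQ]
  exact sup_le (hm.core.trans hTX) (Subgroup.zpowers_le.2 hσX)

/-- Members with pairwise different fixed involutions cannot occur. -/
theorem Fam.false_of_distinct (hF : Fam T V)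
    (hinj : ∀ K ∈ V, ∀ K' ∈ V, zOf T K = zOf T K' → K = K')
    (hclosed : ∀ n ∈ Subgroup.normalizer (T : Set G), ∀ K ∈ V,
      K.map (MulAut.conj n).toMonoidHom ∈ V)
    (hmeet : ∀ i ∈ V, ∀ k ∈ V, ∀ h : G, zOf T i = h * zOf T k * h⁻¹ →
      ∃ n ≤ 2, VReach T V n (vtx T i 1) (vtx T k h)) : False := by
  obtain ⟨b, i, j, k, h, hc, hb1, hb0⟩ := hF.exists_crit
  have mi := hF.member i hc.hi
  have mj := hF.member j hc.hj
  rcases Nat.eq_zero_or_pos b with hb | hb
  · refine hc.hij (hinj i hc.hi j hc.hj (mj.zOf_eq ?_ mi.z_ne fun t ht => mi.z_fix ht))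
    have : h * zOf T k * h⁻¹ ∈ wOf (vtx T k h).1 :=
      mem_wOf_vtx.2 ⟨_, (hF.member k hc.hk).z_mem, rfl⟩
    rwa [← hc.z_eq hF, ← hb0 hb, vtx_one_fst] at this
  by_cases hb2 : 2 ≤ b
  · obtain ⟨n, hn, hr⟩ := hmeet i hc.hi k hc.hk h (hc.z_eq hF)
    exact hc.clash (hc.hmin n (by omega) _ _ ⟨i, hc.hi, 1, rfl⟩ hr)
  obtain rfl : b = 1 := by omega
  obtain ⟨l, hl, hlk, hlj⟩ := hb1 rfl
  have ml := hF.member l hl
  -- the edge `T ^ h` is an edge of the middle vertex
  have hTh : IsSylowTwoIn (T.map (MulAut.conj h).toMonoidHom) (j ⊔ T) := by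
    have e : (j ⊔ T : Subgroup G) = (l ⊔ T).map (MulAut.conj h).toMonoidHom := by
      rw [← vtx_one_snd, hlj, vtx_snd]
    rw [e]; exact isSylowTwoIn_conj ml.isSylow h
  obtain ⟨p, hp, hpT⟩ := exists_conj_of_isSylowTwoIn mj.isSylow hTh
  set n := p⁻¹ * h with hn
  have hnN : n ∈ Subgroup.normalizer (T : Set G) := by
    rw [Subgroup.mem_normalizer_iff_map_conj_eq]
    change T.map (MulAut.conj n).toMonoidHom = T
    rw [hn, ← map_conj_map_conj, ← hpT, map_conj_inv_map_conj]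
  set k' := k.map (MulAut.conj n).toMonoidHom with hk'def
  have hk' : k' ∈ V := hclosed n hnN k hc.hk
  have hvk : vtx T k h = vtx T k' p := by
    have hh : h = p * n := by rw [hn, mul_inv_cancel_left]
    refine Prod.ext ?_ ?_
    · rw [vtx_fst, vtx_fst, hk'def, map_conj_map_conj, ← hh]
    · rw [vtx_snd, vtx_snd, hh, ← map_conj_map_conj, Subgroup.map_sup]
      congr 2
      exact FF.map_conj_eq hnN
  have hlj' : l.map (MulAut.conj n).toMonoidHom = j := by
    have h1 : l.map (MulAut.conj h).toMonoidHom = j := by rw [← vtx_fst T l h, ← hlj, vtx_one_fst]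
    rw [hn, ← map_conj_map_conj, h1]
    exact FF.map_conj_eq ((sup_le Subgroup.le_normalizer mj.norm) (inv_mem hp))
  have hkj : k' ≠ j := fun e => hlk (Subgroup.map_injective (MulAut.conj n).injective
    (hlj'.trans e.symm))
  have mk' := hF.member k' hk'
  have hclash := hc.clash
  rw [hvk] at hclash
  have hzk : h * zOf T k * h⁻¹ = p * zOf T k' * p⁻¹ := by
    have e : zOf T k' = n * zOf T k * n⁻¹ := by
      rw [hk'def, ← (hF.member k hc.hk).zOf_conj n,
        show T.map (MulAut.conj n).toMonoidHom = T from FF.map_conj_eq hnN]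
    rw [e, hn]; group
  have hpnT : p ∉ T := by
    intro hpT'
    have e1 : vtx T k' p = vtx T k' 1 := vtx_eq_self mk' (Subgroup.mem_sup_right hpT')
    rw [e1] at hclash
    by_cases e : k' = i
    · rw [e] at hclash
      exact hclash (hc.hmin 0 (by omega) _ _ ⟨i, hc.hi, 1, rfl⟩ rfl)
    · exact hclash (hc.hmin 1 (by omega) _ _ ⟨i, hc.hi, 1, rfl⟩
        ⟨_, rfl, 1, i, hc.hi, k', hk', Ne.symm e, rfl, rfl⟩)
  set z := zOf T i with hzdef
  have hzk' : z = p * zOf T k' * p⁻¹ := by rw [hzdef, hc.z_eq hF, hzk]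
  -- `z` is centralized by `P_j`
  set C := (j ⊔ T) ⊓ Subgroup.centralizer ({z} : Set G) with hC
  have hTC : T ≤ C := le_inf le_sup_right fun t ht =>
    Subgroup.mem_centralizer_singleton_iff.2 (mul_inv_eq_iff_eq_mul.1 (mi.z_fix ht))
  have hTpC : T.map (MulAut.conj p).toMonoidHom ≤ C := by
    refine le_inf (hpT ▸ hTh.1) ?_
    rintro _ ⟨t, ht, rfl⟩
    refine Subgroup.mem_centralizer_singleton_iff.2 (mul_inv_eq_iff_eq_mul.1 ?_)
    change p * t * p⁻¹ * z * (p * t * p⁻¹)⁻¹ = z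
    rw [hzk']
    conv_rhs => rw [← mk'.z_fix ht]
    group
  have hCeq : C = j ⊔ T := by
    obtain ⟨g, hg, hgT⟩ : ∃ g ∈ T.map (MulAut.conj p).toMonoidHom, g ∉ T := by
      by_contra hcon
      push Not at hcon
      have hpN : p ∈ Subgroup.normalizer (T : Set G) := by
        rw [Subgroup.mem_normalizer_iff_map_conj_eq]
        exact Subgroup.eq_of_le_of_card_ge hcon
          (Subgroup.card_map_of_injective (f := (MulAut.conj p).toMonoidHom)
            (MulAut.conj p).injective).ge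
      have hX : (j ⊔ T) ⊓ Subgroup.normalizer (T : Set G) = j ⊔ T :=
        mj.eq_sup mj.relIndex_T (le_inf le_sup_right Subgroup.le_normalizer) inf_le_left
          ⟨hp, hpN⟩ hpnT
      exact mj.thompson_not_normal (le_sup_left.trans (hX.ge.trans inf_le_right))
    exact mj.eq_sup mj.relIndex_T hTC inf_le_left (hTpC hg) hgT
  have hzC : ∀ g ∈ j ⊔ T, g * z * g⁻¹ = z := fun g hg =>
    mul_inv_eq_iff_eq_mul.2 (Subgroup.mem_centralizer_singleton_iff.1 (hCeq.ge hg).2)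
  obtain rfl : k' = i := by
    refine hinj k' hk' i hc.hi ?_
    calc zOf T k' = p⁻¹ * z * p := by rw [hzk']; group
      _ = z := by have := hzC _ (inv_mem hp); rwa [inv_inv] at this
  -- an element of order three of `j` with the same property
  obtain ⟨σ, hσ, hσ3, hσQ, hσclash⟩ : ∃ σ ∈ j, σ ^ 3 = 1 ∧ σ ∉ pCoreOf 2 j ∧
      ¬ PlaneComm (vtx T k' 1) (vtx T k' σ) := by
    have hp' : p ∈ (↑(j ⊔ T) : Set G) := hp
    rw [Subgroup.coe_mul_of_right_le_normalizer_left j T mj.norm] at hp'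
    obtain ⟨k₀, hk₀, t₀, ht₀, rfl⟩ := Set.mem_mul.1 hp'
    have e1 : vtx T k' (k₀ * t₀) = vtx T k' k₀ := by
      rw [← cjv_vtx, vtx_eq_self mk' (Subgroup.mem_sup_right ht₀), cjv_vtx, mul_one]
    rw [e1] at hclash
    obtain ⟨e, he, he3, heQ⟩ := exists_order_three mj.idx
    have key : ∀ q ∈ pCoreOf 2 j, ∀ σ, k₀ = q * σ → ¬ PlaneComm (vtx T k' 1) (vtx T k' σ) := by
      intro q hq σ hk₀σ hcomm
      apply hclash
      have h1 := hcomm.cjv q
      rw [cjv_vtx, cjv_vtx, mul_one, ← hk₀σ,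
        vtx_eq_self mk' (Subgroup.mem_sup_right (mj.core hq))] at h1
      exact h1
    rcases coset_cases mj.idx he heQ hk₀ with hq | hq | hq
    · exact absurd (mul_mem (mj.core hq) ht₀) hpnT
    · exact ⟨e, he, he3, heQ, key _ hq e (by group)⟩
    · refine ⟨e⁻¹, inv_mem he, by rw [inv_pow, he3, inv_one], fun h' => heQ ?_,
        key _ hq e⁻¹ (by group)⟩
      exact inv_mem_iff.1 h'
  have hσP : σ ∈ j ⊔ T := Subgroup.mem_sup_left hσ
  have hzσ : σ * z * σ⁻¹ = z := hzC σ hσP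
  have hadj : VAdj T V (vtx T k' 1) (vtx T j 1) := ⟨1, k', hk', j, hc.hj, hkj, rfl, rfl⟩
  have hiQj : wOf k' ≤ qOf T j := by
    have h0 := hF.le_q_of_reach hc.hmin 1 (by omega) _ _ ⟨k', hk', 1, rfl⟩ ⟨_, rfl, hadj⟩
    rwa [q_vtx mj, vtx_one_fst, vtx_one_fst, map_conj_one] at h0
  have hjQi : wOf j ≤ qOf T k' := by
    have h0 := hF.le_q_of_reach hc.hmin 1 (by omega) _ _ ⟨j, hc.hj, 1, rfl⟩ ⟨_, rfl, hadj.symm⟩
    rwa [q_vtx mk', vtx_one_fst, vtx_one_fst, map_conj_one] at h0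
  have hqconj : ∀ g ∈ j ⊔ T, ∀ q ∈ qOf T j, g * q * g⁻¹ ∈ qOf T j := fun g hg q hq =>
    (Subgroup.mem_normalizer_iff.1 (mj.normalizes_q hg) q).1 hq
  obtain ⟨a, ha, hab⟩ : ∃ a ∈ wOf k', ¬ Commute a (σ * a * σ⁻¹) := by
    by_contra hcon
    push Not at hcon
    apply hσclash
    rw [vtx_comm]
    intro u hu w hw
    rw [← map_conj_wOf] at hw
    obtain ⟨w, hw, rfl⟩ := hw
    change Commute u (σ * w * σ⁻¹)
    by_cases hu' : u = 1 ∨ u = z
    · rcases hu' with rfl | rfl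
      · exact Commute.one_left _
      · exact (mul_inv_eq_iff_eq_mul.1
          (mk'.z_fix (hqconj σ hσP w (hiQj hw)).1)).symm
    push Not at hu'
    have hzc : Commute u z := wOf_comm hu mk'.z_mem
    rcases plane_cases mk'.card mk'.z_mem mk'.z_ne hu hu'.1 hu'.2 hw with rfl | rfl | rfl | rfl
    · simp
    · rw [hzσ]; exact hzc
    · exact hcon _ hu
    · rw [conj_mul_conj, hzσ]; exact (hcon _ hu).mul_right hzc
  have ha1 : a ≠ 1 := fun e => hab (by simp [e])
  have haz : a ≠ z := fun e => hab (by rw [e, hzσ])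
  set b₀ := σ * a * σ⁻¹ with hb₀
  set c₀ := σ * b₀ * σ⁻¹ with hc₀
  have hbQj : b₀ ∈ qOf T j := hqconj σ hσP a (hiQj ha)
  have hbQi : b₀ ∉ qOf T k' := fun hh => hab (Subgroup.mem_centralizer_iff.1 hh.2 a ha)
  have hba : b₀ * a * b₀⁻¹ = a * z :=
    (mk'.conj_T hbQj.1 ha).resolve_left fun e => hab (mul_inv_eq_iff_eq_mul.1 e).symm
  have hza : z * a = a * z := wOf_comm mk'.z_mem ha
  have hba' : b₀ * a = z * (a * b₀) := by
    rw [mul_inv_eq_iff_eq_mul.1 hba, ← hza, mul_assoc]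
  have hcj : ∀ u v : G, σ * (u * v) * σ⁻¹ = (σ * u * σ⁻¹) * (σ * v * σ⁻¹) := conj_mul_conj σ
  have hcb : c₀ * b₀ = z * (b₀ * c₀) := by
    have := congrArg (fun g => σ * g * σ⁻¹) hba'
    simp only [hcj, hzσ] at this
    exact this
  have hσc : σ * c₀ * σ⁻¹ = a := by
    calc σ * c₀ * σ⁻¹ = σ ^ 3 * a * (σ ^ 3)⁻¹ := by
          simp only [hc₀, hb₀, pow_three, mul_inv_rev, mul_assoc]
      _ = a := by rw [hσ3]; group
  have hac : a * c₀ = z * (c₀ * a) := by
    have := congrArg (fun g => σ * g * σ⁻¹) hcb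
    simp only [hcj, hzσ, hσc] at this
    exact this
  have hbsq : b₀ * b₀ = 1 := by rw [hb₀, ← conj_mul_conj, wOf_sq ha]; group
  have hcsq : c₀ * c₀ = 1 := by rw [hc₀, ← conj_mul_conj, hbsq]; group
  have hzb : z * b₀ = b₀ * z := by
    rw [mul_inv_eq_iff_eq_mul.1 (mk'.z_fix hbQj.1)]
  obtain ⟨hιa, hιsq⟩ := triple_identities (wOf_sq ha) hbsq hcsq (wOf_sq mk'.z_mem) hza hzb
    hba' hcb hac
  set ι := a * b₀ * c₀
  have hιQj : ι ∈ qOf T j := mul_mem (mul_mem (hiQj ha) hbQj) (hqconj σ hσP b₀ hbQj)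
  have hιQi : ι ∈ qOf T k' :=
    mk'.mem_q_of_fixed hιQj.1 ha ha1 haz (mul_inv_eq_iff_eq_mul.2 hιa)
  -- the action of `b₀` on the vertex `k'`
  obtain ⟨e, he, -, heQ⟩ := exists_order_three mk'.idx
  obtain ⟨τ, hτ, hτQ, -, hτc⟩ := mk'.exists_sigma hbQj.1 hbQi he heQ
  set E := qOf T k' ⊓ qOf T j
  have hact : ∀ q ∈ E, b₀ * q * b₀⁻¹ = q ∨ b₀ * q * b₀⁻¹ = q * z := by
    intro q hq
    have hqσ : q ∈ T.map (MulAut.conj σ).toMonoidHom := by
      refine ⟨σ⁻¹ * q * σ, ?_, by change σ * (σ⁻¹ * q * σ) * σ⁻¹ = q; group⟩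
      have := hqconj σ⁻¹ (inv_mem hσP) q hq.2
      rw [inv_inv] at this
      exact this.1
    have hbW : b₀ ∈ wOf (k'.map (MulAut.conj σ).toMonoidHom) := by
      rw [← map_conj_wOf]; exact ⟨a, ha, rfl⟩
    rcases (mk'.conj σ).conj_T hqσ hbW with e' | e'
    · left; exact mul_inv_eq_iff_eq_mul.2 (mul_inv_eq_iff_eq_mul.1 e').symm
    · rw [mk'.zOf_conj, show σ * zOf T k' * σ⁻¹ = z from hzσ] at e'
      right
      have h1 := mul_inv_eq_iff_eq_mul.1 e'
      have h2 : q * z = z * q := mul_inv_eq_iff_eq_mul.1 (mk'.z_fix hq.2.1)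
      calc b₀ * q * b₀⁻¹ = b₀ * (q * b₀) := by
            rw [inv_eq_of_mul_eq_one_right hbsq, mul_assoc]
        _ = b₀ * (b₀ * z * q) := by rw [h1]
        _ = (b₀ * b₀) * (z * q) := by group
        _ = q * z := by rw [hbsq, one_mul, h2]
  have hsplit : ∀ q ∈ E, e⁻¹ * q * e ∈ E →
      ∃ u ∈ wOf k', ∃ r ∈ qOf T k', q = u * r ∧ Commute τ r := by
    intro q hq hq'
    have h2 : e * b₀ * e⁻¹ * q * (e * b₀ * e⁻¹)⁻¹ = q ∨
        e * b₀ * e⁻¹ * q * (e * b₀ * e⁻¹)⁻¹ = q * (e * zOf T k' * e⁻¹) := by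
      rcases hact _ hq' with e' | e'
      · left
        calc e * b₀ * e⁻¹ * q * (e * b₀ * e⁻¹)⁻¹ = e * (b₀ * (e⁻¹ * q * e) * b₀⁻¹) * e⁻¹ := by
              group
          _ = q := by rw [e']; group
      · right
        calc e * b₀ * e⁻¹ * q * (e * b₀ * e⁻¹)⁻¹ = e * (b₀ * (e⁻¹ * q * e) * b₀⁻¹) * e⁻¹ := by
              group
          _ = _ := by rw [e', show zOf T k' = z from rfl]; group
    obtain ⟨u, hu, r, hr, hqe, hr1, hr2⟩ := mk'.split hbQj.1 hbQi he heQ hq.1 (hact q hq) h2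
    exact ⟨u, hu, r, hr, hqe, hτc r hr1 hr2⟩
  -- the square of `ι` would be fixed by `τ`
  have hend : ∀ r, r * r = z → Commute τ r → False := by
    intro r hr hc'
    have h1 : Commute τ z := hr ▸ hc'.mul_right hc'
    exact mk'.z_ne (wOf_fixed_eq_one mk'.idx hτ hτQ mk'.z_mem (mul_inv_eq_iff_eq_mul.2 h1))
  have hιE : ι ∈ E := ⟨hιQi, hιQj⟩
  have hι : e⁻¹ * ι * e ∉ E := by
    intro hιe
    obtain ⟨u, hu, r, hr, hqe, hcr⟩ := hsplit ι hιE hιe
    refine hend r ?_ hcr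
    have hur : u * r = r * u := Subgroup.mem_centralizer_iff.1 hr.2 u hu
    calc r * r = (u * u) * (r * r) := by rw [wOf_sq hu, one_mul]
      _ = u * (u * r) * r := by group
      _ = u * (r * u) * r := by rw [← hur]
      _ = (u * r) * (u * r) := by group
      _ = z := by rw [← hqe, hιsq]
  -- an element of the plane of `j`
  obtain ⟨x, hx, hxQ⟩ := exists_not_mem_pCoreOf mj.idx
  obtain ⟨haW, ha'1, ha'2⟩ := mj.z_moved hx hxQ
  set a' := x * zOf T j * x⁻¹
  have hEa : ∀ q ∈ E, a' * q = q * a' := fun q hq => Subgroup.mem_centralizer_iff.1 hq.2.2 a' haW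
  have ha'E : a' ∈ E := ⟨hjQi haW, mj.wOf_le_q haW⟩
  by_cases ha'e : e⁻¹ * a' * e ∈ E
  · obtain ⟨u, hu, r, hr, hqe, hcr⟩ := hsplit a' ha'E ha'e
    have hτu : τ * u * τ⁻¹ ∈ wOf k' :=
      (Subgroup.mem_normalizer_iff.1 (le_normalizer_wOf k' hτ) u).1 hu
    have hτP : τ ∈ k' ⊔ T := Subgroup.mem_sup_left hτ
    have hτN : τ ∈ Subgroup.normalizer (E : Set G) := by
      rw [Subgroup.mem_normalizer_iff_map_conj_eq]
      refine Subgroup.eq_of_le_of_card_ge ?_
        (Subgroup.card_map_of_injective (f := (MulAut.conj τ).toMonoidHom)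
          (MulAut.conj τ).injective).ge
      rintro _ ⟨q, hq, rfl⟩
      change τ * q * τ⁻¹ ∈ E
      have hq' : τ * q * τ⁻¹ ∈ qOf T k' :=
        (Subgroup.mem_normalizer_iff.1 (mk'.normalizes_q hτP) q).1 hq.1
      refine ⟨hq', mj.mem_q_of_fixed hq'.1 haW ha'1 ha'2 (mul_inv_eq_iff_eq_mul.2 ?_)⟩
      have h1 : τ * a' * τ⁻¹ = (τ * u * τ⁻¹ * u) * a' := by
        conv_lhs => rw [hqe, conj_mul_conj, mul_inv_eq_iff_eq_mul.2 hcr.eq]
        rw [hqe, mul_assoc (τ * u * τ⁻¹) u, ← mul_assoc u u, wOf_sq hu, one_mul]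
      have h2 : Commute (τ * q * τ⁻¹) (τ * a' * τ⁻¹) := by
        change τ * q * τ⁻¹ * (τ * a' * τ⁻¹) = τ * a' * τ⁻¹ * (τ * q * τ⁻¹)
        rw [← conj_mul_conj, ← conj_mul_conj, hEa q hq]
      have h3 : Commute (τ * q * τ⁻¹) (τ * u * τ⁻¹ * u) :=
        (Subgroup.mem_centralizer_iff.1 hq'.2 _ (mul_mem hτu hu)).symm
      have h4 := (h3.inv_right).mul_right h2
      rw [h1, inv_mul_cancel_left] at h4
      exact h4.eq
    have hTE : T ≤ Subgroup.normalizer (E : Set G) :=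
      Modules.normalizes_inf (le_sup_right.trans mk'.normalizes_q)
        (le_sup_right.trans mj.normalizes_q)
    have hPE := mk'.le_of_sigma hTE hτ hτQ hτN
    refine hι ?_
    have := (Subgroup.mem_normalizer_iff.1 (hPE (Subgroup.mem_sup_left (inv_mem he))) ι).1 hιE
    rwa [inv_inv] at this
  · -- both move out of `E`, so the product stays
    have hout : ∀ q ∈ E, e⁻¹ * q * e ∉ E → e⁻¹ * q * e ∈ qOf T k' ∧ e⁻¹ * q * e ∉ qOf T j := by
      intro q hq hqe
      have h1 := (Subgroup.mem_normalizer_iff.1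
        (mk'.normalizes_q (Subgroup.mem_sup_left (inv_mem he))) q).1 hq.1
      rw [inv_inv] at h1
      exact ⟨h1, fun h2 => hqe ⟨h1, h2⟩⟩
    obtain ⟨h1, h1'⟩ := hout a' ha'E ha'e
    obtain ⟨h2, h2'⟩ := hout ι hιE hι
    have hprod : e⁻¹ * (a' * ι) * e ∈ E := by
      rw [show e⁻¹ * (a' * ι) * e = (e⁻¹ * a' * e) * (e⁻¹ * ι * e) by group]
      exact ⟨mul_mem h1 h2, mj.q_mul h1.1 h1' h2.1 h2'⟩
    obtain ⟨u, hu, r, hr, hqe, hcr⟩ := hsplit (a' * ι) (mul_mem ha'E hιE) hprod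
    refine hend r ?_ hcr
    have hur : u * r = r * u := Subgroup.mem_centralizer_iff.1 hr.2 u hu
    have ha'sq : a' * a' = 1 := wOf_sq haW
    calc r * r = (u * u) * (r * r) := by rw [wOf_sq hu, one_mul]
      _ = u * (u * r) * r := by group
      _ = u * (r * u) * r := by rw [← hur]
      _ = (u * r) * (u * r) := by group
      _ = a' * (ι * a') * ι := by rw [← hqe]; group
      _ = (a' * a') * (ι * ι) := by rw [← hEa ι hιE]; group
      _ = z := by rw [ha'sq, hιsq, one_mul]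

end Cfsg.Agent.LocalEven
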