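import Cfsg.Agent.LocalEven.JGraph

/-!
Two components with common `T`: their planes do not commute.
-/

set_option autoImplicit false

open Cfsg
open scoped commutatorElement

namespace Cfsg.Agent.LocalEven

variable {G : Type*} [Group G] [Finite G] {T : Subgroup G} {V : Set (Subgroup G)}

theorem vtx_fst (T K : Subgroup G) (h : G) : (vtx T K h).1 = K.map (MulAut.conj h).toMonoidHom :=
  rfl

theorem vtx_snd (T K : Subgroup G) (h : G) :
    (vtx T K h).2 = (K ⊔ T).map (MulAut.conj h).toMonoidHom := rfl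

theorem vtx_one_fst (T K : Subgroup G) : (vtx T K 1).1 = K := map_conj_one K

theorem vtx_one_snd (T K : Subgroup G) : (vtx T K 1).2 = K ⊔ T := map_conj_one _

/-- An element of the plane of a vertex, conjugated back. -/
theorem mem_wOf_vtx {K : Subgroup G} {h u : G} :
    u ∈ wOf (vtx T K h).1 ↔ ∃ v ∈ wOf K, h * v * h⁻¹ = u := by
  rw [vtx_fst, ← map_conj_wOf]
  rfl

theorem vtx_eq_self {K : Subgroup G} (hm : Member T K) {g : G} (hg : g ∈ K ⊔ T) :
    vtx T K g = vtx T K 1 := by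
  refine Prod.ext ?_ ?_
  · rw [vtx_fst, vtx_one_fst]
    exact FF.map_conj_eq ((sup_le Subgroup.le_normalizer hm.norm) hg)
  · rw [vtx_snd, vtx_one_snd]
    exact FF.map_conj_eq (Subgroup.le_normalizer hg)

theorem vtx_comm {K K' : Subgroup G} {g : G} :
    PlaneComm (vtx T K 1) (vtx T K' g) ↔
      ∀ u ∈ wOf K, ∀ w ∈ wOf (K'.map (MulAut.conj g).toMonoidHom), u * w = w * u := by
  rw [PlaneComm, vtx_one_fst, vtx_fst]

/-- A minimal pair with non-commuting planes. -/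
structure Crit (T : Subgroup G) (V : Set (Subgroup G)) (b : ℕ) (i j k : Subgroup G) (h : G) :
    Prop where
  hmin : ∀ n < b + 1, ∀ a c, IsVtx T V a → VReach T V n a c → PlaneComm a c
  hi : i ∈ V
  hj : j ∈ V
  hk : k ∈ V
  hij : i ≠ j
  reach : VReach T V b (vtx T j 1) (vtx T k h)
  last : ∃ l ∈ V, l ≠ k ∧ VReach T V b (vtx T i 1) (vtx T l h)
  clash : ¬ PlaneComm (vtx T i 1) (vtx T k h)

theorem Fam.exists_crit (hF : Fam T V) :
    ∃ b i j k h, Crit T V b i j k h ∧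
      (b = 1 → ∃ l ∈ V, l ≠ k ∧ vtx T j 1 = vtx T l h) ∧ (b = 0 → vtx T j 1 = vtx T k h) := by
  classical
  have hex := hF.exists_clash
  set b₀ := Nat.find hex with hb₀
  obtain ⟨a, c, ha, hr, hnc⟩ := Nat.find_spec hex
  have hmin : ∀ n < b₀, ∀ a c, IsVtx T V a → VReach T V n a c → PlaneComm a c := by
    intro n hn a c ha hr
    by_contra hcon
    exact Nat.find_min hex hn ⟨a, c, ha, hr, hcon⟩
  rw [← hb₀] at hr
  obtain ⟨b, hb⟩ : ∃ b, b₀ = b + 1 := by
    refine ⟨b₀ - 1, (Nat.succ_pred_eq_of_pos (Nat.pos_of_ne_zero fun h0 => hnc ?_)).symm⟩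
    rw [h0] at hr
    intro u hu w hw
    exact wOf_comm ((hr : a = c) ▸ hu) hw
  rw [hb] at hr hmin
  obtain ⟨d, hd, hdc⟩ := hr.symm
  obtain ⟨h₀, j, hj, i, hi, hne, rfl, rfl⟩ := hdc
  set a' := vtx T i 1
  set c' := cjv h₀⁻¹ c
  have e1 : ∀ K : Subgroup G, cjv h₀⁻¹ (vtx T K h₀) = vtx T K 1 := fun K => by
    rw [cjv_vtx, inv_mul_cancel]
  have hd' : VReach T V b (vtx T j 1) c' := by
    have := (hd.symm).cjv h₀⁻¹
    rwa [e1] at this
  have hnc' : ¬ PlaneComm a' c' := by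
    intro hcomm
    have := hcomm.cjv h₀
    simp only [a', c', cjv_vtx, mul_one] at this
    refine hnc ?_
    convert this using 1
    rw [LocalEven.cjv, LocalEven.cjv, map_conj_map_conj, map_conj_map_conj, mul_inv_cancel,
      map_conj_one, map_conj_one]
  have hadj : VAdj T V a' (vtx T j 1) := ⟨1, i, hi, j, hj, hne.symm, rfl, rfl⟩
  rcases Nat.eq_zero_or_pos b with hb0 | hbpos
  · subst hb0
    have hc' : vtx T j 1 = c' := hd'
    exact ⟨0, i, j, j, 1, ⟨hmin, hi, hj, hj, hne.symm, rfl, ⟨i, hi, hne.symm, rfl⟩, hc' ▸ hnc'⟩,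
      fun h => absurd h (by omega), fun _ => rfl⟩
  · obtain ⟨m, rfl⟩ : ∃ m, b = m + 1 := ⟨b - 1, (Nat.succ_pred_eq_of_pos hbpos).symm⟩
    obtain ⟨x, hx, g, l, hl, k, hk, hlk, rfl, hck⟩ := hd'
    have hreach : VReach T V (m + 1) (vtx T j 1) (vtx T k g) :=
      ⟨_, hx, g, l, hl, k, hk, hlk, rfl, rfl⟩
    refine ⟨m + 1, i, j, k, g, ⟨hmin, hi, hj, hk, hne.symm, hreach, ⟨l, hl, hlk,
      VReach.cons hadj hx⟩, hck ▸ hnc'⟩, fun hm => ?_, fun h => absurd h (by omega)⟩
    obtain rfl : m = 0 := by omega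
    exact ⟨l, hl, hlk, hx⟩

theorem Crit.left_le (hF : Fam T V) {b : ℕ} {i j k : Subgroup G} {h : G}
    (hc : Crit T V b i j k h) : wOf i ≤ T.map (MulAut.conj h).toMonoidHom := by
  obtain ⟨l, hl, -, hr⟩ := hc.last
  have := hF.le_edge hc.hmin (Nat.lt_succ_self b) ⟨i, hc.hi, 1, rfl⟩ hl hr
  rwa [vtx_one_fst] at this

theorem Crit.right_le (hF : Fam T V) {b : ℕ} {i j k : Subgroup G} {h : G}
    (hc : Crit T V b i j k h) : wOf (k.map (MulAut.conj h).toMonoidHom) ≤ T := by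
  have := hF.le_edge hc.hmin (Nat.lt_succ_self b) ⟨k, hc.hk, h, rfl⟩ hc.hj hc.reach.symm
  rwa [map_conj_one, vtx_fst] at this

theorem Crit.z_eq (hF : Fam T V) {b : ℕ} {i j k : Subgroup G} {h : G} (hc : Crit T V b i j k h) :
    zOf T i = h * zOf T k * h⁻¹ := by
  rw [← (hF.member k hc.hk).zOf_conj h]
  exact clash_z_eq (hF.member i hc.hi) ((hF.member k hc.hk).conj h) (hc.left_le hF)
    (hc.right_le hF) fun e => hc.clash (vtx_comm.2 e)

theorem Member.plane_le {K W : Subgroup G} (hm : Member T K) {z' : G} (hz' : z' ∈ wOf K)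
    (h1 : z' ≠ 1) (h2 : z' ≠ zOf T K) (hzW : zOf T K ∈ W) (hz'W : z' ∈ W) : wOf K ≤ W := by
  intro v hv
  rcases plane_cases hm.card hm.z_mem hm.z_ne hz' h1 h2 hv with rfl | rfl | rfl | rfl
  · exact one_mem _
  · exact hzW
  · exact hz'W
  · exact mul_mem hz'W hzW

theorem Member.inf_conj_le_q {K : Subgroup G} (hm : Member T K) {σ : G} (hσ : σ ∈ K)
    (hσQ : σ ∉ pCoreOf 2 K) {f : G} (hf : f ∈ T)
    (hf' : f ∈ T.map (MulAut.conj σ).toMonoidHom) : f ∈ qOf T K := by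
  obtain ⟨hW, h1, h2⟩ := hm.z_moved hσ hσQ
  refine hm.mem_q_of_fixed hf hW h1 h2 ?_
  obtain ⟨t, ht, rfl⟩ := hf'
  change σ * t * σ⁻¹ * (σ * zOf T K * σ⁻¹) * (σ * t * σ⁻¹)⁻¹ = _
  conv_rhs => rw [← hm.z_fix ht]
  group

theorem Member.relIndex_T_conj {K : Subgroup G} (hm : Member T K) {σ : G} (hσ : σ ∈ K ⊔ T) :
    (T.map (MulAut.conj σ).toMonoidHom).relIndex (K ⊔ T) = 3 := by
  conv_lhs => rw [← FF.map_conj_eq (Subgroup.le_normalizer hσ)]
  rw [Subgroup.relIndex_map_map_of_injective _ _ (MulAut.conj σ).injective, hm.relIndex_T]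

/-- Two members do not have the same `C_T(W)`. -/
theorem Fam.q_not_le (hF : Fam T V) {i j : Subgroup G} (hi : i ∈ V) (hj : j ∈ V) (hij : i ≠ j) :
    ¬ qOf T i ≤ qOf T j := by
  intro hle
  have mi := hF.member i hi
  have mj := hF.member j hj
  have h := Subgroup.relIndex_mul_relIndex (qOf T i) (qOf T j) T hle inf_le_left
  rw [mi.relIndex_q, mj.relIndex_q] at h
  have heq : qOf T j = qOf T i :=
    le_antisymm (Subgroup.relIndex_eq_one.1 (by omega)) hle
  have hb := hF.apart i hi j hj hij (qOf T i) (mi.hT.to_le inf_le_left)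
    (le_sup_left.trans mi.normalizes_q) (heq ▸ le_sup_left.trans mj.normalizes_q)
    (le_sup_right.trans mi.normalizes_q)
  exact mi.z_ne (Subgroup.mem_bot.1 (hb ▸ mi.wOf_le_q mi.z_mem))

/-- With a common fixed involution two members have non-commuting planes. -/
theorem Fam.clash_of_common (hF : Fam T V) (hz : ∀ K ∈ V, ∀ K' ∈ V, zOf T K = zOf T K') :
    ∃ i ∈ V, ∃ j ∈ V, i ≠ j ∧ ∃ u ∈ wOf i, ∃ w ∈ wOf j, u * w ≠ w * u := by
  obtain ⟨b, i, j, k, h, hc, -, hb0⟩ := hF.exists_crit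
  rcases Nat.eq_zero_or_pos b with hb | hb
  · have h0 := hb0 hb
    have hn := hc.clash
    rw [← h0, vtx_comm, map_conj_one] at hn
    push Not at hn
    exact ⟨i, hc.hi, j, hc.hj, hc.hij, hn⟩
  exfalso
  obtain ⟨m, rfl⟩ : ∃ m, b = m + 1 := ⟨b - 1, (Nat.succ_pred_eq_of_pos hb).symm⟩
  have mi := hF.member i hc.hi
  have mj := hF.member j hc.hj
  have mk' := hF.member k hc.hk
  have hzh : zOf T i = h * zOf T i * h⁻¹ := by
    conv_lhs => rw [hc.z_eq hF, hz k hc.hk i hc.hi]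
  obtain ⟨σ, hσ, -, hσQ⟩ := exists_order_three mi.idx
  obtain ⟨l, hl, hlk, hr⟩ := hc.last
  obtain ⟨d, hd, g, l₀, hl₀, l', hl', hll, hdd, hlc⟩ := hr
  set z := zOf T i
  set Tσ := T.map (MulAut.conj σ).toMonoidHom
  set a'' := vtx T j σ
  have hσP : σ ∈ i ⊔ T := Subgroup.mem_sup_left hσ
  have hvσ := vtx_eq_self mi hσP
  have hadj : VAdj T V a'' (vtx T i 1) :=
    ⟨σ, j, hc.hj, i, hc.hi, hc.hij.symm, rfl, hvσ.symm⟩
  have ha'' : IsVtx T V a'' := IsVtx.of_adj hadj
  have hrd : VReach T V (m + 1) a'' d := VReach.cons hadj hd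
  have hWd := hF.le_q_of_reach hc.hmin (m + 1) (Nat.lt_succ_self _) a'' d ha'' hrd
  rw [hdd, q_vtx (hF.member l₀ hl₀)] at hWd
  have hWg : wOf a''.1 ≤ T.map (MulAut.conj g).toMonoidHom := hWd.trans inf_le_left
  obtain ⟨hW, hz1, hz2⟩ := mi.z_moved hσ hσQ
  have hW'' : ∀ v, v ∈ wOf a''.1 ↔ ∃ v₀ ∈ wOf j, σ * v₀ * σ⁻¹ = v := fun v => mem_wOf_vtx
  have hzj : zOf T j = z := hz j hc.hj i hc.hi
  by_cases hcomm : PlaneComm a'' (vtx T l h)
  · -- the product of the planes is normal in `P`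
    have hq : wOf a''.1 ≤ T.map (MulAut.conj h).toMonoidHom := by
      have h1 : wOf a''.1 ≤ pCoreOf 2 (vtx T l' g).2 := by
        rw [q_vtx (hF.member l' hl')]
        exact le_inf hWg fun u hu => Subgroup.mem_centralizer_iff.2 fun w hw =>
          (hcomm u hu w (hlc ▸ hw)).symm
      rw [← hlc, q_vtx (hF.member l hl)] at h1
      exact h1.trans inf_le_left
    obtain ⟨u₀, hu₀, f, hf, hne⟩ : ∃ u ∈ wOf i,
        ∃ f ∈ wOf (k.map (MulAut.conj h).toMonoidHom), u * f ≠ f * u := by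
      have hn := hc.clash
      rw [vtx_comm] at hn
      push Not at hn
      exact hn
    have hfT : f ∈ T := hc.right_le hF hf
    have hfQ : f ∉ qOf T i := fun hq => hne (Subgroup.mem_centralizer_iff.1 hq.2 u₀ hu₀)
    set N := wOf i ⊔ wOf a''.1 with hN
    have hN2 : IsPGroup 2 N := by
      refine Modules.elemAb_isPGroup (Modules.elemAb_sup (wOf_elemAb _) (wOf_elemAb _) ?_)
      intro u hu
      rw [Subgroup.mem_centralizer_iff]
      intro w hw
      exact (hc.hmin 1 (by omega) _ _ ha'' ⟨_, rfl, hadj⟩ u hu w (by rwa [vtx_one_fst])).symm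
    have hnorm : ∀ g : G, (∀ u ∈ wOf i, g * u * g⁻¹ ∈ N) → (∀ u ∈ wOf a''.1, g * u * g⁻¹ ∈ N) →
        g ∈ Subgroup.normalizer (N : Set G) := by
      intro g h1 h2
      rw [Subgroup.mem_normalizer_iff_map_conj_eq]
      refine Subgroup.eq_of_le_of_card_ge ?_
        (Subgroup.card_map_of_injective (f := (MulAut.conj g).toMonoidHom)
          (MulAut.conj g).injective).ge
      rw [Subgroup.map_le_iff_le_comap, hN, sup_le_iff]
      exact ⟨fun u hu => h1 u hu, fun u hu => h2 u hu⟩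
    have hPW := mi.sup_le_normalizer
    have hiW : ∀ g ∈ i ⊔ T, ∀ u ∈ wOf i, g * u * g⁻¹ ∈ N := fun g hg u hu =>
      Subgroup.mem_sup_left ((Subgroup.mem_normalizer_iff.1 (hPW hg) u).1 hu)
    have hσT : Tσ ≤ Subgroup.normalizer (N : Set G) := by
      intro t ht
      refine hnorm t (hiW t ?_) fun u hu => Subgroup.mem_sup_right ?_
      · obtain ⟨t₀, ht₀, rfl⟩ := ht
        exact mul_mem (mul_mem hσP (Subgroup.mem_sup_right ht₀)) (inv_mem hσP)
      · have := normalizer_le_normalizer_wOf _ ((mj.conj σ).norm ht)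
        exact (Subgroup.mem_normalizer_iff.1 this u).1 hu
    have hfN : f ∈ Subgroup.normalizer (N : Set G) := by
      have h2 : f⁻¹ ∈ Subgroup.normalizer (N : Set G) := by
        refine hnorm f⁻¹ (hiW _ (inv_mem (Subgroup.mem_sup_right hfT))) fun u hu => ?_
        have hzk : zOf (T.map (MulAut.conj h).toMonoidHom)
            (k.map (MulAut.conj h).toMonoidHom) = z := by
          rw [mk'.zOf_conj, hz k hc.hk i hc.hi, ← hzh]
        rcases (mk'.conj h).conj_T (hq hu) hf with e | e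
        · refine Subgroup.mem_sup_right ?_
          rw [inv_inv, show f⁻¹ * u * f = u by
            rw [mul_assoc, mul_inv_eq_iff_eq_mul.1 e, inv_mul_cancel_left]]
          exact hu
        · rw [hzk] at e
          rw [inv_inv, show f⁻¹ * u * f = z * u by
            rw [mul_assoc, mul_inv_eq_iff_eq_mul.1 e]; group]
          exact mul_mem (Subgroup.mem_sup_left mi.z_mem) (Subgroup.mem_sup_right hu)
      simpa using inv_mem h2
    have hX : (i ⊔ T) ⊓ Subgroup.normalizer (N : Set G) = i ⊔ T := by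
      refine mi.eq_sup (mi.relIndex_T_conj hσP) (le_inf ?_ hσT) inf_le_left
        (g := f) ⟨Subgroup.mem_sup_right hfT, hfN⟩ fun hh => hfQ (mi.inf_conj_le_q hσ hσQ hfT hh)
      rintro _ ⟨t₀, ht₀, rfl⟩
      exact mul_mem (mul_mem hσP (Subgroup.mem_sup_right ht₀)) (inv_mem hσP)
    have hWjN : wOf j ≤ N := by
      intro v hv
      have hσN : σ ∈ Subgroup.normalizer (N : Set G) := (hX.ge hσP).2
      exact (Subgroup.mem_normalizer_iff.1 hσN v).2
        (Subgroup.mem_sup_right ((hW'' _).2 ⟨v, hv, rfl⟩))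
    refine hF.q_not_le hc.hi hc.hj hc.hij fun q hq' => ⟨hq'.1, Subgroup.mem_centralizer_iff.2 ?_⟩
    intro v hv
    have hqσ : q ∈ Tσ := by
      have h1 : σ⁻¹ * q * σ ∈ qOf T i := by
        have := (Subgroup.mem_normalizer_iff.1
          (mi.normalizes_q (inv_mem hσP)) q).1 hq'
        simpa using this
      exact ⟨σ⁻¹ * q * σ, h1.1, by
        change σ * (σ⁻¹ * q * σ) * σ⁻¹ = q
        group⟩
    have hmem : v ∈ (↑(wOf i ⊔ wOf a''.1) : Set G) := hWjN hv
    rw [Subgroup.coe_mul_of_right_le_normalizer_left] at hmem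
    · obtain ⟨u, hu, w, hw, rfl⟩ := Set.mem_mul.1 hmem
      have e0 : q * u * q⁻¹ = u := by
        rw [← Subgroup.mem_centralizer_iff.1 hq'.2 u hu, mul_inv_cancel_right]
      refine (mul_inv_eq_iff_eq_mul.1 ?_).symm
      rcases (mj.conj σ).conj_T hqσ hw with e | e
      · rw [conj_mul_conj, e0, e]
      · rw [mj.zOf_conj, hzj] at e
        rcases mj.conj_T hq'.1 hv with e' | e'
        · exact e'
        · exfalso
          rw [conj_mul_conj, e0, e, hzj, ← mul_assoc] at e'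
          exact hz2 (mul_left_cancel e')
    · intro w hw
      rw [Subgroup.mem_normalizer_iff]
      intro u
      have hcen : ∀ u ∈ wOf i, w * u * w⁻¹ = u := fun u hu => by
        rw [hc.hmin 1 (by omega) _ _ ha'' ⟨_, rfl, hadj⟩ w hw u (by rwa [vtx_one_fst]),
          mul_inv_cancel_right]
      refine ⟨fun hu => by rw [hcen u hu]; exact hu, fun hu => ?_⟩
      have := hcen _ hu
      rw [mul_right_cancel_iff (a := w⁻¹)] at this
      exact mul_left_cancel this ▸ hu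
  · -- the pair moves one step back
    have hlc' : vtx T l h = vtx T l' g := hlc
    have hback : wOf (vtx T l h).1 ≤ Tσ := by
      have hrv : VReach T V (m + 1) (vtx T l h) (vtx T i 1) := by
        rw [hlc']
        refine (VReach.symm ?_)
        exact ⟨d, hd, g, l₀, hl₀, l', hl', ‹_›, hdd, rfl⟩
      have := hF.le_edge hc.hmin (Nat.lt_succ_self _) (IsVtx.of_reach ⟨i, hc.hi, 1, rfl⟩ hrv.symm)
        hc.hi (h := σ) (hvσ.symm ▸ hrv)
      exact this
    have hzeq : σ * zOf T j * σ⁻¹ = g * zOf T l' * g⁻¹ := by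
      rw [← mj.zOf_conj σ, ← (hF.member l' hl').zOf_conj g]
      refine clash_z_eq (mj.conj σ) ((hF.member l' hl').conj g) hWg ?_ fun e => hcomm ?_
      · rw [hlc'] at hback; exact hback
      · rw [hlc']; exact e
    rw [hzj] at hzeq
    have h1 : σ * z * σ⁻¹ ∈ wOf (vtx T l h).1 := by
      rw [hlc', hzeq]; exact mem_wOf_vtx.2 ⟨_, (hF.member l' hl').z_mem, rfl⟩
    have h2 : z ∈ wOf (vtx T l h).1 := by
      refine mem_wOf_vtx.2 ⟨zOf T l, (hF.member l hl).z_mem, ?_⟩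
      rw [hz l hl i hc.hi, ← hzh]
    have hle : wOf i ≤ wOf (vtx T l h).1 := mi.plane_le hW hz1 hz2 h2 h1
    refine hc.clash fun u hu w hw => ?_
    rw [vtx_one_fst] at hu
    exact hc.hmin 1 (by omega) (vtx T l h) (vtx T k h) ⟨l, hl, h, rfl⟩
      ⟨_, rfl, h, l, hl, k, hc.hk, hlk, rfl, rfl⟩ u (hle hu) w hw

end Cfsg.Agent.LocalEven
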