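import Cfsg.Agent.LocalEven.JIdentify

/-!
Families of tight components with different maximal overgroups.
-/

set_option autoImplicit false

open Cfsg
open scoped commutatorElement

namespace Cfsg.Agent.LocalEven

variable {G : Type*} [Group G] [Finite G] {T L L' K K' : Subgroup G}

/-- No nontrivial 2-subgroup is normalized by two tight components with different overgroups. -/
theorem apart_of_ne (hz : ZNHyp G) (hT : IsPGroup 2 T) (hK : Tight T K)
    (hL : IsMaximalTwoLocal L) (hKL : K ≤ L) (hTL : T ≤ L) (hK' : Tight T K')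
    (hL' : IsMaximalTwoLocal L') (hKL' : K' ≤ L') (hTL' : T ≤ L') (hne : L ≠ L')
    {X : Subgroup G} (hX : IsPGroup 2 X) (h1 : K ≤ Subgroup.normalizer (X : Set G))
    (h2 : K' ≤ Subgroup.normalizer (X : Set G)) (h3 : T ≤ Subgroup.normalizer (X : Set G)) :
    X = ⊥ := by
  by_contra hX1
  have hY : IsTwoLocal (Subgroup.normalizer (X : Set G)) := ⟨X, hX, hX1, rfl⟩
  have hle := hK.le_max hz hT hL hKL ((thompsonOf_le T).trans hTL) hY h1
    ((thompsonOf_le T).trans h3)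
  exact hne (hK'.unique hz hT hL' hKL' ((thompsonOf_le T).trans hTL') hL (h2.trans hle)
    ((thompsonOf_le T).trans hTL))

theorem zOf_mem_z0 (hm : Member T K) : zOf T K ∈ z0Of T :=
  mem_z0_of_central ((hm.wOf_le_q hm.z_mem).1) (wOf_sq hm.z_mem) fun _ ht =>
    mul_inv_eq_iff_eq_mul.1 (hm.z_fix ht)

theorem zOf_not_mem_hOf (hm : Member T K) : zOf T K ∉ hOf T K := by
  intro hh
  obtain ⟨x, hx, hxQ⟩ := exists_not_mem_pCoreOf hm.idx
  exact hm.z_ne (wOf_fixed_eq_one hm.idx hx hxQ hm.z_mem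
    (mul_inv_eq_iff_eq_mul.2 (Subgroup.mem_centralizer_iff.1 hh.2 x hx)))

/-- The small structure from two clashing members. -/
theorem small_of_pair (hz : ZNHyp G) (hK : Tight T K) (hL : IsMaximalTwoLocal L) (hKL : K ≤ L)
    (hTL : T ≤ L) (hK' : Tight T K') (hL' : IsMaximalTwoLocal L') (hKL' : K' ≤ L') (hTL' : T ≤ L')
    (hne : L ≠ L') (mK : Member T K) (mK' : Member T K') (h4 : Nat.card ↥(z0Of T) ≤ 4)
    (hcl : ∃ u ∈ wOf K, ∃ w ∈ wOf K', u * w ≠ w * u) : Small T K ∧ Small T K' := by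
  obtain ⟨u, hu, w, hw, huw⟩ := hcl
  have hR : ∀ C, Tight T C → ∀ r ∈ T, r * r = 1 → (∀ t ∈ T, t * r = r * t) →
      r ∈ Subgroup.centralizer (C : Set G) → r ≠ 1 → ∀ r' ∈ T, r' * r' = 1 →
      (∀ t ∈ T, t * r' = r' * t) → r' ∈ Subgroup.centralizer (C : Set G) → r' ≠ 1 → r = r' :=
    fun C hC r hr hr2 hrc hrK hr1 r' hr' hr2' hrc' hrK' hr1' => line_unique hC.1 mK.hT h4
      ⟨mem_z0_of_central hr hr2 hrc, hrK⟩ hr1 ⟨mem_z0_of_central hr' hr2' hrc', hrK'⟩ hr1'
  have hap := fun X hX h1 h2 h3 =>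
    apart_of_ne hz mK.hT hK hL hKL hTL hK' hL' hKL' hTL' hne (X := X) hX h1 h2 h3
  exact ⟨small_of_clash mK mK' hap hu hw huw (hR K hK),
    small_of_clash mK' mK (fun X hX h1 h2 h3 => hap X hX h2 h1 h3) hw hu huw.symm (hR K' hK')⟩

/-- Two members with the same fixed involution have small structure. -/
theorem small_of_common (hz : ZNHyp G) (hK : Tight T K) (hL : IsMaximalTwoLocal L) (hKL : K ≤ L)
    (hTL : T ≤ L) (hK' : Tight T K') (hL' : IsMaximalTwoLocal L') (hKL' : K' ≤ L') (hTL' : T ≤ L')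
    (hne : L ≠ L') (mK : Member T K) (mK' : Member T K') (h4 : Nat.card ↥(z0Of T) ≤ 4)
    (hz' : zOf T K = zOf T K') : Small T K ∧ Small T K' := by
  have hKK' : K ≠ K' := by
    rintro rfl
    exact hne (hK'.unique hz mK.hT hL' hKL' ((thompsonOf_le T).trans hTL') hL hKL
      ((thompsonOf_le T).trans hTL))
  set V : Set (Subgroup G) := {C | C = K ∨ C = K'}
  have hF : Fam T V := by
    refine ⟨?_, ?_, K, Or.inl rfl, K', Or.inr rfl, hKK'⟩
    · rintro C (rfl | rfl)
      exacts [mK, mK']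
    · rintro C (rfl | rfl) C' (rfl | rfl) hCC' X hX h1 h2 h3
      · exact absurd rfl hCC'
      · exact apart_of_ne hz mK.hT hK hL hKL hTL hK' hL' hKL' hTL' hne hX h1 h2 h3
      · exact apart_of_ne hz mK.hT hK hL hKL hTL hK' hL' hKL' hTL' hne hX h2 h1 h3
      · exact absurd rfl hCC'
  obtain ⟨i, hi, j, hj, hij, u, hu, w, hw, huw⟩ := hF.clash_of_common (by
    rintro C (rfl | rfl) C' (rfl | rfl)
    exacts [rfl, hz', hz'.symm, rfl])
  refine small_of_pair hz hK hL hKL hTL hK' hL' hKL' hTL' hne mK mK' h4 ?_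
  rcases hi with rfl | rfl <;> rcases hj with rfl | rfl
  · exact absurd rfl hij
  · exact ⟨u, hu, w, hw, huw⟩
  · exact ⟨w, hw, u, hu, huw.symm⟩
  · exact absurd rfl hij

/-- A walk of length two through a member whose line contains the common involution. -/
theorem meet_of_line {V : Set (Subgroup G)} (hF : Fam T V)
    (hclosed : ∀ n ∈ Subgroup.normalizer (T : Set G), ∀ C ∈ V,
      C.map (MulAut.conj n).toMonoidHom ∈ V)
    {i k m Lm : Subgroup G} (hi : i ∈ V) (hk : k ∈ V) (hm : m ∈ V) {h : G}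
    (heq : zOf T i = h * zOf T k * h⁻¹) (hzm : zOf T i ∈ hOf T m)
    (hCL : Subgroup.centralizer ({zOf T i} : Set G) ≤ Lm) (hSyl : IsSylowTwoIn T Lm)
    (hdec : ∀ x ∈ Lm, ∃ c ∈ m ⊔ T, ∃ n ∈ Subgroup.normalizer (T : Set G), x = c * n) :
    ∃ n ≤ 2, VReach T V n (vtx T i 1) (vtx T k h) := by
  have mi := hF.member i hi
  have mk' := hF.member k hk
  have mm := hF.member m hm
  have hTh : T.map (MulAut.conj h).toMonoidHom ≤ Lm := by
    refine le_trans ?_ hCL
    rintro _ ⟨t, ht, rfl⟩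
    refine Subgroup.mem_centralizer_singleton_iff.2 (mul_inv_eq_iff_eq_mul.1 ?_)
    change h * t * h⁻¹ * zOf T i * (h * t * h⁻¹)⁻¹ = zOf T i
    rw [heq]
    conv_rhs => rw [← mk'.z_fix ht]
    group
  obtain ⟨S, hS, hThS⟩ := exists_isSylowTwoIn (mi.hT.map _) hTh
  obtain ⟨x, hx, hxS⟩ := exists_conj_of_isSylowTwoIn hSyl hS
  have hSeq : S = T.map (MulAut.conj h).toMonoidHom := by
    refine (Subgroup.eq_of_le_of_card_ge hThS ?_).symm
    rw [← hxS, Subgroup.card_map_of_injective (MulAut.conj x).injective,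
      Subgroup.card_map_of_injective (MulAut.conj h).injective]
  obtain ⟨c, hc, n, hn, rfl⟩ := hdec x hx
  have hTc : T.map (MulAut.conj c).toMonoidHom = T.map (MulAut.conj h).toMonoidHom := by
    rw [← hSeq, ← hxS, ← map_conj_map_conj]
    congr 1
    exact (FF.map_conj_eq hn).symm
  set ν := h⁻¹ * c
  have hν : ν ∈ Subgroup.normalizer (T : Set G) := by
    rw [Subgroup.mem_normalizer_iff_map_conj_eq]
    change T.map (MulAut.conj ν).toMonoidHom = T
    rw [← map_conj_map_conj, hTc, map_conj_inv_map_conj]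
  set l := m.map (MulAut.conj ν).toMonoidHom with hl
  have hlV : l ∈ V := hclosed ν hν m hm
  have hvl : vtx T l h = vtx T m 1 := by
    have e : vtx T l h = vtx T m c := by
      refine Prod.ext ?_ ?_
      · rw [vtx_fst, vtx_fst, hl, map_conj_map_conj, mul_inv_cancel_left]
      · rw [vtx_snd, vtx_snd, hl,
          show T = T.map (MulAut.conj ν).toMonoidHom from (FF.map_conj_eq hν).symm,
          ← Subgroup.map_sup, map_conj_map_conj, mul_inv_cancel_left]
        congr 2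
        exact (FF.map_conj_eq hν).symm
    rw [e]; exact vtx_eq_self mm hc
  have him : i ≠ m := by
    rintro rfl
    exact zOf_not_mem_hOf mi hzm
  have hlk : l ≠ k := by
    intro hlk
    obtain ⟨y, hy, hyQ⟩ := exists_not_mem_pCoreOf mk'.idx
    refine mk'.z_ne (wOf_fixed_eq_one mk'.idx hy hyQ mk'.z_mem ?_)
    have h1 : h * y * h⁻¹ ∈ m := by
      have : h * y * h⁻¹ ∈ (vtx T l h).1 := by rw [hlk]; exact ⟨y, hy, rfl⟩
      rwa [hvl, vtx_one_fst] at this
    have h2 := Subgroup.mem_centralizer_iff.1 hzm.2 _ h1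
    rw [heq, ← conj_mul_conj, ← conj_mul_conj] at h2
    exact mul_inv_eq_iff_eq_mul.2 (mul_left_cancel (mul_right_cancel h2))
  exact ⟨2, le_rfl, vtx T m 1, ⟨_, rfl, 1, i, hi, m, hm, him, rfl, rfl⟩,
    h, l, hlV, k, hk, hlk, hvl.symm, rfl⟩

/-- An element of order two modulo `T` in the normalizer inside a larger 2-group. -/
theorem exists_normalizer_step {S : Subgroup G} (hS : IsPGroup 2 S) (hTS : T ≤ S) (hne : T ≠ S) :
    ∃ g ∈ S, g ∈ Subgroup.normalizer (T : Set G) ∧ g ∉ T ∧ g * g ∈ T := by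
  haveI : Fact (Nat.Prime 2) := ⟨Nat.prime_two⟩
  obtain ⟨x, ⟨hxS, hxN⟩, hxT⟩ :=
    SetLike.exists_of_lt (Fusion.lt_normalizer_inf hS (lt_of_le_of_ne hTS hne))
  have hex : ∃ n : ℕ, x ^ 2 ^ n ∈ T := by
    obtain ⟨n, hn⟩ := two_pow_pow_eq_one hS hxS
    exact ⟨n, by rw [hn]; exact one_mem _⟩
  classical
  obtain ⟨n, hn⟩ : ∃ n, Nat.find hex = n + 1 := ⟨Nat.find hex - 1,
    (Nat.succ_pred_eq_of_pos (Nat.pos_of_ne_zero fun h0 => hxT (by
      simpa [h0] using Nat.find_spec hex))).symm⟩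
  refine ⟨x ^ 2 ^ n, pow_mem hxS _, pow_mem hxN _, Nat.find_min hex (by omega), ?_⟩
  have := Nat.find_spec hex
  rw [hn, pow_succ, pow_mul] at this
  rwa [← pow_two]

end Cfsg.Agent.LocalEven
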