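import Cfsg.Agent.LocalEven.JSylowCase

/-!
The components outside `M` and the two maximal 2-local subgroups over `T`.
-/

set_option autoImplicit false

open Cfsg
open scoped commutatorElement

namespace Cfsg.Agent.LocalEven

variable {G : Type*} [Group G] [Finite G] {T M L K : Subgroup G} {S : Sylow 2 G} {g : G}

theorem exists_overgroup (hK : K ∈ jComponentsOutside M T) :
    ∃ L, IsMaximalTwoLocal L ∧ K ≤ L ∧ T ≤ L := by
  obtain ⟨L, hle, hL⟩ := exists_maximal_twoLocal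
    (⟨_, LocalP.pCoreOf_isPGroup (K ⊔ T), hK.2.2, rfl⟩ :
      IsTwoLocal (Subgroup.normalizer (pCoreOf 2 (K ⊔ T) : Set G)))
  have h := (le_normalizer_pCoreOf (K ⊔ T) 2).trans hle
  exact ⟨L, hL, le_sup_left.trans h, le_sup_right.trans h⟩

theorem card_two_or_four {x : G} (hx : x ∈ z0Of T) (hx1 : x ≠ 1)
    (h4 : Nat.card ↥(z0Of T) ≤ 4) : Nat.card ↥(z0Of T) = 2 ∨ Nat.card ↥(z0Of T) = 4 := by
  haveI : Fact (Nat.Prime 2) := ⟨Nat.prime_two⟩
  obtain ⟨n, hn⟩ := IsPGroup.iff_card.1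
    (Modules.elemAb_isPGroup (omegaCenterOf_elemAb (thompsonSubgroupOf 2 T)))
  rw [hn] at h4 ⊢
  have hn0 : n ≠ 0 := by
    rintro rfl
    rw [pow_zero] at hn
    exact hx1 (Subgroup.mem_bot.1 (Subgroup.card_eq_one.1 hn ▸ hx))
  have hn2 : n ≤ 2 := by
    by_contra hc
    have := Nat.pow_le_pow_right (show 0 < 2 by norm_num) (not_le.1 hc : 3 ≤ n)
    norm_num at this
    omega
  interval_cases n <;> simp_all

theorem four_cases {z a b v : G} (h4 : Nat.card ↥(z0Of T) ≤ 4) (hz : z ∈ z0Of T) (ha : a ∈ z0Of T)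
    (hb : b ∈ z0Of T) (hz1 : z ≠ 1) (ha1 : a ≠ 1) (hb1 : b ≠ 1) (hza : z ≠ a) (hzb : z ≠ b)
    (hab : a ≠ b) (hv : v ∈ z0Of T) : v = 1 ∨ v = z ∨ v = a ∨ v = b := by
  by_contra hcon
  push Not at hcon
  obtain ⟨v1, vz, va, vb⟩ := hcon
  have := five_le_card hz ha hb hv hz1 ha1 hb1 v1 hza hzb vz.symm hab va.symm vb.symm
  omega

theorem PCtx.fixed (c : PCtx T M K L S g) {t v : G} (ht : t ∈ T) (hv : v ∈ z0Of T) :
    t * v * t⁻¹ = v :=
  fixes_z0 c.hK c.hT2 c.card_le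
    (Modules.normalizer_le_normalizer_thompsonSubgroupOf 2 _ (Subgroup.le_normalizer ht))
    (c.norm ht) hv

theorem PCtx.omega_eq (c : PCtx T M K L S g) : omegaCenterOf T = z0Of T := by
  refine le_antisymm (fun x hx => mem_z0_of_central (omegaCenterOf_le _ hx).1
    (by simpa [pow_two] using (omegaCenterOf_elemAb _).2 x hx)
    fun t ht => Subgroup.mem_centralizer_iff.1 (omegaCenterOf_le _ hx).2 t ht) fun x hx => ?_
  exact Modules.mem_omegaOne_of_pow ⟨thompsonOf_le _ (omegaCenterOf_le _ hx).1,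
    Subgroup.mem_centralizer_iff.2 fun t ht => mul_inv_eq_iff_eq_mul.1 (c.fixed ht hx)⟩
    ((omegaCenterOf_elemAb _).2 x hx)

theorem PCtx.omega_sylow_eq (c : PCtx T M K L S g) (h2 : Nat.card ↥(z0Of T) = 2) :
    omegaCenterOf (S : Subgroup G) = z0Of T := by
  have hle : omegaCenterOf (S : Subgroup G) ≤ z0Of T := fun x hx =>
    (omega_sylow_le c.jover S c.hTS hx).2.2.2
  obtain ⟨v, hv, hvK⟩ := exists_omega_not_mem c.hz c.hK S ((thompsonOf_le T).trans c.hTS)
  have hne : omegaCenterOf (S : Subgroup G) ≠ ⊥ := fun e =>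
    hvK ((Subgroup.mem_bot.1 (e ▸ hv : v ∈ (⊥ : Subgroup G))) ▸ one_mem _)
  refine Subgroup.eq_of_le_of_card_ge hle ?_
  rw [h2]
  exact (Subgroup.one_lt_card_iff_ne_bot _).2 hne

/-- `C_L(Z₀)` has index two in `N_G(Z₀)`. -/
theorem PCtx.relIndex_eq (c : PCtx T M K L S g) (h4 : Nat.card ↥(z0Of T) = 4) :
    (L ⊓ Subgroup.centralizer (z0Of T : Set G)).relIndex
      (Subgroup.normalizer (z0Of T : Set G)) = 2 := by
  set K' := K.map (MulAut.conj g).toMonoidHom
  obtain ⟨a, ha, ha1⟩ := exists_hOf_ne c.hK c.hT2 (by omega)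
  set b := g * a * g⁻¹ with hbdef
  have hb : b ∈ hOf T K' := hOf_conj c.gJ ha
  have hb1 : b ≠ 1 := fun e => ha1 (conj_eq_one_iff.1 e)
  have hab : a ≠ b := fun e => ha1 (c.disjoint ha (e ▸ hb))
  set z := zOf T K with hzdef
  have hz0 : z ∈ z0Of T := zOf_mem_z0 c.mem
  have hza : z ≠ a := fun e => zOf_not_mem_hOf c.mem (by rw [← hzdef, e]; exact ha)
  have hzb : z ≠ b := fun e => zOf_not_mem_hOf c.swap.mem (by
    rw [c.common, ← hzdef, e]; exact hb)
  have hgz : g * z * g⁻¹ = z := by rw [hzdef, ← c.zOf_swap, c.common]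
  have hcases : ∀ v ∈ z0Of T, v = 1 ∨ v = z ∨ v = a ∨ v = b := fun v hv =>
    four_cases c.card_le hz0 ha.1 hb.1 c.mem.z_ne ha1 hb1 hza hzb hab hv
  have hgb : g * b * g⁻¹ = a := by
    rw [hbdef, show g * (g * a * g⁻¹) * g⁻¹ = g * g * a * (g * g)⁻¹ by group, c.fixed c.g2 ha.1]
  -- `z` is central in `S`
  obtain ⟨v, hv, hvK⟩ := exists_omega_not_mem c.hz c.hK S ((thompsonOf_le T).trans c.hTS)
  have hgv : g * v * g⁻¹ = v := by
    rw [Subgroup.mem_centralizer_iff.1 (omegaCenterOf_le _ hv).2 g c.gS, mul_inv_cancel_right]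
  have hvz : v = z := by
    rcases hcases v (omega_sylow_le c.jover S c.hTS hv).2.2.2 with e | e | e | e
    · exact absurd (e ▸ one_mem _) hvK
    · exact e
    · exfalso; rw [e] at hgv; exact hab hgv.symm
    · exfalso; rw [e, hgb] at hgv; exact hab hgv
  have hSz : ∀ s ∈ (S : Subgroup G), s * z * s⁻¹ = z := fun s hs => by
    rw [← hvz, Subgroup.mem_centralizer_iff.1 (omegaCenterOf_le _ hv).2 s hs, mul_inv_cancel_right]
  have hCa : Subgroup.centralizer ({a} : Set G) ≤ L :=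
    fix_le c.hz c.hT2 c.tight c.hL c.hKL c.hJL ha ha1
  -- `z` is not conjugate to `a` or `b`
  have hnot : ∀ {D LD}, PCtx T M D LD S g → ∀ y ∈ hOf T D, y ≠ 1 → ∀ x : G, x * z * x⁻¹ ≠ y := by
    intro D LD cD y hy hy1 x hxy
    have hle : (S : Subgroup G).map (MulAut.conj x).toMonoidHom ≤ LD := by
      refine le_trans ?_ (fix_le cD.hz cD.hT2 cD.tight cD.hL cD.hKL cD.hJL hy hy1)
      rintro _ ⟨s, hs, rfl⟩
      refine Subgroup.mem_centralizer_singleton_iff.2 (mul_inv_eq_iff_eq_mul.1 ?_)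
      change x * s * x⁻¹ * y * (x * s * x⁻¹)⁻¹ = y
      rw [← hxy, show x * s * x⁻¹ * (x * z * x⁻¹) * (x * s * x⁻¹)⁻¹ = x * (s * z * s⁻¹) * x⁻¹ by
        group, hSz s hs]
    obtain ⟨P, hP, hSP⟩ := exists_isSylowTwoIn (S.isPGroup'.map _) hle
    obtain ⟨y', -, hyP⟩ := exists_conj_of_isSylowTwoIn cD.jover.1 hP
    have hcard := Subgroup.card_le_of_le hSP
    rw [← hyP, Subgroup.card_map_of_injective (f := (MulAut.conj x).toMonoidHom)
        (MulAut.conj x).injective,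
      Subgroup.card_map_of_injective (f := (MulAut.conj y').toMonoidHom)
        (MulAut.conj y').injective] at hcard
    have hTS := Subgroup.eq_of_le_of_card_ge cD.hTS hcard
    exact cD.gT (hTS ▸ cD.gS)
  have hNz : ∀ x ∈ Subgroup.normalizer (z0Of T : Set G),
      x * z * x⁻¹ = z ∧ (x * a * x⁻¹ = a ∨ x * a * x⁻¹ = b) := by
    intro x hx
    have h1 : x * z * x⁻¹ = z := by
      rcases hcases _ ((Subgroup.mem_normalizer_iff.1 hx z).1 hz0) with e | e | e | e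
      · exact absurd (conj_eq_one_iff.1 e) c.mem.z_ne
      · exact e
      · exact absurd e (hnot c a ha ha1 x)
      · exact absurd e (hnot c.swap b hb hb1 x)
    refine ⟨h1, ?_⟩
    rcases hcases _ ((Subgroup.mem_normalizer_iff.1 hx a).1 ha.1) with e | e | e | e
    · exact absurd (conj_eq_one_iff.1 e) ha1
    · exact absurd (mul_left_cancel (mul_right_cancel (e.trans h1.symm))) hza.symm
    · exact Or.inl e
    · exact Or.inr e
  set X := L ⊓ Subgroup.centralizer (z0Of T : Set G)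
  have hX : ∀ x ∈ Subgroup.normalizer (z0Of T : Set G), x ∈ X ↔ x * a * x⁻¹ = a := by
    intro x hx
    constructor
    · intro h
      rw [← Subgroup.mem_centralizer_iff.1 h.2 a ha.1, mul_inv_cancel_right]
    · intro h
      refine Subgroup.mem_inf.2
        ⟨hCa (Subgroup.mem_centralizer_singleton_iff.2 (mul_inv_eq_iff_eq_mul.1 h)),
          Subgroup.mem_centralizer_iff.2 fun v hv => (mul_inv_eq_iff_eq_mul.1 ?_).symm⟩
      have hxz := (hNz x hx).1
      rcases hcases v hv with e | e | e | e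
      · rw [e]; group
      · rw [e]; exact hxz
      · rw [e]; exact h
      · rw [e]
        rcases hcases _ ((Subgroup.mem_normalizer_iff.1 hx b).1 hb.1) with e' | e' | e' | e'
        · exact absurd (conj_eq_one_iff.1 e') hb1
        · exact absurd (mul_left_cancel (mul_right_cancel (e'.trans hxz.symm))) hzb.symm
        · exact absurd (mul_left_cancel (mul_right_cancel (e'.trans h.symm))) hab.symm
        · exact e'
  have hgN : g ∈ Subgroup.normalizer (z0Of T : Set G) :=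
    normalizer_le_normalizer_omegaCenterOf _ c.gJ
  rw [Subgroup.relIndex, Subgroup.index_eq_two_iff]
  refine ⟨⟨g, hgN⟩, fun x => ?_⟩
  simp only [Subgroup.mem_subgroupOf, Subgroup.coe_mul]
  rw [hX _ x.2, hX _ (mul_mem x.2 hgN)]
  have e : (x : G) * g * a * ((x : G) * g)⁻¹ = (x : G) * b * (x : G)⁻¹ := by rw [hbdef]; group
  rw [e]
  rcases (hNz x x.2).2 with h | h
  · exact Or.inr ⟨h, fun h' => hab (mul_left_cancel (mul_right_cancel (h.trans h'.symm)))⟩
  · refine Or.inl ⟨?_, fun h' => hab (h'.symm.trans h)⟩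
    rcases hcases _ ((Subgroup.mem_normalizer_iff.1 x.2 b).1 hb.1) with e' | e' | e' | e'
    · exact absurd (conj_eq_one_iff.1 e') hb1
    · exact absurd (mul_left_cancel (mul_right_cancel (e'.trans (hNz x x.2).1.symm))) hzb.symm
    · exact e'
    · exact absurd (mul_left_cancel (mul_right_cancel (h.trans e'.symm))) hab

/-- A component outside `M` is normalized by `T`. -/
theorem norm_of_outside (hz : ZNHyp G) (hO : pCore 2 G = ⊥) (S : Sylow 2 G)
    (hMJ : Subgroup.normalizer (thompsonSubgroupOf 2 (S : Subgroup G) : Set G) ≤ M)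
    (hT : T ∈ maxStraddlingTwoSubgroups M) (hK : K ∈ jComponentsOutside M T) :
    T ≤ Subgroup.normalizer (K : Set G) := by
  obtain ⟨L, hL, hKL, hTL⟩ := exists_overgroup hK
  obtain ⟨S₀, hTS⟩ := hT.1.1.exists_le_sylow
  by_cases he : T = (S₀ : Subgroup G)
  · subst he
    obtain ⟨C, L', p⟩ := (⟨hK.1.1, hL, hKL, hTL⟩ : SComp S₀ K L).exists_pair hz hO
    exact p.norm hz
  · obtain ⟨g, c⟩ := exists_pctx hz hT (normalizer_thompson_le S hMJ hT) hK.1.1 hK.2.1 hL hKL hTL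
      hTS he
    exact c.norm

/-- A member of the amalgam. -/
structure Side (T K L : Subgroup G) : Prop where
  hK : IsJComponent T K
  tight : Tight T K
  hL : IsMaximalTwoLocal L
  hKL : K ≤ L
  hTL : T ≤ L
  jover : L ∈ jOvergroups T
  small : Small T K

theorem Side.eq (hz : ZNHyp G) (h : Side T K L) : L = K ⊔ T := h.small.eq_sup hz h.jover h.hKL

/-- The two sides. -/
theorem exists_sides (hz : ZNHyp G) (hO : pCore 2 G = ⊥) (S : Sylow 2 G)
    (hMJ : Subgroup.normalizer (thompsonSubgroupOf 2 (S : Subgroup G) : Set G) ≤ M)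
    (hT : T ∈ maxStraddlingTwoSubgroups M) :
    ∃ K₁ L₁ K₂ L₂, Side T K₁ L₁ ∧ Side T K₂ L₂ ∧ L₁ ≠ L₂ := by
  obtain ⟨K, hK⟩ := jComponentsOutside_nonempty hz S hMJ hT
  obtain ⟨L, hL, hKL, hTL⟩ := exists_overgroup hK
  obtain ⟨S₀, hTS⟩ := hT.1.1.exists_le_sylow
  by_cases he : T = (S₀ : Subgroup G)
  · subst he
    obtain ⟨K₁, L₁, K₂, L₂, h₁, h₂, hne, s₁, s₂⟩ :=
      exists_small hz hO (⟨hK.1.1, hL, hKL, hTL⟩ : SComp S₀ K L)
    exact ⟨K₁, L₁, K₂, L₂, ⟨h₁.hK, h₁.tight, h₁.hL, h₁.hKL, h₁.hSL, h₁.jover hz, s₁⟩,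
      ⟨h₂.hK, h₂.tight, h₂.hL, h₂.hKL, h₂.hSL, h₂.jover hz, s₂⟩, hne⟩
  · obtain ⟨g, c⟩ := exists_pctx hz hT (normalizer_thompson_le S hMJ hT) hK.1.1 hK.2.1 hL hKL hTL
      hTS he
    exact ⟨_, _, _, _, ⟨c.hK, c.tight, c.hL, c.hKL, c.hTL, c.jover, c.small.1⟩,
      ⟨c.swap.hK, c.swap.tight, c.swap.hL, c.swap.hKL, c.swap.hTL, c.swap.jover, c.small.2⟩, c.ne⟩

/-- The properties of one side. -/
theorem Side.props (hz : ZNHyp G) (h : Side T K L) :
    Subgroup.centralizer (pCoreOf 2 (K ⊔ T) : Set G) ≤ pCoreOf 2 (K ⊔ T) ∧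
      IsSylowTwoIn T (K ⊔ T) ∧ (pCoreOf 2 (K ⊔ T)).relIndex (K ⊔ T) = 6 ∧
      ¬ ⁅K ⊔ T, K ⊔ T⁆ ≤ pCoreOf 2 (K ⊔ T) ∧ ⁅omegaCenterOf T, K ⊔ T⁆ ≠ ⊥ ∧
      ∃ L' : Subgroup G, IsMaximalTwoLocal L' ∧ K ⊔ T ≤ L' ∧ IsSylowTwoIn T L' ∧
        ∀ L'' : Subgroup G, IsMaximalTwoLocal L'' → K ⊔ T ≤ L'' → L'' = L' := by
  have m := h.small.mem
  have e := h.eq hz
  refine ⟨?_, m.isSylow, m.relIndex_core, fun hle => ?_, fun hb => ?_,
    L, h.hL, e.ge, h.jover.1, fun L'' hL'' hle => ?_⟩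
  · have := h.jover.2.2; rwa [e] at this
  · have h1 : K ≤ pCoreOf 2 (K ⊔ T) := le_trans
      (m.comm.ge.trans (Subgroup.commutator_mono le_sup_left
        ((thompsonOf_le T).trans le_sup_right))) hle
    have h3 := m.idx
    rw [eq_bot_of_gen (LocalP.pCoreOf_isPGroup _) m.gen h1, Subgroup.relIndex_bot_right] at h3
    omega
  · have hzT : zOf T K ∈ omegaCenterOf T := Modules.mem_omegaOne_of_pow
      ⟨(m.wOf_le_q m.z_mem).1, Subgroup.mem_centralizer_iff.2 fun t ht =>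
        mul_inv_eq_iff_eq_mul.1 (m.z_fix ht)⟩ (by rw [pow_two]; exact wOf_sq m.z_mem)
    obtain ⟨x, hx, hxQ⟩ := exists_not_mem_pCoreOf m.idx
    have hc := Subgroup.commutator_eq_bot_iff_le_centralizer.1 hb hzT
    exact m.z_ne (wOf_fixed_eq_one m.idx hx hxQ m.z_mem (mul_inv_eq_iff_eq_mul.2
      (Subgroup.mem_centralizer_iff.1 hc x (Subgroup.mem_sup_left hx))))
  · exact h.tight.unique hz m.hT h.hL h.hKL ((thompsonOf_le T).trans h.hTL) hL''
      (le_sup_left.trans hle) ((thompsonOf_le T).trans (le_sup_right.trans hle))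

end Cfsg.Agent.LocalEven
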