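import Cfsg.Agent.LocalEven.JVertex

/-!
The graph of conjugates of components normalized by a common `T`.
-/

set_option autoImplicit false

open Cfsg
open scoped commutatorElement

namespace Cfsg.Agent.LocalEven

variable {G : Type*} [Group G] {T : Subgroup G} {V : Set (Subgroup G)}

/-- The vertex of `K` at the edge `T ^ h`. -/
def vtx (T K : Subgroup G) (h : G) : Subgroup G × Subgroup G :=
  (K.map (MulAut.conj h).toMonoidHom, (K ⊔ T).map (MulAut.conj h).toMonoidHom)

/-- Conjugation of vertices. -/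
def cjv (g : G) (v : Subgroup G × Subgroup G) : Subgroup G × Subgroup G :=
  (v.1.map (MulAut.conj g).toMonoidHom, v.2.map (MulAut.conj g).toMonoidHom)

/-- Two vertices at a common edge. -/
def VAdj (T : Subgroup G) (V : Set (Subgroup G)) (a b : Subgroup G × Subgroup G) : Prop :=
  ∃ h : G, ∃ K ∈ V, ∃ K' ∈ V, K ≠ K' ∧ a = vtx T K h ∧ b = vtx T K' h

/-- Walks of a given length. -/
def VReach (T : Subgroup G) (V : Set (Subgroup G)) :
    ℕ → Subgroup G × Subgroup G → Subgroup G × Subgroup G → Prop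
  | 0, a, b => a = b
  | n + 1, a, b => ∃ c, VReach T V n a c ∧ VAdj T V c b

/-- Being a vertex. -/
def IsVtx (T : Subgroup G) (V : Set (Subgroup G)) (a : Subgroup G × Subgroup G) : Prop :=
  ∃ K ∈ V, ∃ h, a = vtx T K h

/-- The planes of two vertices commute. -/
def PlaneComm (a b : Subgroup G × Subgroup G) : Prop :=
  ∀ u ∈ wOf a.1, ∀ w ∈ wOf b.1, u * w = w * u

/-- The data for the graph argument. -/
structure Fam (T : Subgroup G) (V : Set (Subgroup G)) : Prop where
  member : ∀ K ∈ V, Member T K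
  apart : ∀ K ∈ V, ∀ K' ∈ V, K ≠ K' → ∀ X : Subgroup G, IsPGroup 2 X →
    K ≤ Subgroup.normalizer (X : Set G) → K' ≤ Subgroup.normalizer (X : Set G) →
    T ≤ Subgroup.normalizer (X : Set G) → X = ⊥
  two : ∃ K ∈ V, ∃ K' ∈ V, K ≠ K'

theorem VAdj.symm {a b : Subgroup G × Subgroup G} (h : VAdj T V a b) : VAdj T V b a := by
  obtain ⟨g, K, hK, K', hK', hne, ha, hb⟩ := h
  exact ⟨g, K', hK', K, hK, hne.symm, hb, ha⟩

theorem VReach.cons {n : ℕ} {x a b : Subgroup G × Subgroup G} (hxa : VAdj T V x a)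
    (h : VReach T V n a b) : VReach T V (n + 1) x b := by
  induction n generalizing b with
  | zero => exact ⟨x, rfl, (h : a = b) ▸ hxa⟩
  | succ n ih =>
    obtain ⟨c, hc, hcb⟩ := h
    exact ⟨c, ih hc, hcb⟩

theorem VReach.symm {n : ℕ} {a b : Subgroup G × Subgroup G} (h : VReach T V n a b) :
    VReach T V n b a := by
  induction n generalizing b with
  | zero => exact Eq.symm (h : a = b)
  | succ n ih =>
    obtain ⟨c, hc, hcb⟩ := h
    exact VReach.cons hcb.symm (ih hc)

theorem VReach.trans {n m : ℕ} {a b c : Subgroup G × Subgroup G} (h : VReach T V n a b)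
    (h' : VReach T V m b c) : VReach T V (n + m) a c := by
  induction m generalizing c with
  | zero => exact (h' : b = c) ▸ h
  | succ m ih =>
    obtain ⟨d, hd, hdc⟩ := h'
    exact ⟨d, ih hd, hdc⟩

theorem map_conj_one (X : Subgroup G) : X.map (MulAut.conj (1 : G)).toMonoidHom = X := by
  convert X.map_id using 2
  ext y; simp

theorem cjv_vtx (g h : G) (K : Subgroup G) : cjv g (vtx T K h) = vtx T K (g * h) := by
  refine Prod.ext ?_ ?_ <;>
    · simp only [vtx, cjv, Subgroup.map_map]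
      congr 1; ext y; simp

theorem VAdj.cjv (g : G) {a b : Subgroup G × Subgroup G} (h : VAdj T V a b) :
    VAdj T V (cjv g a) (cjv g b) := by
  obtain ⟨k, K, hK, K', hK', hne, rfl, rfl⟩ := h
  exact ⟨g * k, K, hK, K', hK', hne, cjv_vtx g k K, cjv_vtx g k K'⟩

theorem VReach.cjv (g : G) {n : ℕ} {a b : Subgroup G × Subgroup G} (h : VReach T V n a b) :
    VReach T V n (cjv g a) (cjv g b) := by
  induction n generalizing b with
  | zero => exact congrArg _ (h : a = b)
  | succ n ih =>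
    obtain ⟨c, hc, hcb⟩ := h
    exact ⟨_, ih hc, hcb.cjv g⟩

theorem IsVtx.of_adj {a b : Subgroup G × Subgroup G} (h : VAdj T V a b) : IsVtx T V a := by
  obtain ⟨k, K, hK, K', hK', hne, rfl, rfl⟩ := h
  exact ⟨K, hK, k, rfl⟩

theorem IsVtx.of_reach {n : ℕ} {a b : Subgroup G × Subgroup G} (ha : IsVtx T V a)
    (h : VReach T V n a b) : IsVtx T V b := by
  cases n with
  | zero => exact (h : a = b) ▸ ha
  | succ n => obtain ⟨c, -, hcb⟩ := h; exact IsVtx.of_adj hcb.symm

theorem PlaneComm.symm {a b : Subgroup G × Subgroup G} (h : PlaneComm a b) : PlaneComm b a :=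
  fun u hu w hw => (h w hw u hu).symm

section
variable [Finite G]

theorem PlaneComm.cjv (g : G) {a b : Subgroup G × Subgroup G} (h : PlaneComm a b) :
    PlaneComm (cjv g a) (cjv g b) := by
  intro u hu w hw
  rw [LocalEven.cjv, ← map_conj_wOf] at hu hw
  obtain ⟨u, hu, rfl⟩ := hu
  obtain ⟨w, hw, rfl⟩ := hw
  rw [← map_mul, ← map_mul, h u hu w hw]


theorem wOf_vtx_le_q {K : Subgroup G} (hm : Member T K) (h : G) :
    wOf (vtx T K h).1 ≤ pCoreOf 2 (vtx T K h).2 := by
  rw [vtx, ← map_conj_wOf, ← map_conj_pCoreOf, hm.pCoreOf_sup]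
  exact Subgroup.map_mono hm.wOf_le_q

theorem q_vtx {K : Subgroup G} (hm : Member T K) (h : G) :
    pCoreOf 2 (vtx T K h).2 =
      T.map (MulAut.conj h).toMonoidHom ⊓ Subgroup.centralizer (wOf (vtx T K h).1 : Set G) := by
  rw [vtx, ← map_conj_pCoreOf, hm.pCoreOf_sup, qOf_conj]

theorem Fam.wOf_le_q (hF : Fam T V) {a : Subgroup G × Subgroup G} (ha : IsVtx T V a) :
    wOf a.1 ≤ pCoreOf 2 a.2 := by
  obtain ⟨K, hK, h, rfl⟩ := ha
  exact wOf_vtx_le_q (hF.member K hK) h

/-- Along a short walk the first plane stays in `O₂` of the vertices. -/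
theorem Fam.le_q_of_reach (hF : Fam T V) {b : ℕ}
    (hmin : ∀ n < b, ∀ a c, IsVtx T V a → VReach T V n a c → PlaneComm a c) :
    ∀ n < b, ∀ a c, IsVtx T V a → VReach T V n a c → wOf a.1 ≤ pCoreOf 2 c.2 := by
  intro n
  induction n with
  | zero => intro _ a c ha h; exact (h : a = c) ▸ hF.wOf_le_q ha
  | succ n ih =>
    intro hn a c ha h
    have hc := hmin _ hn a c ha h
    obtain ⟨c₀, hc₀, g, K, hK, K', hK', -, rfl, rfl⟩ := h
    have h1 := ih (by omega) a _ ha hc₀
    rw [q_vtx (hF.member K hK)] at h1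
    rw [q_vtx (hF.member K' hK')]
    exact le_inf (h1.trans inf_le_left) fun u hu =>
      Subgroup.mem_centralizer_iff.2 fun w hw => (hc u hu w hw).symm

/-- The plane of a vertex lies in the edges at vertices close to it. -/
theorem Fam.le_edge (hF : Fam T V) {b : ℕ}
    (hmin : ∀ n < b, ∀ a c, IsVtx T V a → VReach T V n a c → PlaneComm a c)
    {n : ℕ} (hn : n < b) {a : Subgroup G × Subgroup G} (ha : IsVtx T V a) {K : Subgroup G}
    (hK : K ∈ V) {h : G} (hr : VReach T V n a (vtx T K h)) :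
    wOf a.1 ≤ T.map (MulAut.conj h).toMonoidHom := by
  have h1 := hF.le_q_of_reach hmin n hn a _ ha hr
  rw [q_vtx (hF.member K hK)] at h1
  exact h1.trans inf_le_left

/-- Some walk joins non-commuting planes. -/
theorem Fam.exists_clash (hF : Fam T V) :
    ∃ n a c, IsVtx T V a ∧ VReach T V n a c ∧ ¬ PlaneComm a c := by
  by_contra hcon
  push Not at hcon
  obtain ⟨K₀, hK₀, K₁, hK₁, hne⟩ := hF.two
  set a₀ := vtx T K₀ 1
  set S : Set G := {u | ∃ n c, VReach T V n a₀ c ∧ u ∈ wOf c.1} with hS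
  set N := Subgroup.closure S with hN
  have ha₀ : IsVtx T V a₀ := ⟨K₀, hK₀, 1, rfl⟩
  have hcomm : ∀ u ∈ S, ∀ w ∈ S, u * w = w * u := by
    rintro u ⟨n, c, hc, hu⟩ w ⟨m, d, hd, hw⟩
    exact hcon _ c d (ha₀.of_reach hc) (hc.symm.trans hd) u hu w hw
  have hN2 : IsPGroup 2 N := by
    refine isPGroup_of_pow fun g hg => ?_
    suffices g * g = 1 ∧ ∀ w ∈ S, g * w = w * g from ⟨1, by rw [pow_one, pow_two]; exact this.1⟩
    refine (?_ : ∀ x ∈ N, x * x = 1 ∧ ∀ w ∈ S, x * w = w * x) g hg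
    intro x hx
    induction hx using Subgroup.closure_induction with
    | mem x hx =>
      refine ⟨?_, fun w hw => hcomm x hx w hw⟩
      obtain ⟨n, c, -, hu⟩ := hx
      exact wOf_sq hu
    | one => simp
    | mul x y hx hy ihx ihy =>
      have hc : ∀ z ∈ N, x * z = z * x := by
        intro z hz
        have : N ≤ Subgroup.centralizer ({x} : Set G) := (Subgroup.closure_le _).2 fun w hw =>
          Subgroup.mem_centralizer_singleton_iff.2 (ihx.2 w hw).symm
        exact (Subgroup.mem_centralizer_singleton_iff.1 (this hz)).symm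
      refine ⟨?_, fun w hw => ?_⟩
      · calc x * y * (x * y) = x * (y * x) * y := by group
          _ = (x * x) * (y * y) := by rw [← hc y hy]; group
          _ = 1 := by rw [ihx.1, ihy.1, one_mul]
      · calc x * y * w = x * (w * y) := by rw [mul_assoc, ihy.2 w hw]
          _ = w * (x * y) := by rw [← mul_assoc, ihx.2 w hw, mul_assoc]
    | inv x hx ihx =>
      rw [inv_eq_of_mul_eq_one_right ihx.1]
      exact ihx
  have hmoves : ∀ g : G, (∃ n, VReach T V n a₀ (cjv g a₀)) → g ∈ Subgroup.normalizer (N : Set G) := by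
    rintro g ⟨n₀, hg⟩
    rw [Subgroup.mem_normalizer_iff_map_conj_eq]
    refine Subgroup.eq_of_le_of_card_ge ?_
      (Subgroup.card_map_of_injective (f := (MulAut.conj g).toMonoidHom) (MulAut.conj g).injective).ge
    rw [Subgroup.map_le_iff_le_comap, hN, Subgroup.closure_le]
    rintro u ⟨n, c, hc, hu⟩
    refine Subgroup.subset_closure ⟨_, cjv g c, hg.trans (hc.cjv g), ?_⟩
    rw [LocalEven.cjv, ← map_conj_wOf]
    exact ⟨u, hu, rfl⟩
  have hfix : ∀ K ∈ V, ∀ g ∈ K ⊔ T, cjv g (vtx T K 1) = vtx T K 1 := by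
    intro K hK g hg
    rw [cjv_vtx, mul_one]
    refine Prod.ext ?_ ?_
    · rw [vtx, vtx, map_conj_one]
      exact FF.map_conj_eq ((sup_le Subgroup.le_normalizer (hF.member K hK).norm) hg)
    · simp only [vtx]
      rw [map_conj_one (K ⊔ T)]
      exact FF.map_conj_eq (Subgroup.le_normalizer hg)
  have h0 : ∀ g ∈ K₀ ⊔ T, g ∈ Subgroup.normalizer (N : Set G) := fun g hg =>
    hmoves g ⟨0, (hfix K₀ hK₀ g hg).symm⟩
  have h1 : ∀ g ∈ K₁ ⊔ T, g ∈ Subgroup.normalizer (N : Set G) := fun g hg => by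
    have hadj : VAdj T V a₀ (vtx T K₁ 1) := ⟨1, K₀, hK₀, K₁, hK₁, hne, rfl, rfl⟩
    have h2 : VAdj T V (vtx T K₁ 1) (cjv g a₀) := hfix K₁ hK₁ g hg ▸ (hadj.cjv g).symm
    exact hmoves g ⟨1 + 1, vtx T K₁ 1, ⟨a₀, rfl, hadj⟩, h2⟩
  have hb := hF.apart K₀ hK₀ K₁ hK₁ hne N hN2
    (fun g hg => h0 g (Subgroup.mem_sup_left hg)) (fun g hg => h1 g (Subgroup.mem_sup_left hg))
    (fun g hg => h0 g (Subgroup.mem_sup_right hg))
  have hz := (hF.member K₀ hK₀).z_mem
  have hzN : zOf T K₀ ∈ N := Subgroup.subset_closure ⟨0, a₀, rfl, by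
    show zOf T K₀ ∈ wOf (vtx T K₀ 1).1
    rw [vtx, map_conj_one]; exact hz⟩
  rw [hb, Subgroup.mem_bot] at hzN
  exact (hF.member K₀ hK₀).z_ne hzN

/-- Two planes acting on each other have the same fixed involution. -/
theorem clash_z_eq {T' A B : Subgroup G} (hA : Member T A) (hB : Member T' B)
    (hAT : wOf A ≤ T') (hBT : wOf B ≤ T) (h : ¬ ∀ u ∈ wOf A, ∀ w ∈ wOf B, u * w = w * u) :
    zOf T A = zOf T' B := by
  push Not at h
  obtain ⟨u, hu, f, hf, hne⟩ := h
  have e1 := (hA.conj_T (hBT hf) hu).resolve_left fun e =>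
    hne (mul_inv_eq_iff_eq_mul.1 e).symm
  have e2 := (hB.conj_T (hAT hu) hf).resolve_left fun e => hne (mul_inv_eq_iff_eq_mul.1 e)
  have e3 : u * f⁻¹ * u⁻¹ = (f * zOf T' B)⁻¹ := by rw [← e2]; group
  calc zOf T A = u⁻¹ * (f * u * f⁻¹) := by rw [e1]; group
    _ = (f * u * f⁻¹) * u⁻¹ := by
        rw [e1]
        calc u⁻¹ * (u * zOf T A) = zOf T A := by group
          _ = u * zOf T A * u⁻¹ := by rw [wOf_comm hu hA.z_mem, mul_inv_cancel_right]
    _ = f * (f * zOf T' B)⁻¹ := by rw [← e3]; group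
    _ = zOf T' B := by
        rw [mul_inv_rev, inv_eq_of_mul_eq_one_right (wOf_sq hB.z_mem), ← mul_assoc,
          wOf_comm hf hB.z_mem, mul_inv_cancel_right]

end

end Cfsg.Agent.LocalEven
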