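import Cfsg.Agent.LocalEven.JSmall

/-!
`KT` is `S₄` or `S₄ × 2` in a small configuration.
-/

set_option autoImplicit false

open Cfsg
open scoped commutatorElement

namespace Cfsg.Agent.LocalEven

variable {G : Type*} [Group G] [Finite G] {T K : Subgroup G}

theorem Small.card_u (h : Small T K) :
    Nat.card ↥(uOf T K) = 1 ∨ Nat.card ↥(uOf T K) = 2 := by
  by_cases hall : ∀ r ∈ uOf T K, r = 1
  · left
    rw [(Subgroup.eq_bot_iff_forall _).2 hall, Subgroup.card_bot]
  push Not at hall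
  obtain ⟨r, hr, hr1⟩ := hall
  right
  have hs : (uOf T K : Set G) = {1, r} := by
    ext x
    constructor
    · intro hx
      by_cases hx1 : x = 1
      · simp [hx1]
      · simp [h.uu x hx hx1 r hr hr1]
    · rintro (rfl | rfl)
      · exact one_mem _
      · exact hr
  rw [← SetLike.coe_sort_coe, Nat.card_coe_set_eq, hs, Set.ncard_pair hr1.symm]

theorem Small.card_q (h : Small T K) : Nat.card ↥(qOf T K) = 4 * Nat.card ↥(uOf T K) := by
  have hn : wOf K ≤ Subgroup.normalizer (uOf T K : Set G) := fun v hv => by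
    rw [Subgroup.mem_normalizer_iff_map_conj_eq]
    refine Subgroup.eq_of_le_of_card_ge ?_
      (Subgroup.card_map_of_injective (f := (MulAut.conj v).toMonoidHom)
        (MulAut.conj v).injective).ge
    rintro _ ⟨r, hr, rfl⟩
    change v * r * v⁻¹ ∈ _
    rw [h.comm (h.mem.wOf_le_q hv) hr.1, mul_inv_cancel_right]; exact hr
  have h1 := Modules.card_sup_mul_card_inf hn
  have hbot : wOf K ⊓ uOf T K = ⊥ :=
    (Subgroup.eq_bot_iff_forall _).2 fun v hv => h.u_inf_w hv.2 hv.1
  have hsup : wOf K ⊔ uOf T K = qOf T K := by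
    refine le_antisymm (sup_le h.mem.wOf_le_q inf_le_left) fun q hq => ?_
    obtain ⟨v, hv, r, hr, rfl⟩ := h.dec q hq
    exact Subgroup.mul_mem_sup hv hr
  rw [hbot, Subgroup.card_bot, mul_one, hsup, h.mem.card] at h1
  exact h1

theorem Small.card_T (h : Small T K) : Nat.card T = 8 * Nat.card ↥(uOf T K) := by
  have h1 := Subgroup.relIndex_mul_relIndex ⊥ (qOf T K) T bot_le inf_le_left
  rw [Subgroup.relIndex_bot_left, Subgroup.relIndex_bot_left, h.mem.relIndex_q, h.card_q] at h1
  omega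

theorem Small.core_eq (h : Small T K) : pCoreOf 2 K = wOf K ∧ Nat.card K = 12 := by
  obtain ⟨e, he, he3, heQ⟩ := exists_order_three h.mem.idx
  have hXn : Subgroup.zpowers e ≤ Subgroup.normalizer (wOf K : Set G) :=
    (Subgroup.zpowers_le.2 he).trans (le_normalizer_wOf K)
  have hKX : K ≤ wOf K ⊔ Subgroup.zpowers e := by
    conv_lhs => rw [← h.mem.gen]
    refine (Subgroup.closure_le _).2 fun x hx => ?_
    have hx' : x ∈ pCoreOf 2 K ⊔ Subgroup.zpowers e := (sup_zpowers_eq h.mem.idx he heQ).ge hx.1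
    rw [← SetLike.mem_coe, Subgroup.coe_mul_of_right_le_normalizer_left (pCoreOf 2 K)
      (Subgroup.zpowers e) ((Subgroup.zpowers_le.2 he).trans (le_normalizer_pCoreOf K 2))] at hx'
    obtain ⟨c, hc, g, hg, hcg⟩ := Set.mem_mul.1 hx'
    obtain ⟨v, hv, r, hr, hce⟩ := h.dec c (h.mem.core_le_q hc)
    set y := v * g
    have hy : y ∈ wOf K ⊔ Subgroup.zpowers e := Subgroup.mul_mem_sup hv hg
    have hgK : g ∈ K := (Subgroup.zpowers_le.2 he) hg
    have hrc : ∀ t ∈ K, Commute r t := fun t ht =>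
      (Subgroup.mem_centralizer_iff.1 hr.2 t (Subgroup.mem_sup_left ht)).symm
    have hxe : x = r * y := by
      rw [← hcg, hce, ← (hrc v (wOf_le K hv)).eq, mul_assoc]
    have hpow : x ^ orderOf x = r ^ orderOf x * y ^ orderOf x := by
      conv_lhs => arg 1; rw [hxe]
      exact (hrc y (mul_mem (wOf_le K hv) hgK)).mul_pow _
    obtain ⟨m, hm⟩ := hx.2
    have hr2 : r ^ orderOf x = r := by
      rw [hm, pow_succ, pow_mul, pow_two, h.sq r hr.1, one_pow, one_mul]
    rw [pow_orderOf_eq_one, hr2] at hpow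
    have hrX : r ∈ wOf K ⊔ Subgroup.zpowers e := by
      rw [eq_inv_of_mul_eq_one_left hpow.symm]; exact inv_mem (pow_mem hy _)
    rw [hxe]; exact mul_mem hrX hy
  have hcore : pCoreOf 2 K = wOf K := by
    refine le_antisymm (fun c hc => ?_) (wOf_le_pCoreOf K)
    have hc' : c ∈ wOf K ⊔ Subgroup.zpowers e := hKX (LocalP.pCoreOf_le K hc)
    rw [← SetLike.mem_coe,
      Subgroup.coe_mul_of_right_le_normalizer_left _ _ hXn] at hc'
    obtain ⟨v, hv, g, hg, rfl⟩ := Set.mem_mul.1 hc'
    have hgQ : g ∈ pCoreOf 2 K := by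
      have := mul_mem (inv_mem (wOf_le_pCoreOf K hv)) hc
      rwa [inv_mul_cancel_left] at this
    have hord : orderOf g ∣ 3 := by
      obtain ⟨i, rfl⟩ := hg
      refine orderOf_dvd_of_pow_eq_one ?_
      change (e ^ i) ^ 3 = 1
      rw [← zpow_natCast, ← zpow_mul, mul_comm, zpow_mul, zpow_natCast, he3, one_zpow]
    have hg1 : g = 1 :=
      not_odd_orderOf_of_pGroup (LocalP.pCoreOf_isPGroup K) hgQ (Odd.of_dvd_nat (by decide) hord)
    rw [hg1, mul_one]; exact hv
  refine ⟨hcore, ?_⟩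
  have h1 := Subgroup.relIndex_mul_relIndex ⊥ (pCoreOf 2 K) K bot_le (LocalP.pCoreOf_le K)
  rw [Subgroup.relIndex_bot_left, Subgroup.relIndex_bot_left, h.mem.idx, hcore, h.mem.card] at h1
  omega

/-- `KT ≅ S₄` or `S₄ × 2`. -/
theorem Small.equiv (h : Small T K) :
    (Nat.card T = 8 ∧ Nonempty (↥(K ⊔ T : Subgroup G) ≃* Equiv.Perm (Fin 4))) ∨
    (Nat.card T = 16 ∧
      Nonempty (↥(K ⊔ T : Subgroup G) ≃* Equiv.Perm (Fin 4) × Multiplicative (ZMod 2))) := by
  classical
  obtain ⟨hcore, hK12⟩ := h.core_eq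
  obtain ⟨e, he, he3, heQ⟩ := exists_order_three h.mem.idx
  have he1 : e ≠ 1 := fun e' => heQ (e' ▸ one_mem _)
  set P := K ⊔ T with hP
  set H := P ⊓ Subgroup.normalizer (Subgroup.zpowers e : Set G)
  have hPW : P ≤ Subgroup.normalizer (wOf K : Set G) := h.mem.sup_le_normalizer
  have hWP : wOf K ≤ P := (wOf_le K).trans le_sup_left
  have hfix : ∀ v ∈ wOf K, e * v * e⁻¹ = v → v = 1 := fun v hv hv' =>
    wOf_fixed_eq_one h.mem.idx he heQ hv hv'
  have hWH : ∀ v ∈ wOf K, v ∈ H → v = 1 := by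
    intro v hv hvH
    have h1 : v * e * v⁻¹ * e⁻¹ ∈ Subgroup.zpowers e := mul_mem
      ((Subgroup.mem_normalizer_iff.1 hvH.2 e).1 (Subgroup.mem_zpowers e))
      (inv_mem (Subgroup.mem_zpowers e))
    have h2 : v * e * v⁻¹ * e⁻¹ ∈ wOf K := by
      have := mul_mem hv ((Subgroup.mem_normalizer_iff.1 (le_normalizer_wOf K he) v⁻¹).1 (inv_mem hv))
      simpa [mul_assoc] using this
    have hord : orderOf (v * e * v⁻¹ * e⁻¹) ∣ 3 := by
      obtain ⟨i, hi⟩ := h1
      refine orderOf_dvd_of_pow_eq_one ?_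
      rw [← hi]
      change (e ^ i) ^ 3 = 1
      rw [← zpow_natCast, ← zpow_mul, mul_comm, zpow_mul, zpow_natCast, he3, one_zpow]
    have h3 := not_odd_orderOf_of_pGroup (Modules.elemAb_isPGroup (wOf_elemAb K)) h2
      (Odd.of_dvd_nat (by decide) hord)
    refine hfix v hv ?_
    calc e * v * e⁻¹ = (v * e * v⁻¹ * e⁻¹)⁻¹ * v := by group
      _ = v := by rw [h3]; group
  have hsurj : ∀ v ∈ wOf K, ∃ u ∈ wOf K, u * e * u⁻¹ = v * e := by
    let f : ↥(wOf K) → ↥(wOf K) := fun u => ⟨(u : G) * (e * (u : G) * e⁻¹),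
      mul_mem u.2 ((Subgroup.mem_normalizer_iff.1 (le_normalizer_wOf K he) _).1 u.2)⟩
    have hf : Function.Injective f := by
      intro a b hab
      have hab' : (a : G) * (e * (a : G) * e⁻¹) = b * (e * (b : G) * e⁻¹) :=
        congrArg Subtype.val hab
      apply Subtype.ext
      have hea := (Subgroup.mem_normalizer_iff.1 (le_normalizer_wOf K he) _).1 a.2
      have heb := (Subgroup.mem_normalizer_iff.1 (le_normalizer_wOf K he) _).1 b.2
      have h1 : e * ((a : G) * b) * e⁻¹ = (a : G) * b := by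
        rw [conj_mul_conj]
        calc (e * (a : G) * e⁻¹) * (e * b * e⁻¹)
            = ((a : G) * a) * (e * (a : G) * e⁻¹) * (e * b * e⁻¹) := by rw [wOf_sq a.2, one_mul]
          _ = (a : G) * ((a : G) * (e * (a : G) * e⁻¹)) * (e * b * e⁻¹) := by group
          _ = (a : G) * b * ((e * (b : G) * e⁻¹) * (e * b * e⁻¹)) := by rw [hab']; group
          _ = (a : G) * b := by rw [wOf_sq heb, mul_one]
      rw [eq_inv_of_mul_eq_one_left (hfix _ (mul_mem a.2 b.2) h1),
        inv_eq_of_mul_eq_one_right (wOf_sq b.2)]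
    intro v hv
    obtain ⟨u, hu⟩ := Finite.injective_iff_surjective.1 hf ⟨v, hv⟩
    refine ⟨u, u.2, ?_⟩
    have hu' : (u : G) * (e * u * e⁻¹) = v := congrArg Subtype.val hu
    rw [← hu', inv_eq_of_mul_eq_one_right (wOf_sq u.2)]
    group
  have hPWH : P ≤ wOf K ⊔ H := by
    intro g hg
    have hge : g * e * g⁻¹ ∈ K := (Subgroup.mem_normalizer_iff.1
      ((sup_le Subgroup.le_normalizer h.mem.norm) hg) e).1 he
    have hge3 : (g * e * g⁻¹) ^ 3 = 1 := by rw [conj_pow, he3]; group
    obtain ⟨u, hu, hmem⟩ : ∃ u ∈ wOf K, g * e * g⁻¹ = u * e * u⁻¹ ∨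
        g * e * g⁻¹ = u * e⁻¹ * u⁻¹ := by
      rcases coset_cases h.mem.idx he heQ hge with hq | hq | hq
      · exfalso
        obtain ⟨n, hn⟩ := two_pow_pow_eq_one (LocalP.pCoreOf_isPGroup K) hq
        have h1 := mem_of_pow_two_three (H := (⊥ : Subgroup G)) (g := g * e * g⁻¹) (m := n)
          (by rw [hn]; exact one_mem _) (by rw [hge3]; exact one_mem _)
        exact he1 (conj_eq_one_iff.1 (Subgroup.mem_bot.1 h1))
      · rw [hcore] at hq
        obtain ⟨u, hu, hue⟩ := hsurj _ hq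
        exact ⟨u, hu, Or.inl (by rw [hue]; group)⟩
      · rw [hcore] at hq
        have hq' : e * (g * e * g⁻¹ * e)⁻¹ * e⁻¹ ∈ wOf K :=
          (Subgroup.mem_normalizer_iff.1 (le_normalizer_wOf K he) _).1 (inv_mem hq)
        obtain ⟨u, hu, hue⟩ := hsurj _ hq'
        refine ⟨u, hu, Or.inr ?_⟩
        calc g * e * g⁻¹ = (e * (g * e * g⁻¹ * e)⁻¹ * e⁻¹ * e)⁻¹ := by group
          _ = u * e⁻¹ * u⁻¹ := by rw [← hue]; group
    have hn : u⁻¹ * g ∈ Subgroup.normalizer (Subgroup.zpowers e : Set G) := by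
      rw [Subgroup.mem_normalizer_iff_map_conj_eq]
      refine Subgroup.eq_of_le_of_card_ge ?_
        (Subgroup.card_map_of_injective (f := (MulAut.conj (u⁻¹ * g)).toMonoidHom)
          (MulAut.conj (u⁻¹ * g)).injective).ge
      rw [Subgroup.map_le_iff_le_comap, Subgroup.zpowers_le]
      change u⁻¹ * g * e * (u⁻¹ * g)⁻¹ ∈ Subgroup.zpowers e
      have e2 : u⁻¹ * g * e * (u⁻¹ * g)⁻¹ = u⁻¹ * (g * e * g⁻¹) * u := by group
      rw [e2]
      rcases hmem with e1 | e1 <;> rw [e1]
      · rw [show u⁻¹ * (u * e * u⁻¹) * u = e by group]; exact Subgroup.mem_zpowers e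
      · rw [show u⁻¹ * (u * e⁻¹ * u⁻¹) * u = e⁻¹ by group]
        exact inv_mem (Subgroup.mem_zpowers e)
    have h1 := Subgroup.mul_mem_sup hu
      (show u⁻¹ * g ∈ H from ⟨P.mul_mem (P.inv_mem (hWP hu)) hg, hn⟩)
    rwa [mul_inv_cancel_left] at h1
  set H' := H.subgroupOf P with hH'
  have hidx : H'.index = 4 := by
    have h1 := Modules.card_sup_mul_card_inf (B := H) (V := wOf K) (inf_le_left.trans hPW)
    have hbot : H ⊓ wOf K = ⊥ := (Subgroup.eq_bot_iff_forall _).2 fun v hv => hWH v hv.2 hv.1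
    have hsup : H ⊔ wOf K = P :=
      le_antisymm (sup_le inf_le_left hWP) (hPWH.trans (sup_comm _ _).le)
    rw [hbot, Subgroup.card_bot, mul_one, hsup, h.mem.card] at h1
    have h2 := Subgroup.relIndex_mul_relIndex ⊥ H P bot_le inf_le_left
    rw [Subgroup.relIndex_bot_left, Subgroup.relIndex_bot_left, h1] at h2
    exact Nat.eq_of_mul_eq_mul_left Nat.card_pos h2
  -- the action on the four cosets
  set φ := MulAction.toPermHom ↥P (↥P ⧸ H')
  have hker : ∀ g : ↥P, φ g = 1 → (g : G) ∈ uOf T K := by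
    intro g hg
    have hg' : g ∈ H'.normalCore := by rw [Subgroup.normalCore_eq_ker]; exact hg
    have hconj : ∀ v ∈ wOf K, ∀ hv' : v ∈ P, v * (g : G) * v⁻¹ ∈ H := fun v _ hv' =>
      hg' ⟨v, hv'⟩
    have hgH : (g : G) ∈ H := by simpa using hconj 1 (one_mem _) (one_mem _)
    have hgQ : (g : G) ∈ qOf T K := by
      rw [← h.mem.inf_centralizer]
      refine ⟨g.2, Subgroup.mem_centralizer_iff.2 fun v hv => ?_⟩
      have h1 : v * (g : G) * v⁻¹ * (g : G)⁻¹ ∈ H :=
        mul_mem (hconj v hv (hWP hv)) (inv_mem hgH)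
      have h2 : v * (g : G) * v⁻¹ * (g : G)⁻¹ ∈ wOf K := by
        have := mul_mem hv ((Subgroup.mem_normalizer_iff.1 (hPW g.2) v⁻¹).1 (inv_mem hv))
        simpa [mul_assoc] using this
      have h3 := hWH _ h2 h1
      calc v * (g : G) = (v * (g : G) * v⁻¹ * (g : G)⁻¹) * ((g : G) * v) := by group
        _ = (g : G) * v := by rw [h3, one_mul]
    obtain ⟨v, hv, r, hr, hgr⟩ := h.dec _ hgQ
    have hrc : ∀ t ∈ P, r * t = t * r := fun t ht =>
      (Subgroup.mem_centralizer_iff.1 hr.2 t ht).symm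
    have hrH : r ∈ H := by
      refine ⟨Subgroup.mem_sup_right hr.1.1, Subgroup.centralizer_le_normalizer _ ?_⟩
      rw [Subgroup.zpowers_eq_closure, Subgroup.centralizer_closure, Subgroup.mem_centralizer_singleton_iff]
      exact hrc e (Subgroup.mem_sup_left he)
    have hv1 : v = 1 := hWH v hv (by
      have := mul_mem hgH (inv_mem hrH)
      rwa [hgr, mul_inv_cancel_right] at this)
    rw [hgr, hv1, one_mul]; exact hr
  have hcardP : Nat.card ↥P = 24 * Nat.card ↥(uOf T K) := by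
    rw [h.mem.card_sup, h.card_T]; ring
  have hperm : Nat.card (Equiv.Perm (↥P ⧸ H')) = 24 := by
    rw [Nat.card_perm, ← Subgroup.index_eq_card, hidx]; rfl
  obtain ⟨f⟩ : Nonempty ((↥P ⧸ H') ≃ Fin 4) :=
    ⟨(Finite.equivFin _).trans (finCongr (by rw [← Subgroup.index_eq_card]; exact hidx))⟩
  rcases h.card_u with hu | hu
  · left
    refine ⟨by rw [h.card_T, hu], ?_⟩
    have hinj : Function.Injective φ := (injective_iff_map_eq_one φ).2 fun g hg => by
      have h1 := hker g hg
      rw [Subgroup.card_eq_one.1 hu, Subgroup.mem_bot] at h1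
      exact Subtype.ext h1
    have hbij : Function.Bijective φ :=
      hinj.bijective_of_nat_card_le (by rw [hperm, hcardP, hu])
    exact ⟨(MulEquiv.ofBijective φ hbij).trans (Equiv.permCongrHom f)⟩
  · right
    refine ⟨by rw [h.card_T, hu], ?_⟩
    obtain ⟨a, ha, haQ, haa⟩ := h.mem.exists_mover
    set P0 := (K ⊔ Subgroup.zpowers a).subgroupOf P
    have haK : Subgroup.zpowers a ≤ Subgroup.normalizer (K : Set G) :=
      Subgroup.zpowers_le.2 (h.mem.norm ha)
    have ha2 : ∀ g ∈ Subgroup.zpowers a, g = 1 ∨ g = a := by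
      rintro _ ⟨i, rfl⟩
      rcases Int.even_or_odd i with ⟨j, rfl⟩ | ⟨j, rfl⟩
      · left
        change a ^ (j + j) = 1
        rw [← two_mul, zpow_mul, zpow_two, haa, one_zpow]
      · right
        change a ^ (2 * j + 1) = a
        rw [zpow_add, zpow_mul, zpow_two, haa, one_zpow, one_mul, zpow_one]
    have haK' : a ∉ K := by
      intro hh
      have ha2' : a ∈ pCoreOf 2 K := by
        rcases coset_cases h.mem.idx he heQ hh with hq | hq | hq
        · exact hq
        all_goals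
          exact mem_of_pow_two_three (m := 1) (by rw [pow_one, pow_two, haa]; exact one_mem _)
            (pow_three_mem_pCoreOf h.mem.idx hh)
      exact haQ (h.mem.core_le_q ha2')
    have hc24 : Nat.card ↥(K ⊔ Subgroup.zpowers a : Subgroup G) = 24 := by
      have h1 := Modules.card_sup_mul_card_inf (B := Subgroup.zpowers a) (V := K) haK
      have hbot : Subgroup.zpowers a ⊓ K = ⊥ := (Subgroup.eq_bot_iff_forall _).2 fun g hg => by
        rcases ha2 g hg.1 with rfl | rfl
        · rfl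
        · exact absurd hg.2 haK'
      rw [hbot, Subgroup.card_bot, mul_one, sup_comm, Nat.card_zpowers,
        orderOf_eq_prime (hp := ⟨Nat.prime_two⟩) (by rw [pow_two, haa])
          (fun e' => haQ (by rw [e']; exact one_mem _)), hK12] at h1
      omega
    have hP0 : P0.index = 2 := by
      have h1 := Subgroup.relIndex_mul_relIndex ⊥ (K ⊔ Subgroup.zpowers a) P bot_le
        (sup_le le_sup_left (Subgroup.zpowers_le.2 (Subgroup.mem_sup_right ha)))
      rw [Subgroup.relIndex_bot_left, Subgroup.relIndex_bot_left, hc24, hcardP, hu] at h1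
      show (K ⊔ Subgroup.zpowers a).relIndex P = 2
      omega
    haveI : P0.Normal := Subgroup.normal_of_index_eq_two hP0
    have hrP0 : ∀ g : ↥P, (g : G) ∈ uOf T K → g ∈ P0 → g = 1 := by
      intro g hg hg0
      have hg0' : (g : G) ∈ (↑(K ⊔ Subgroup.zpowers a) : Set G) := hg0
      rw [Subgroup.coe_mul_of_right_le_normalizer_left K _ haK] at hg0'
      obtain ⟨k, hk, b, hb, hkb⟩ := Set.mem_mul.1 hg0'
      have hgK : ∀ x ∈ K, Commute (g : G) x := fun x hx =>
        (Subgroup.mem_centralizer_iff.1 hg.2 x (Subgroup.mem_sup_left hx)).symm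
      rcases ha2 b hb with rfl | rfl
      · rw [mul_one] at hkb
        have h1 : (g : G) ∈ wOf K := by
          rw [← hcore]
          have hgk : (g : G) ∈ K := hkb ▸ hk
          exact mem_of_pow_two_three (m := 1)
            (by rw [pow_one, pow_two, h.sq _ hg.1]; exact one_mem _)
            (pow_three_mem_pCoreOf h.mem.idx hgk)
        exact Subtype.ext (h.u_inf_w hg h1)
      · exfalso
        have hkfix : k * zOf T K * k⁻¹ = zOf T K := by
          have hgz : (g : G) * zOf T K * (g : G)⁻¹ = zOf T K := h.mem.z_fix hg.1.1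
          rw [← hkb] at hgz
          conv_rhs => rw [← hgz]
          rw [show k * b * zOf T K * (k * b)⁻¹ = k * (b * zOf T K * b⁻¹) * k⁻¹ by group,
            h.mem.z_fix ha]
        by_cases hkQ : k ∈ pCoreOf 2 K
        · refine haQ ?_
          have : b = k⁻¹ * (g : G) := by rw [← hkb, inv_mul_cancel_left]
          rw [this]; exact mul_mem (inv_mem (h.mem.core_le_q hkQ)) hg.1
        · exact h.mem.z_ne (wOf_fixed_eq_one h.mem.idx hk hkQ h.mem.z_mem hkfix)
    set χ := QuotientGroup.mk' P0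
    have hinj : Function.Injective (φ.prod χ) := (injective_iff_map_eq_one _).2 fun g hg => by
      have h1 : φ g = 1 := congrArg Prod.fst hg
      have h2 : χ g = 1 := congrArg Prod.snd hg
      exact hrP0 g (hker g h1) ((QuotientGroup.eq_one_iff g).1 h2)
    have hq2 : Nat.card (↥P ⧸ P0) = 2 := by rw [← Subgroup.index_eq_card]; exact hP0
    have hbij : Function.Bijective (φ.prod χ) :=
      hinj.bijective_of_nat_card_le (by rw [Nat.card_prod, hperm, hq2, hcardP, hu])
    haveI : Fact (Nat.Prime 2) := ⟨Nat.prime_two⟩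
    exact ⟨(MulEquiv.ofBijective _ hbij).trans ((Equiv.permCongrHom f).prodCongr
      (mulEquivOfPrimeCardEq hq2 (by simp)))⟩

end Cfsg.Agent.LocalEven
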