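import Cfsg.Agent.LocalEven.JAlive

/-!
`Ω₁Z(J(T))` and the fixed lines of the components.
-/

set_option autoImplicit false

open Cfsg
open scoped commutatorElement

namespace Cfsg.Agent.LocalEven

variable {G : Type*} [Group G] [Finite G] {T L K C : Subgroup G}

/-- `Ω₁(Z(J(T)))`. -/
abbrev z0Of (T : Subgroup G) : Subgroup G := omegaCenterOf (thompsonSubgroupOf 2 T)

/-- The part of `Ω₁(Z(J(T)))` centralized by `K`. -/
abbrev hOf (T K : Subgroup G) : Subgroup G := z0Of T ⊓ Subgroup.centralizer (K : Set G)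

theorem z0_comm {x y : G} (hx : x ∈ z0Of T) (hy : y ∈ z0Of T) : x * y = y * x :=
  Modules.elemAb_comm (omegaCenterOf_elemAb _) hx hy

theorem z0_sq {x : G} (hx : x ∈ z0Of T) : x * x = 1 := by
  simpa [pow_two] using (omegaCenterOf_elemAb _).2 x hx

theorem thompson_le_centralizer {x : G} (hx : x ∈ z0Of T) :
    thompsonSubgroupOf 2 T ≤ Subgroup.centralizer ({x} : Set G) := fun j hj =>
  Subgroup.mem_centralizer_singleton_iff.2
    (Subgroup.mem_centralizer_iff.1 (omegaCenterOf_le _ hx).2 j hj)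

theorem le_centralizer_of_mem_hOf {x : G} (hx : x ∈ hOf T K) :
    K ≤ Subgroup.centralizer ({x} : Set G) := fun k hk =>
  Subgroup.mem_centralizer_singleton_iff.2 (Subgroup.mem_centralizer_iff.1 hx.2 k hk)

theorem mem_z0_of_central {x : G} (hx : x ∈ T) (hx2 : x * x = 1)
    (hc : ∀ t ∈ T, t * x = x * t) : x ∈ z0Of T := by
  obtain ⟨A, hA⟩ := Modules.maxElemAbIn_nonempty 2 T
  refine Modules.mem_omegaOne_of_pow ⟨Modules.le_thompsonSubgroupOf hA ?_, ?_⟩ (by rwa [pow_two])
  · exact Modules.mem_maxElemAbIn_of_centralizing hA hx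
      (Subgroup.mem_centralizer_iff.2 fun a ha => hc a (hA.1 ha)) (by rwa [pow_two])
  · exact Subgroup.mem_centralizer_iff.2 fun j hj => hc j (thompsonOf_le T hj)

omit [Finite G] in
theorem normalizer_zpowers_of_sq {x : G} (hx : x * x = 1) (hx1 : x ≠ 1) :
    Subgroup.normalizer (Subgroup.zpowers x : Set G) = Subgroup.centralizer ({x} : Set G) := by
  have hmem : ∀ y ∈ Subgroup.zpowers x, y = 1 ∨ y = x := by
    rintro _ ⟨i, rfl⟩
    rcases Int.even_or_odd i with ⟨j, rfl⟩ | ⟨j, rfl⟩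
    · left
      change x ^ (j + j) = 1
      rw [← two_mul, zpow_mul, zpow_two, hx, one_zpow]
    · right
      change x ^ (2 * j + 1) = x
      rw [zpow_add, zpow_mul, zpow_two, hx, one_zpow, one_mul, zpow_one]
  refine le_antisymm (fun g hg => Subgroup.mem_centralizer_singleton_iff.2 ?_) ?_
  · rcases hmem _ ((Subgroup.mem_normalizer_iff.1 hg x).1 (Subgroup.mem_zpowers x)) with h | h
    · exact absurd (conj_eq_one_iff.1 h) hx1
    · exact mul_inv_eq_iff_eq_mul.1 h
  · intro g hg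
    rw [Subgroup.mem_normalizer_iff]
    intro y
    have hc : Commute g x := Subgroup.mem_centralizer_singleton_iff.1 hg
    constructor
    · rintro ⟨i, rfl⟩
      exact ⟨i, by
        change x ^ i = g * x ^ i * g⁻¹
        rw [(hc.zpow_right i).eq, mul_inv_cancel_right]⟩
    · rintro ⟨i, hi⟩
      refine ⟨i, ?_⟩
      have hi' : x ^ i = g * y * g⁻¹ := hi
      change x ^ i = y
      calc x ^ i = g⁻¹ * (g * x ^ i) := by group
        _ = g⁻¹ * (x ^ i * g) := by rw [(hc.zpow_right i).eq]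
        _ = y := by rw [hi']; group

omit [Finite G] in
theorem isTwoLocal_centralizer_of_sq {x : G} (hx : x * x = 1) (hx1 : x ≠ 1) :
    IsTwoLocal (Subgroup.centralizer ({x} : Set G)) := by
  refine ⟨Subgroup.zpowers x, ?_, by rwa [ne_eq, Subgroup.zpowers_eq_bot],
    (normalizer_zpowers_of_sq hx hx1).symm⟩
  exact IsPGroup.of_card (n := 1) (by
    rw [Nat.card_zpowers, pow_one, orderOf_eq_prime (hp := ⟨Nat.prime_two⟩) (by rwa [pow_two]) hx1])

/-- The involution of a component in `Ω₁(Z(J(T)))`. -/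
theorem exists_line (hK : IsJComponent T K) (hT : IsPGroup 2 T) :
    ∃ w ∈ z0Of T, w ∈ wOf K ∧ w ≠ 1 ∧ w ∉ hOf T K ∧
      (∀ v ∈ z0Of T, v ∈ hOf T K ∨ v * w ∈ hOf T K) ∧
      ∀ v ∈ z0Of T, v ∈ wOf K → v = 1 ∨ v = w := by
  obtain ⟨h2, hsplit⟩ := omega_thompson_split hK.1 hK.2.1 hK.2.2.1 hK.2.2.2.2.1 hT hK.2.2.2.1
  set X := z0Of T ⊓ wOf K with hX
  obtain ⟨⟨w, hw⟩, hw1⟩ := (Subgroup.ne_bot_iff_exists_ne_one).1
    (fun h => by rw [h, Subgroup.card_bot] at h2; omega : X ≠ ⊥)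
  have hw1' : w ≠ 1 := fun h => hw1 (Subtype.ext h)
  have hcase : ∀ v ∈ X, v = 1 ∨ v = w := by
    have hs : ({1, w} : Set G) = (X : Set G) := by
      refine Set.eq_of_subset_of_ncard_le ?_ ?_
      · rintro x (rfl | rfl)
        · exact one_mem _
        · exact hw
      · rw [← Nat.card_coe_set_eq]
        exact h2.le.trans (Set.ncard_pair hw1'.symm).ge
    intro v hv
    rw [← SetLike.mem_coe, ← hs] at hv
    simpa using hv
  refine ⟨w, hw.1, hw.2, hw1', fun hh => hw1' ?_, fun v hv => ?_,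
    fun v hv hvW => hcase v ⟨hv, hvW⟩⟩
  · obtain ⟨x, hx, hxQ⟩ := exists_not_mem_pCoreOf hK.2.2.1
    exact wOf_fixed_eq_one hK.2.2.1 hx hxQ hw.2
      (mul_inv_eq_iff_eq_mul.2 (Subgroup.mem_centralizer_iff.1 hh.2 x hx))
  set H0 := z0Of T ⊓ ((K ⊔ thompsonSubgroupOf 2 T) ⊓
      Subgroup.centralizer ((K ⊔ thompsonSubgroupOf 2 T : Subgroup G) : Set G))
  have hH0 : H0 ≤ hOf T K := le_inf inf_le_left (inf_le_right.trans (inf_le_right.trans
    (Subgroup.centralizer_le (SetLike.coe_subset_coe.2 le_sup_left))))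
  have hv' : v ∈ H0 ⊔ X := hsplit.ge hv
  rw [← SetLike.mem_coe, Subgroup.coe_mul_of_right_le_normalizer_left] at hv'
  · obtain ⟨a, ha, b, hb, rfl⟩ := Set.mem_mul.1 hv'
    rcases hcase b hb with rfl | rfl
    · left; rw [mul_one]; exact hH0 ha
    · right; rw [mul_assoc, wOf_sq hb.2, mul_one]; exact hH0 ha
  · intro x hx
    rw [Subgroup.mem_normalizer_iff]
    intro y
    refine ⟨fun hy => ?_, fun hy => ?_⟩
    · rw [z0_comm hx.1 hy.1, mul_inv_cancel_right]; exact hy
    · have hy1 : x * y * x⁻¹ = y := by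
        have h := z0_comm hx.1 hy.1
        rw [← mul_left_inj x⁻¹] at h
        have e : x * (x * y * x⁻¹) * x⁻¹ = x * y * x⁻¹ := by rw [h]; group
        exact mul_left_cancel (mul_right_cancel e)
      exact hy1 ▸ hy

theorem card_z0_le_two_mul (hK : IsJComponent T K) (hT : IsPGroup 2 T) :
    Nat.card ↥(z0Of T) ≤ 2 * Nat.card ↥(hOf T K) := by
  obtain ⟨w, hw, -, -, -, hcases, -⟩ := exists_line hK hT
  have hsub : (z0Of T : Set G) ⊆ (hOf T K : Set G) ∪ (fun x => x * w) '' (hOf T K : Set G) := by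
    intro v hv
    rcases hcases v hv with h | h
    · exact Or.inl h
    · exact Or.inr ⟨v * w, h, by
        show v * w * w = v
        rw [mul_assoc, z0_sq hw, mul_one]⟩
  have e : ∀ H : Subgroup G, (H : Set G).ncard = Nat.card H := fun H =>
    (Nat.card_coe_set_eq _).symm
  calc Nat.card ↥(z0Of T) = (z0Of T : Set G).ncard := (e _).symm
    _ ≤ _ := Set.ncard_le_ncard hsub
    _ ≤ _ := Set.ncard_union_le _ _
    _ ≤ (hOf T K : Set G).ncard + (hOf T K : Set G).ncard :=
        Nat.add_le_add_left Set.ncard_image_le _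
    _ = _ := by rw [e, two_mul]

theorem fix_le (hz : ZNHyp G) (hT : IsPGroup 2 T) (hK : Tight T K) (hL : IsMaximalTwoLocal L)
    (hKL : K ≤ L) (hJL : thompsonSubgroupOf 2 T ≤ L) {x : G} (hx : x ∈ hOf T K) (hx1 : x ≠ 1) :
    Subgroup.centralizer ({x} : Set G) ≤ L :=
  hK.le_max hz hT hL hKL hJL (isTwoLocal_centralizer_of_sq (z0_sq hx.1) hx1)
    (le_centralizer_of_mem_hOf hx) (thompson_le_centralizer hx.1)

/-- Tight components with different maximal overgroups have independent lines. -/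
theorem hOf_disjoint (hz : ZNHyp G) (hT : IsPGroup 2 T) {K' L' : Subgroup G} (hK : Tight T K)
    (hL : IsMaximalTwoLocal L) (hKL : K ≤ L) (hJL : thompsonSubgroupOf 2 T ≤ L)
    (hK' : Tight T K') (hL' : IsMaximalTwoLocal L') (hKL' : K' ≤ L')
    (hJL' : thompsonSubgroupOf 2 T ≤ L') (hne : L ≠ L') {x : G} (hx : x ∈ hOf T K)
    (hx' : x ∈ hOf T K') : x = 1 := by
  by_contra hx1
  have h1 := fix_le hz hT hK hL hKL hJL hx hx1
  exact hne (hK'.unique hz hT hL' hKL' hJL' hL ((le_centralizer_of_mem_hOf hx').trans h1) hJL)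

/-- Two components with different maximal overgroups: `|Ω₁Z(J)| ≤ 4`, and the lines are small. -/
theorem card_z0_le_four (hz : ZNHyp G) (hT : IsPGroup 2 T) {K' L' : Subgroup G} (hK : Tight T K)
    (hL : IsMaximalTwoLocal L) (hKL : K ≤ L) (hJL : thompsonSubgroupOf 2 T ≤ L)
    (hK' : Tight T K') (hL' : IsMaximalTwoLocal L') (hKL' : K' ≤ L')
    (hJL' : thompsonSubgroupOf 2 T ≤ L') (hne : L ≠ L') : Nat.card ↥(z0Of T) ≤ 4 := by
  have h1 := card_z0_le_two_mul hK.1 hT
  have h2 := card_z0_le_two_mul hK'.1 hT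
  have hcomm : hOf T K ≤ Subgroup.normalizer (hOf T K' : Set G) := fun x hx => by
    rw [Subgroup.mem_normalizer_iff_map_conj_eq]
    refine Subgroup.eq_of_le_of_card_ge ?_
      (Subgroup.card_map_of_injective (f := (MulAut.conj x).toMonoidHom)
        (MulAut.conj x).injective).ge
    rintro _ ⟨y, hy, rfl⟩
    change x * y * x⁻¹ ∈ _
    rw [z0_comm hx.1 hy.1, mul_inv_cancel_right]; exact hy
  have h3 := Modules.card_sup_mul_card_inf hcomm
  have hbot : hOf T K ⊓ hOf T K' = ⊥ := (Subgroup.eq_bot_iff_forall _).2 fun x hx =>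
    hOf_disjoint hz hT hK hL hKL hJL hK' hL' hKL' hJL' hne hx.1 hx.2
  rw [hbot, Subgroup.card_bot, mul_one] at h3
  have h4 : Nat.card ↥(hOf T K ⊔ hOf T K' : Subgroup G) ≤ Nat.card ↥(z0Of T) :=
    Subgroup.card_le_of_le (sup_le inf_le_left inf_le_left)
  have h5 := Nat.mul_le_mul h1 h2
  rw [h3] at h4
  have h6 : 0 < Nat.card ↥(z0Of T) := Nat.card_pos
  nlinarith

/-- When `|Ω₁Z(J)| ≤ 4` a line has at most one involution. -/
theorem line_unique (hK : IsJComponent T K) (hT : IsPGroup 2 T)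
    (h4 : Nat.card ↥(z0Of T) ≤ 4) {x y : G} (hx : x ∈ hOf T K) (hx1 : x ≠ 1)
    (hy : y ∈ hOf T K) (hy1 : y ≠ 1) : x = y := by
  by_contra hne
  obtain ⟨w, hw, -, -, hwH, -, -⟩ := exists_line hK hT
  have hxy : x * y ∈ hOf T K := mul_mem hx hy
  have hxy1 : x * y ≠ 1 := fun h => hne (by
    rw [eq_inv_of_mul_eq_one_left h, inv_eq_of_mul_eq_one_right (z0_sq hy.1)])
  have h : ({1, x, y, x * y, w} : Set G) ⊆ (z0Of T : Set G) := by
    rintro v (rfl | rfl | rfl | rfl | rfl)
    · exact one_mem _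
    · exact hx.1
    · exact hy.1
    · exact hxy.1
    · exact hw
  have hcard := Set.ncard_le_ncard h
  rw [← Nat.card_coe_set_eq (z0Of T : Set G)] at hcard
  have h5 : ({1, x, y, x * y, w} : Set G).ncard = 5 := by
    have a1 : x * y ≠ x := fun h => hy1 (mul_eq_left.1 h)
    have a2 : x * y ≠ y := fun h => hx1 (mul_eq_right.1 h)
    have b1 : w ≠ 1 := fun h => hwH (h ▸ one_mem _)
    have b2 : w ≠ x := fun h => hwH (h ▸ hx)
    have b3 : w ≠ y := fun h => hwH (h ▸ hy)
    have b4 : w ≠ x * y := fun h => hwH (h ▸ hxy)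
    rw [Set.ncard_insert_of_notMem (by simp [hx1.symm, hy1.symm, hxy1.symm, b1.symm]),
      Set.ncard_insert_of_notMem (by simp [hne, a1.symm, b2.symm]),
      Set.ncard_insert_of_notMem (by simp [a2.symm, b3.symm]), Set.ncard_pair b4.symm]
  have hcard' : 5 ≤ Nat.card ↥(z0Of T) := h5 ▸ hcard
  omega

/-- Distinct components in one overgroup: each line contains the other's involution. -/
theorem mem_hOf_of_ne (hz : ZNHyp G) {T₀ : Subgroup G} (hL : L ∈ jOvergroups T₀)
    (hJ : thompsonSubgroupOf 2 T₀ = thompsonSubgroupOf 2 T) (hK : IsJComponent T K) (hKL : K ≤ L)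
    (hC : IsJComponent T C) (hCL : C ≤ L) (hne : C ≠ K) {v : G} (hv : v ∈ z0Of T)
    (hvC : v ∈ wOf C) : v ∈ hOf T K :=
  ⟨hv, Subgroup.mem_centralizer_iff.2 fun _ hk => (Subgroup.mem_centralizer_iff.1
    (((compData_of_mem hJ hK hKL).mutual hz hL (compData_of_mem hJ hC hCL)).1 hne.symm hk) v
      hvC).symm⟩

/-- The central involutions of a Sylow subgroup over `T`. -/
theorem omega_sylow_le (hL : L ∈ jOvergroups T) (S : Sylow 2 G) (hTS : T ≤ (S : Subgroup G))
    {x : G} (hx : x ∈ omegaCenterOf (S : Subgroup G)) :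
    x ∈ T ∧ x * x = 1 ∧ (∀ t ∈ T, t * x = x * t) ∧ x ∈ z0Of T := by
  have hxc := omegaCenterOf_le _ hx
  have h2 : x * x = 1 := by simpa [pow_two] using (omegaCenterOf_elemAb _).2 x hx
  have hc : ∀ t ∈ T, t * x = x * t := fun t ht => Subgroup.mem_centralizer_iff.1 hxc.2 t (hTS ht)
  have hxT : x ∈ T := pCoreOf_le_sylow hL.1 (hL.2.2 (Subgroup.mem_centralizer_iff.2 fun q hq =>
    hc q (pCoreOf_le_sylow hL.1 hq)))
  exact ⟨hxT, h2, hc, mem_z0_of_central hxT h2 hc⟩

/-- A component does not centralize all central involutions of a Sylow subgroup over `J`. -/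
theorem exists_omega_not_mem (hz : ZNHyp G) (hK : IsJComponent T K) (S : Sylow 2 G)
    (hJS : thompsonSubgroupOf 2 T ≤ (S : Subgroup G)) :
    ∃ v ∈ omegaCenterOf (S : Subgroup G), v ∉ Subgroup.centralizer (K : Set G) := by
  by_contra hcon
  push Not at hcon
  have hKN : K ≤ Subgroup.normalizer ((S : Subgroup G) : Set G) :=
    (Subgroup.le_centralizer_iff.1 hcon).trans (hz.cent S)
  have hKS : K ≤ (S : Subgroup G) := by
    conv_lhs => rw [← hK.2.1]
    rw [Subgroup.commutator_le]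
    intro k hk j hj
    rw [commutatorElement_def]
    exact mul_mem ((Subgroup.mem_normalizer_iff.1 (hKN hk) j).1 (hJS hj)) (inv_mem (hJS hj))
  have h3 := hK.2.2.1
  rw [eq_bot_of_gen S.isPGroup' hK.1 hKS, Subgroup.relIndex_bot_right] at h3
  omega

/-- Conjugating a line by an element normalizing `J(T)`. -/
theorem hOf_conj {g x : G}
    (hg : g ∈ Subgroup.normalizer (thompsonSubgroupOf 2 T : Set G)) (hx : x ∈ hOf T K) :
    g * x * g⁻¹ ∈ hOf T (K.map (MulAut.conj g).toMonoidHom) := by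
  refine ⟨(Subgroup.mem_normalizer_iff.1 (normalizer_le_normalizer_omegaCenterOf _ hg) x).1 hx.1,
    Subgroup.mem_centralizer_iff.2 ?_⟩
  rintro _ ⟨k, hk, rfl⟩
  change g * k * g⁻¹ * (g * x * g⁻¹) = g * x * g⁻¹ * (g * k * g⁻¹)
  rw [← conj_mul_conj, ← conj_mul_conj, Subgroup.mem_centralizer_iff.1 hx.2 k hk]

theorem isJComponent_conj_normalizer (hK : IsJComponent T K) {g : G}
    (hg : g ∈ Subgroup.normalizer (thompsonSubgroupOf 2 T : Set G)) :
    IsJComponent T (K.map (MulAut.conj g).toMonoidHom) := by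
  refine isJComponent_congr ?_ (isJComponent_conj hK g)
  rw [← Modules.conj_thompsonSubgroupOf]
  exact (FF.map_conj_eq hg).symm

theorem isMaximalTwoLocal_conj (hL : IsMaximalTwoLocal L) (g : G) :
    IsMaximalTwoLocal (L.map (MulAut.conj g).toMonoidHom) := by
  have key : ∀ (Y : Subgroup G) (g : G), IsTwoLocal Y →
      IsTwoLocal (Y.map (MulAut.conj g).toMonoidHom) := by
    rintro Y g ⟨U, hU, hU1, rfl⟩
    refine ⟨U.map (MulAut.conj g).toMonoidHom, hU.map _, fun h => hU1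
      ((Subgroup.map_eq_bot_iff_of_injective U (MulAut.conj g).injective).1 h), ?_⟩
    exact Subgroup.map_equiv_normalizer_eq U (MulAut.conj g)
  refine ⟨key L g hL.1, fun N hN hle => ?_⟩
  have hle' := Subgroup.map_mono (f := (MulAut.conj g⁻¹).toMonoidHom) hle
  rw [map_conj_inv_map_conj] at hle'
  rw [← hL.2 _ (key N g⁻¹ hN) hle', map_conj_map_conj, mul_inv_cancel, map_conj_one]

/-- A component normalized by `T` inside an overgroup of `T` is a member. -/
theorem member_of_component (hz : ZNHyp G) (hT : IsPGroup 2 T) (hL : L ∈ jOvergroups T)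
    (hK : IsJComponent T K) (hKL : K ≤ L) (hn : T ≤ Subgroup.normalizer (K : Set G)) :
    Member T K :=
  ⟨hT, hn, hK.1, hK.2.1, hK.2.2.1, hK.2.2.2.2.1,
    ((CompData.of_isJComponent hK hKL).core_le hz hL).trans (pCoreOf_le_sylow hL.1)⟩

end Cfsg.Agent.LocalEven
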