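import Cfsg.Agent.LocalEven.JFamily

/-!
A maximal straddling subgroup that is not a Sylow subgroup of `G`.
-/

set_option autoImplicit false

open Cfsg
open scoped commutatorElement

namespace Cfsg.Agent.LocalEven

variable {G : Type*} [Group G] [Finite G] {T M K L : Subgroup G} {S : Sylow 2 G} {g : G}

/-- The data of the proper case. -/
structure PCtx (T M K L : Subgroup G) (S : Sylow 2 G) (g : G) : Prop where
  hz : ZNHyp G
  hT : T ∈ maxStraddlingTwoSubgroups M
  hNJ : Subgroup.normalizer (thompsonSubgroupOf 2 T : Set G) ≤ M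
  hK : IsJComponent T K
  hKM : ¬ K ≤ M
  hL : IsMaximalTwoLocal L
  hKL : K ≤ L
  hTL : T ≤ L
  hTS : T ≤ (S : Subgroup G)
  gS : g ∈ (S : Subgroup G)
  gN : g ∈ Subgroup.normalizer (T : Set G)
  gT : g ∉ T
  g2 : g * g ∈ T

namespace PCtx

variable (c : PCtx T M K L S g)
include c

theorem hT2 : IsPGroup 2 T := c.hT.1.1

theorem hJL : thompsonSubgroupOf 2 T ≤ L := (thompsonOf_le T).trans c.hTL

theorem tight : Tight T K := tight_of_not_le c.hz c.hT c.hNJ c.hK c.hKM

theorem jover : L ∈ jOvergroups T :=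
  straddle_sylow c.hz c.hT c.hNJ c.hL.1 (fun h => c.hKM (c.hKL.trans h)) c.hTL

theorem gJ : g ∈ Subgroup.normalizer (thompsonSubgroupOf 2 T : Set G) :=
  Modules.normalizer_le_normalizer_thompsonSubgroupOf 2 T c.gN

theorem mapT : T.map (MulAut.conj g).toMonoidHom = T := FF.map_conj_eq c.gN

theorem not_le' : ¬ K.map (MulAut.conj g).toMonoidHom ≤ M := by
  intro h
  refine c.hKM fun k hk => ?_
  have hgM := c.hNJ c.gJ
  have h1 : g * k * g⁻¹ ∈ M := h ⟨k, hk, rfl⟩
  have := mul_mem (mul_mem (inv_mem hgM) h1) hgM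
  simpa [mul_assoc] using this

/-- The conjugate context. -/
theorem swap : PCtx T M (K.map (MulAut.conj g).toMonoidHom) (L.map (MulAut.conj g).toMonoidHom)
    S g :=
  ⟨c.hz, c.hT, c.hNJ, isJComponent_conj_normalizer c.hK c.gJ, c.not_le',
    isMaximalTwoLocal_conj c.hL g, Subgroup.map_mono c.hKL,
    c.mapT.ge.trans (Subgroup.map_mono c.hTL), c.hTS, c.gS, c.gN, c.gT, c.g2⟩

theorem ne : L ≠ L.map (MulAut.conj g).toMonoidHom := by
  intro h
  have hgL : g ∈ L := by
    rw [← IsMaximalTwoLocal.normalizer_eq c.hz c.hL, Subgroup.mem_normalizer_iff_map_conj_eq]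
    exact h.symm
  have h2 : IsPGroup 2 (T ⊔ Subgroup.zpowers g : Subgroup G) :=
    S.isPGroup'.to_le (sup_le c.hTS (Subgroup.zpowers_le.2 c.gS))
  refine c.gT ?_
  rw [← eq_of_sylowTwoIn c.jover.1 h2 le_sup_left (sup_le c.hTL (Subgroup.zpowers_le.2 hgL))]
  exact Subgroup.mem_sup_right (Subgroup.mem_zpowers g)

theorem card_le : Nat.card ↥(z0Of T) ≤ 4 :=
  card_z0_le_four c.hz c.hT2 c.tight c.hL c.hKL c.hJL c.swap.tight c.swap.hL c.swap.hKL
    c.swap.hJL c.ne

theorem disjoint {x : G} (hx : x ∈ hOf T K) (hx' : x ∈ hOf T (K.map (MulAut.conj g).toMonoidHom)) :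
    x = 1 :=
  hOf_disjoint c.hz c.hT2 c.tight c.hL c.hKL c.hJL c.swap.tight c.swap.hL c.swap.hKL c.swap.hJL
    c.ne hx hx'

/-- `T` normalizes the component. -/
theorem norm : T ≤ Subgroup.normalizer (K : Set G) := by
  intro t ht
  rw [Subgroup.mem_normalizer_iff_map_conj_eq]
  by_contra hne
  change K.map (MulAut.conj t).toMonoidHom ≠ K at hne
  set C := K.map (MulAut.conj t).toMonoidHom
  have htJ : t ∈ Subgroup.normalizer (thompsonSubgroupOf 2 T : Set G) :=
    Modules.normalizer_le_normalizer_thompsonSubgroupOf 2 T (Subgroup.le_normalizer ht)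
  have hC : IsJComponent T C := isJComponent_conj_normalizer c.hK htJ
  have hCL : C ≤ L := by
    rw [← FF.map_conj_eq (Subgroup.le_normalizer (c.hTL ht))]
    exact Subgroup.map_mono c.hKL
  have hCM : ¬ C ≤ M := by
    intro h
    refine c.hKM fun k hk => ?_
    have htM := c.hNJ htJ
    have h1 : t * k * t⁻¹ ∈ M := h ⟨k, hk, rfl⟩
    have := mul_mem (mul_mem (inv_mem htM) h1) htM
    simpa [mul_assoc] using this
  have c' : PCtx T M C L S g :=
    ⟨c.hz, c.hT, c.hNJ, hC, hCM, c.hL, hCL, c.hTL, c.hTS, c.gS, c.gN, c.gT, c.g2⟩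
  obtain ⟨w₁, hw₁, hw₁W, hw₁1, hw₁H, -, -⟩ := exists_line c.hK c.hT2
  obtain ⟨w₂, hw₂, hw₂W, hw₂1, hw₂H, -, -⟩ := exists_line hC c.hT2
  have a2 : w₂ ∈ hOf T K :=
    mem_hOf_of_ne c.hz c.jover rfl c.hK c.hKL hC hCL hne hw₂ hw₂W
  have a1 : w₁ ∈ hOf T C :=
    mem_hOf_of_ne c.hz c.jover rfl hC hCL c.hK c.hKL (Ne.symm hne) hw₁ hw₁W
  have b2 := hOf_conj c.gJ a2
  have b1 := hOf_conj c.gJ a1
  have hbne : g * w₂ * g⁻¹ ≠ g * w₁ * g⁻¹ := fun e =>
    hw₁H (mul_left_cancel (mul_right_cancel e) ▸ a2)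
  have hcross : ∀ {A B : Subgroup G}, PCtx T M A L S g → PCtx T M B L S g → ∀ x ∈ hOf T A,
      x ∈ hOf T (B.map (MulAut.conj g).toMonoidHom) → x = 1 := fun cA cB x hx hx' =>
    hOf_disjoint c.hz c.hT2 cA.tight cA.hL cA.hKL cA.hJL cB.swap.tight cB.swap.hL cB.swap.hKL
      cB.swap.hJL c.ne hx hx'
  have g1 : ∀ x : G, x ≠ 1 → g * x * g⁻¹ ≠ 1 := fun x hx e => hx (conj_eq_one_iff.1 e)
  have n1 : w₂ ≠ w₁ := fun e => hw₁H (e ▸ a2)
  have n2 : g * w₂ * g⁻¹ ≠ w₂ := fun e => hw₂1 (hcross c c w₂ a2 (e ▸ b2))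
  have n3 : g * w₂ * g⁻¹ ≠ w₁ := fun e => hw₁1 (hcross c' c w₁ a1 (e ▸ b2))
  have n4 : g * w₁ * g⁻¹ ≠ w₂ := fun e => hw₂1 (hcross c c' w₂ a2 (e ▸ b1))
  have n5 : g * w₁ * g⁻¹ ≠ w₁ := fun e => hw₁1 (hcross c' c' w₁ a1 (e ▸ b1))
  have hsub : ({1, w₂, w₁, g * w₂ * g⁻¹, g * w₁ * g⁻¹} : Set G) ⊆ (z0Of T : Set G) := by
    rintro v (rfl | rfl | rfl | rfl | rfl)
    · exact one_mem _
    · exact hw₂
    · exact hw₁
    · exact b2.1
    · exact b1.1
  have hcard := Set.ncard_le_ncard hsub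
  rw [← Nat.card_coe_set_eq (z0Of T : Set G)] at hcard
  have h5 : ({1, w₂, w₁, g * w₂ * g⁻¹, g * w₁ * g⁻¹} : Set G).ncard = 5 := by
    rw [Set.ncard_insert_of_notMem
        (by simp [hw₂1.symm, hw₁1.symm, (g1 _ hw₂1).symm, (g1 _ hw₁1).symm]),
      Set.ncard_insert_of_notMem (by simp [n1, n2.symm, n4.symm]),
      Set.ncard_insert_of_notMem (by simp [n3.symm, n5.symm]), Set.ncard_pair hbne]
  have h4 := c.card_le
  have hcard' : 5 ≤ Nat.card ↥(z0Of T) := h5 ▸ hcard
  omega

theorem mem : Member T K := member_of_component c.hz c.hT2 c.jover c.hK c.hKL c.norm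

theorem zOf_swap : zOf T (K.map (MulAut.conj g).toMonoidHom) = g * zOf T K * g⁻¹ := by
  conv_lhs => rw [← c.mapT]
  exact c.mem.zOf_conj g

/-- The two members have the same fixed involution. -/
theorem common : zOf T (K.map (MulAut.conj g).toMonoidHom) = zOf T K := by
  classical
  by_contra hne
  have mK := c.mem
  have mK' := c.swap.mem
  set K' := K.map (MulAut.conj g).toMonoidHom with hK'def
  set L' := L.map (MulAut.conj g).toMonoidHom with hL'def
  set z := zOf T K with hzdef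
  set z' := zOf T K' with hz'def
  have hgg : ∀ x, x ∈ z0Of T → (∀ t ∈ T, t * x * t⁻¹ = x) → g * (g * x * g⁻¹) * g⁻¹ = x :=
    fun x _ hx => by
      rw [show g * (g * x * g⁻¹) * g⁻¹ = g * g * x * (g * g)⁻¹ by group, hx _ c.g2]
  have hzz : z' = g * z * g⁻¹ := c.zOf_swap
  have hz'H : z' ∈ hOf T K := by
    obtain ⟨w, hw, hwW, hw1, -, hcases, huniq⟩ := exists_line c.hK c.hT2
    have hzw : z = w := (huniq z (zOf_mem_z0 mK) mK.z_mem).resolve_left mK.z_ne
    rcases hcases z' (zOf_mem_z0 mK') with h | h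
    · exact h
    exfalso
    rw [← hzw] at h
    have hh : g * (z' * z) * g⁻¹ = z' * z := by
      rw [conj_mul_conj, ← hzz, hzz, hgg z (zOf_mem_z0 mK) (fun t ht => mK.z_fix ht), ← hzz,
        z0_comm (zOf_mem_z0 mK) (zOf_mem_z0 mK')]
    have h1 := hOf_conj c.gJ h
    rw [hh] at h1
    exact hne (by rw [eq_inv_of_mul_eq_one_left (c.disjoint h h1),
      inv_eq_of_mul_eq_one_right (wOf_sq mK.z_mem)])
  have hzH' : z ∈ hOf T K' := by
    have h1 := hOf_conj c.gJ hz'H
    rwa [hzz, hgg z (zOf_mem_z0 mK) fun t ht => mK.z_fix ht] at h1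
  -- the components are the only ones in their overgroups
  have single : ∀ C, IsJComponent T C → C ≤ L → C = K := by
    intro C hC hCL
    by_contra hCK
    obtain ⟨w, hw, hwW, hw1, -, -, -⟩ := exists_line hC c.hT2
    have hwK := mem_hOf_of_ne c.hz c.jover rfl c.hK c.hKL hC hCL hCK hw hwW
    have hwz : w = z' :=
      line_unique c.hK c.hT2 c.card_le hwK hw1 hz'H mK'.z_ne
    have hzC : z ∈ hOf T C :=
      mem_hOf_of_ne c.hz c.jover rfl hC hCL c.hK c.hKL (Ne.symm hCK) (zOf_mem_z0 mK) mK.z_mem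
    have hCL' : C ≤ L' :=
      (le_centralizer_of_mem_hOf hzC).trans (fix_le c.hz c.hT2 c.swap.tight c.swap.hL c.swap.hKL
        c.swap.hJL hzH' mK.z_ne)
    set C' := C.map (MulAut.conj g).toMonoidHom
    have hC'L : C' ≤ L := by
      refine (Subgroup.map_mono hCL').trans ?_
      rw [hL'def, map_conj_map_conj]
      exact (FF.map_conj_eq (Subgroup.le_normalizer (c.hTL c.g2))).le
    have hC' := isJComponent_conj_normalizer hC c.gJ
    have hzC' : z ∈ wOf C' := by
      rw [← map_conj_wOf]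
      exact ⟨w, hwW, by
        change g * w * g⁻¹ = z
        rw [hwz, hzz, hgg z (zOf_mem_z0 mK) fun t ht => mK.z_fix ht]⟩
    have heq : C' = K := CompData.unique c.hz c.jover (CompData.of_isJComponent c.hK c.hKL)
      (CompData.of_isJComponent hC' hC'L) mK.z_mem hzC' mK.z_ne
    have hKL' : K ≤ L' := heq ▸ Subgroup.map_mono hCL
    exact c.ne (c.tight.unique c.hz c.hT2 c.hL c.hKL c.hJL c.swap.hL hKL' c.swap.hJL).symm
  have single' : ∀ C, IsJComponent T C → C ≤ L' → C = K' := by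
    intro C hC hCL'
    have hg' : g⁻¹ ∈ Subgroup.normalizer (thompsonSubgroupOf 2 T : Set G) := inv_mem c.gJ
    have h1 := single _ (isJComponent_conj_normalizer hC hg') (by
      refine (Subgroup.map_mono hCL').trans (le_of_eq ?_)
      rw [hL'def, map_conj_inv_map_conj])
    rw [hK'def, ← h1, map_conj_map_conj, mul_inv_cancel, map_conj_one]
  -- `L = K N_L(T)`
  have hdec : ∀ x ∈ L, ∃ a ∈ K ⊔ T, ∃ n ∈ Subgroup.normalizer (T : Set G), x = a * n := by
    set N0 := L ⊓ Subgroup.normalizer (thompsonSubgroupOf 2 T : Set G)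
    have hN0K : N0 ≤ Subgroup.normalizer (K : Set G) := fun x hx => by
      rw [Subgroup.mem_normalizer_iff_map_conj_eq]
      refine single _ (isJComponent_conj_normalizer c.hK hx.2) ?_
      rw [← FF.map_conj_eq (Subgroup.le_normalizer hx.1)]
      exact Subgroup.map_mono c.hKL
    have hN0T : N0 ≤ Subgroup.normalizer (T : Set G) := by
      intro x hx
      have hxW := normalizer_le_normalizer_wOf K (hN0K hx)
      have hxZ := normalizer_le_normalizer_omegaCenterOf _ hx.2
      obtain ⟨w, hw, hwW, hw1, -, hcases, huniq⟩ := exists_line c.hK c.hT2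
      have hconjH : ∀ v ∈ hOf T K, x * v * x⁻¹ = v := by
        intro v hv
        by_cases hv1 : v = 1
        · rw [hv1]; group
        have := hOf_conj hx.2 hv
        rw [show K.map (MulAut.conj x).toMonoidHom = K from FF.map_conj_eq (hN0K hx)] at this
        exact line_unique c.hK c.hT2 c.card_le this (fun e => hv1 (conj_eq_one_iff.1 e)) hv hv1
      have hxw : x * w * x⁻¹ = w :=
        (huniq _ ((Subgroup.mem_normalizer_iff.1 hxZ w).1 hw)
          ((Subgroup.mem_normalizer_iff.1 hxW w).1 hwW)).resolve_left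
            fun e => hw1 (conj_eq_one_iff.1 e)
      have hxZ0 : ∀ v ∈ z0Of T, x * v * x⁻¹ = v := by
        intro v hv
        rcases hcases v hv with h | h
        · exact hconjH v h
        · have h1 := hconjH _ h
          rw [conj_mul_conj, hxw] at h1
          exact mul_right_cancel h1
      have hxS : x ∈ Subgroup.normalizer ((S : Subgroup G) : Set G) :=
        c.hz.cent S (Subgroup.mem_centralizer_iff.2 fun v hv =>
          (mul_inv_eq_iff_eq_mul.1 (hxZ0 v (omega_sylow_le c.jover S c.hTS hv).2.2.2)).symm)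
      rw [← eq_of_sylowTwoIn c.jover.1 (S.isPGroup'.to_le inf_le_left) (le_inf c.hTS c.hTL)
        (inf_le_right : (S : Subgroup G) ⊓ L ≤ L)]
      rw [Subgroup.mem_normalizer_iff]
      intro y
      simp only [Subgroup.mem_inf]
      rw [Subgroup.mem_normalizer_iff.1 hxS y,
        Subgroup.mem_normalizer_iff.1 (Subgroup.le_normalizer hx.1) y]
    have hLle : L ≤ K ⊔ N0 := by
      by_contra hcon
      obtain ⟨C, hC, hCL, hCne⟩ := exists_component_not_le c.hz c.jover c.hT2 hcon le_sup_right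
      exact hCne ((single C hC hCL).le.trans le_sup_left)
    intro x hx
    have hx' : x ∈ (↑(K ⊔ N0) : Set G) := hLle hx
    rw [Subgroup.coe_mul_of_right_le_normalizer_left K N0 hN0K] at hx'
    obtain ⟨k, hk, n, hn, rfl⟩ := Set.mem_mul.1 hx'
    exact ⟨k, Subgroup.mem_sup_left hk, n, hN0T hn, rfl⟩
  have hdec' : ∀ x ∈ L', ∃ a ∈ K' ⊔ T, ∃ n ∈ Subgroup.normalizer (T : Set G), x = a * n := by
    rintro _ ⟨x, hx, rfl⟩
    obtain ⟨a, ha, n, hn, rfl⟩ := hdec x hx
    refine ⟨g * a * g⁻¹, ?_, g * n * g⁻¹, mul_mem (mul_mem c.gN hn) (inv_mem c.gN), ?_⟩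
    · rw [← c.mapT, hK'def, ← Subgroup.map_sup]; exact ⟨a, ha, rfl⟩
    · change g * (a * n) * g⁻¹ = _
      group
  set V : Set (Subgroup G) := {C | C = K ∨ C = K'}
  have hKK' : K ≠ K' := fun e => c.ne (c.tight.unique c.hz c.hT2 c.hL c.hKL c.hJL c.swap.hL
    (e ▸ c.swap.hKL) c.swap.hJL).symm
  have hF : Fam T V := by
    refine ⟨?_, ?_, K, Or.inl rfl, K', Or.inr rfl, hKK'⟩
    · rintro C (rfl | rfl)
      exacts [mK, mK']
    · rintro C (rfl | rfl) C' (rfl | rfl) hCC' X hX h1 h2 h3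
      · exact absurd rfl hCC'
      · exact apart_of_ne c.hz c.hT2 c.tight c.hL c.hKL c.hTL c.swap.tight c.swap.hL c.swap.hKL
          c.swap.hTL c.ne hX h1 h2 h3
      · exact apart_of_ne c.hz c.hT2 c.tight c.hL c.hKL c.hTL c.swap.tight c.swap.hL c.swap.hKL
          c.swap.hTL c.ne hX h2 h1 h3
      · exact absurd rfl hCC'
  have hclosed : ∀ n ∈ Subgroup.normalizer (T : Set G), ∀ C ∈ V,
      C.map (MulAut.conj n).toMonoidHom ∈ V := by
    intro n hn C hC
    have hCc : PCtx T M C (if C = K then L else L') S g ∧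
        (∀ D, IsJComponent T D → D ≤ (if C = K then L else L') → D = C) := by
      rcases hC with rfl | rfl
      · simp only [if_true]; exact ⟨c, single⟩
      · simp only [if_neg hKK'.symm]; exact ⟨c.swap, single'⟩
    obtain ⟨cC, -⟩ := hCc
    set LC := if C = K then L else L'
    set D := C.map (MulAut.conj n).toMonoidHom
    have hnJ := Modules.normalizer_le_normalizer_thompsonSubgroupOf 2 T hn
    have hD : IsJComponent T D := isJComponent_conj_normalizer cC.hK hnJ
    have hDM : ¬ D ≤ M := by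
      intro h
      refine cC.hKM fun k hk => ?_
      have hnM := c.hNJ hnJ
      have h1 : n * k * n⁻¹ ∈ M := h ⟨k, hk, rfl⟩
      have := mul_mem (mul_mem (inv_mem hnM) h1) hnM
      simpa [mul_assoc] using this
    have hDt := tight_of_not_le c.hz c.hT c.hNJ hD hDM
    set LD := LC.map (MulAut.conj n).toMonoidHom
    have hDL : D ≤ LD := Subgroup.map_mono cC.hKL
    have hTLD : T ≤ LD := (FF.map_conj_eq hn).ge.trans (Subgroup.map_mono cC.hTL)
    have hLD := isMaximalTwoLocal_conj cC.hL n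
    by_cases h1 : LD = L
    · exact Or.inl (single D hD (h1 ▸ hDL))
    by_cases h2 : LD = L'
    · exact Or.inr (single' D hD (h2 ▸ hDL))
    exfalso
    -- a third line would be the line of a central involution of `S`
    obtain ⟨v, hv, hvD⟩ := exists_omega_not_mem c.hz hD S ((thompsonOf_le T).trans c.hTS)
    obtain ⟨-, -, -, hvz0⟩ := omega_sylow_le c.jover S c.hTS hv
    have hgv : g * v * g⁻¹ = v := by
      rw [Subgroup.mem_centralizer_iff.1 (omegaCenterOf_le _ hv).2 g c.gS, mul_inv_cancel_right]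
    obtain ⟨w, hw, hwW, hw1, -, hcases, huniq⟩ := exists_line c.hK c.hT2
    have hzw : z = w := (huniq z (zOf_mem_z0 mK) mK.z_mem).resolve_left mK.z_ne
    have hv1 : v ≠ 1 := fun e => hvD (e ▸ one_mem _)
    have hHK : ∀ x ∈ hOf T K, x = 1 ∨ x = z' := fun x hx => by
      by_cases hx1 : x = 1
      · exact Or.inl hx1
      · exact Or.inr (line_unique c.hK c.hT2 c.card_le hx hx1 hz'H mK'.z_ne)
    have hvzz : v = z' * z := by
      rcases hcases v hvz0 with h | h
      · exact absurd (c.disjoint h (hgv ▸ hOf_conj c.gJ h)) hv1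
      · rw [← hzw] at h
        rcases hHK _ h with e | e
        · exfalso
          have : v = z := by
            rw [eq_inv_of_mul_eq_one_left e, inv_eq_of_mul_eq_one_right (wOf_sq mK.z_mem)]
          rw [this, ← hzz] at hgv
          exact hne hgv
        · rw [← e, mul_assoc, wOf_sq mK.z_mem, mul_one]
    obtain ⟨wD, hwD, -, -, -, hcD, -⟩ := exists_line hD c.hT2
    have hsplitD : ∀ x ∈ hOf T D, x = 1 := by
      intro x hx
      by_contra hx1
      rcases hcases x hx.1 with h | h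
      · exact hx1 (hOf_disjoint c.hz c.hT2 c.tight c.hL c.hKL c.hJL hDt hLD hDL
          ((thompsonOf_le T).trans hTLD) (Ne.symm h1) h hx)
      · rw [← hzw] at h
        rcases hHK _ h with e | e
        · refine hx1 (hOf_disjoint c.hz c.hT2 c.swap.tight c.swap.hL c.swap.hKL c.swap.hJL hDt
            hLD hDL ((thompsonOf_le T).trans hTLD) (Ne.symm h2) ?_ hx)
          rw [eq_inv_of_mul_eq_one_left e, inv_eq_of_mul_eq_one_right (wOf_sq mK.z_mem)]
          exact hzH'
        · have : x = v := by rw [hvzz, ← e, mul_assoc, wOf_sq mK.z_mem, mul_one]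
          exact hvD (this ▸ hx.2)
    have hz0 : ∀ x ∈ z0Of T, x ≠ 1 → x = wD := fun x hx hx1 => by
      rcases hcD x hx with h | h
      · exact absurd (hsplitD x h) hx1
      · rw [eq_inv_of_mul_eq_one_left (hsplitD _ h),
          inv_eq_of_mul_eq_one_right (z0_sq hwD)]
    exact hne ((hz0 z' (zOf_mem_z0 mK') mK'.z_ne).trans (hz0 z (zOf_mem_z0 mK) mK.z_ne).symm)
  refine hF.false_of_distinct ?_ hclosed ?_
  · rintro C (rfl | rfl) C' (rfl | rfl) h
    · rfl
    · exact absurd h.symm hne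
    · exact absurd h hne
    · rfl
  · intro i hi k hk h heq
    rcases hi with rfl | rfl
    · exact meet_of_line hF hclosed (Or.inl rfl) hk (Or.inr rfl) heq hzH'
        (fix_le c.hz c.hT2 c.swap.tight c.swap.hL c.swap.hKL c.swap.hJL hzH' mK.z_ne)
        c.swap.jover.1 hdec'
    · exact meet_of_line hF hclosed (Or.inr rfl) hk (Or.inl rfl) heq hz'H
        (fix_le c.hz c.hT2 c.tight c.hL c.hKL c.hJL hz'H mK'.z_ne) c.jover.1 hdec

/-- The component has the small structure. -/
theorem small : Small T K ∧ Small T (K.map (MulAut.conj g).toMonoidHom) :=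
  small_of_common c.hz c.tight c.hL c.hKL c.hTL c.swap.tight c.swap.hL c.swap.hKL c.swap.hTL c.ne
    c.mem c.swap.mem c.card_le c.common.symm

theorem eq_sup : L = K ⊔ T := c.small.1.eq_sup c.hz c.jover c.hKL

end PCtx

/-- The context exists when `T` is not a Sylow subgroup. -/
theorem exists_pctx (hz : ZNHyp G) (hT : T ∈ maxStraddlingTwoSubgroups M)
    (hNJ : Subgroup.normalizer (thompsonSubgroupOf 2 T : Set G) ≤ M) (hK : IsJComponent T K)
    (hKM : ¬ K ≤ M) (hL : IsMaximalTwoLocal L) (hKL : K ≤ L) (hTL : T ≤ L)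
    (hTS : T ≤ (S : Subgroup G)) (hne : T ≠ (S : Subgroup G)) : ∃ g, PCtx T M K L S g := by
  obtain ⟨g, gS, gN, gT, g2⟩ := exists_normalizer_step S.isPGroup' hTS hne
  exact ⟨g, hz, hT, hNJ, hK, hKM, hL, hKL, hTL, hTS, gS, gN, gT, g2⟩

end Cfsg.Agent.LocalEven
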