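import Cfsg.Agent.LocalEven.JProperCase
import Cfsg.Agent.S2947
import Cfsg.Agent.S1225

/-!
A second maximal 2-local subgroup over a Sylow 2-subgroup of `G`.
-/

set_option autoImplicit false

open Cfsg
open scoped commutatorElement

namespace Cfsg.Agent.LocalEven

variable {G : Type*} [Group G] [Finite G] {T L K : Subgroup G} {S : Sylow 2 G}

/-- A component of the Sylow subgroup `S` with a maximal overgroup containing `S`. -/
structure SComp (S : Sylow 2 G) (K L : Subgroup G) : Prop where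
  hK : IsJComponent (S : Subgroup G) K
  hL : IsMaximalTwoLocal L
  hKL : K ≤ L
  hSL : (S : Subgroup G) ≤ L

theorem SComp.tight (h : SComp S K L) : Tight (S : Subgroup G) K := tight_of_sylow S h.hK

theorem SComp.hJL (h : SComp S K L) : thompsonSubgroupOf 2 (S : Subgroup G) ≤ L :=
  (thompsonOf_le _).trans h.hSL

theorem isSylowTwoIn_of_sylow_le {Y : Subgroup G} (hY : (S : Subgroup G) ≤ Y) :
    IsSylowTwoIn (S : Subgroup G) Y := by
  haveI : Fact (Nat.Prime 2) := ⟨Nat.prime_two⟩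
  exact ⟨hY, S.isPGroup', Nat.not_even_iff_odd.1 fun h => S.not_dvd_index
    ((even_iff_two_dvd.1 h).trans (Dvd.intro _ (Subgroup.relIndex_mul_index hY)))⟩

theorem SComp.jover (hz : ZNHyp G) (h : SComp S K L) : L ∈ jOvergroups (S : Subgroup G) :=
  ⟨isSylowTwoIn_of_sylow_le h.hSL, not_thompson_le_core h.hK.1 h.hK.2.1 h.hK.2.2.1 h.hKL,
    centralizer_pCoreOf_le_of_twoLocal hz.char2 h.hL.1⟩

theorem straddling_conj {l : G} (hl : l ∈ L) (hT : T ∈ straddlingTwoSubgroups L) :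
    T.map (MulAut.conj l).toMonoidHom ∈ straddlingTwoSubgroups L := by
  obtain ⟨h2, h1, hTL, Y, ⟨U, hU, hU1, rfl⟩, hTY, hYL⟩ := hT
  refine ⟨h2.map _, fun h => h1
    ((Subgroup.map_eq_bot_iff_of_injective T (MulAut.conj l).injective).1 h), ?_, _,
    ⟨U.map (MulAut.conj l).toMonoidHom, hU.map _, fun h => hU1
      ((Subgroup.map_eq_bot_iff_of_injective U (MulAut.conj l).injective).1 h),
      Subgroup.map_equiv_normalizer_eq U (MulAut.conj l)⟩, Subgroup.map_mono hTY, fun h => hYL ?_⟩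
  · rw [← FF.map_conj_eq (Subgroup.le_normalizer hl)]
    exact Subgroup.map_mono hTL
  · rw [← FF.map_conj_eq (Subgroup.le_normalizer hl),
      Subgroup.map_le_map_iff_of_injective (MulAut.conj l).injective] at h
    exact h

theorem lex_conj (l : G) (T : Subgroup G) :
    maxElemAbelianOrder (T.map (MulAut.conj l).toMonoidHom) = maxElemAbelianOrder T ∧
      Nat.card ↥(thompsonSubgroupOf 2 (T.map (MulAut.conj l).toMonoidHom)) =
        Nat.card ↥(thompsonSubgroupOf 2 T) ∧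
      Nat.card ↥(T.map (MulAut.conj l).toMonoidHom) = Nat.card T := by
  have hinj := (MulAut.conj l).injective
  obtain ⟨A, hA⟩ := Modules.maxElemAbIn_nonempty 2 T
  have hA' : A.map (MulAut.conj l).toMonoidHom ∈
      Modules.maxElemAbIn 2 (T.map (MulAut.conj l).toMonoidHom) := by
    rw [Modules.maxElemAbIn_map hinj]; exact ⟨A, hA, rfl⟩
  refine ⟨?_, ?_, Subgroup.card_map_of_injective hinj⟩
  · rw [maxElemAbelianOrder_eq hA', maxElemAbelianOrder_eq hA, Subgroup.card_map_of_injective hinj]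
  · rw [← Modules.conj_thompsonSubgroupOf, Subgroup.card_map_of_injective hinj]

theorem maxStraddling_conj {l : G} (hl : l ∈ L) (hT : T ∈ maxStraddlingTwoSubgroups L) :
    T.map (MulAut.conj l).toMonoidHom ∈ maxStraddlingTwoSubgroups L := by
  refine ⟨straddling_conj hl hT.1, fun R hR => ?_⟩
  obtain ⟨e1, e2, e3⟩ := lex_conj l T
  rw [e1, e2, e3]
  exact hT.2 R hR

theorem exists_maxStraddling (h : (straddlingTwoSubgroups L).Nonempty) :
    ∃ T, T ∈ maxStraddlingTwoSubgroups L := by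
  obtain ⟨T, hT, hmax⟩ := Set.exists_max_image (straddlingTwoSubgroups L)
    (fun T => toLex (maxElemAbelianOrder T,
      toLex (Nat.card ↥(thompsonSubgroupOf 2 T), Nat.card ↥T))) (Set.toFinite _) h
  refine ⟨T, hT, fun R hR => ?_⟩
  have := hmax R hR
  simp only [Prod.Lex.le_iff, ofLex_toLex] at this
  omega

/-- Involutions of `T` in the small configuration. -/
theorem PCtx.mem_q_or {M g : _} (c : PCtx T M K L S g) {t : G} (ht : t ∈ T) (ht2 : t * t = 1) :
    t ∈ qOf T K ∨ t ∈ qOf T (K.map (MulAut.conj g).toMonoidHom) := by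
  obtain ⟨s1, s2⟩ := c.small
  set K' := K.map (MulAut.conj g).toMonoidHom
  by_cases ht1 : t ∈ qOf T K
  · exact Or.inl ht1
  right
  have key : ∀ w ∈ qOf T K', w ∉ qOf T K → t * w = w * t := by
    intro w hw hw1
    have hq := c.mem.q_mul ht ht1 hw.1 hw1
    have h2 := s1.sq _ hq
    rw [eq_inv_of_mul_eq_one_left h2, mul_inv_rev, inv_eq_of_mul_eq_one_right ht2,
      inv_eq_of_mul_eq_one_right (s2.sq w hw)]
  obtain ⟨w₀, hw₀, hw₀1⟩ : ∃ w ∈ qOf T K', w ∉ qOf T K := by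
    by_contra hcon
    push Not at hcon
    have e : qOf T K' = qOf T K := by
      refine Subgroup.eq_of_le_of_card_ge hcon ?_
      have a1 := Subgroup.relIndex_mul_relIndex ⊥ (qOf T K) T bot_le inf_le_left
      have a2 := Subgroup.relIndex_mul_relIndex ⊥ (qOf T K') T bot_le inf_le_left
      rw [Subgroup.relIndex_bot_left, Subgroup.relIndex_bot_left, c.mem.relIndex_q] at a1
      rw [Subgroup.relIndex_bot_left, Subgroup.relIndex_bot_left, c.swap.mem.relIndex_q] at a2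
      omega
    have h1 : K ≤ Subgroup.normalizer (qOf T K : Set G) := le_sup_left.trans c.mem.normalizes_q
    have h2 : K' ≤ Subgroup.normalizer (qOf T K : Set G) :=
      e ▸ le_sup_left.trans c.swap.mem.normalizes_q
    have hb := apart_of_ne c.hz c.hT2 c.tight c.hL c.hKL c.hTL c.swap.tight c.swap.hL c.swap.hKL
      c.swap.hTL c.ne (c.hT2.to_le inf_le_left) h1 h2 (le_sup_right.trans c.mem.normalizes_q)
    exact c.mem.z_ne (Subgroup.mem_bot.1 (hb ▸ c.mem.wOf_le_q c.mem.z_mem))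
  refine ⟨ht, Subgroup.mem_centralizer_iff.2 fun v hv => ?_⟩
  have hvq : v ∈ qOf T K' := c.swap.mem.wOf_le_q hv
  by_cases hv1 : v ∈ qOf T K
  · have h1 : w₀ * v ∉ qOf T K := fun h => hw₀1 (by simpa using mul_mem h (inv_mem hv1))
    have e1 := key _ (mul_mem hw₀ hvq) h1
    have e2 := key w₀ hw₀ hw₀1
    rw [← mul_assoc, e2, mul_assoc, mul_assoc] at e1
    exact (mul_left_cancel e1).symm
  · exact (key v hvq hv1).symm

/-- Elementary abelian subgroups of `T` in the small configuration. -/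
theorem PCtx.le_q_or {M g : _} (c : PCtx T M K L S g) {E : Subgroup G} (hE : E ≤ T)
    (hE2 : ∀ x ∈ E, x * x = 1) :
    E ≤ qOf T K ∨ E ≤ qOf T (K.map (MulAut.conj g).toMonoidHom) := by
  by_contra hcon
  push Not at hcon
  obtain ⟨h1, h2⟩ := hcon
  obtain ⟨a, ha, ha1⟩ := SetLike.not_le_iff_exists.1 h1
  obtain ⟨b, hb, hb1⟩ := SetLike.not_le_iff_exists.1 h2
  have ha2 := (c.mem_q_or (hE ha) (hE2 a ha)).resolve_left ha1
  have hb2 := (c.mem_q_or (hE hb) (hE2 b hb)).resolve_right hb1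
  rcases c.mem_q_or (hE (mul_mem ha hb)) (hE2 _ (mul_mem ha hb)) with h | h
  · exact ha1 (by simpa using mul_mem h (inv_mem hb2))
  · exact hb1 (by simpa using mul_mem (inv_mem ha2) h)

/-- A maximal straddling subgroup of an overgroup of a Sylow subgroup is that Sylow subgroup. -/
theorem eq_sylow_of_maxStraddling (hz : ZNHyp G) (h : SComp S K L)
    (hNJ : Subgroup.normalizer (thompsonSubgroupOf 2 (S : Subgroup G) : Set G) ≤ L)
    {T₁ : Subgroup G} (hT₁ : T₁ ∈ maxStraddlingTwoSubgroups L) (hT₁S : T₁ ≤ (S : Subgroup G)) :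
    T₁ = (S : Subgroup G) := by
  haveI : Fact (Nat.Prime 2) := ⟨Nat.prime_two⟩
  by_contra hne
  have hNJ₁ := normalizer_thompson_le S hNJ hT₁
  obtain ⟨C, hC⟩ := jComponentsOutside_nonempty hz S hNJ hT₁
  obtain ⟨L₁, hle, hL₁⟩ := exists_maximal_twoLocal
    (⟨_, LocalP.pCoreOf_isPGroup (C ⊔ T₁), hC.2.2, rfl⟩ :
      IsTwoLocal (Subgroup.normalizer (pCoreOf 2 (C ⊔ T₁) : Set G)))
  have hle' : C ⊔ T₁ ≤ L₁ := (le_normalizer_pCoreOf _ 2).trans hle
  obtain ⟨g, c⟩ := exists_pctx hz hT₁ hNJ₁ hC.1.1 hC.2.1 hL₁ (le_sup_left.trans hle')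
    (le_sup_right.trans hle') hT₁S hne
  set C' := C.map (MulAut.conj g).toMonoidHom
  set V := vOf L
  have hover := h.jover hz
  have hVS : V ≤ (S : Subgroup G) := (vOf_le_pCoreOf L).trans (pCoreOf_le_sylow hover.1)
  have hV2 : ∀ x ∈ V, x * x = 1 := fun x hx => by
    simpa [pow_two] using (omegaCenterOf_elemAb _).2 x hx
  have hVn : L ≤ Subgroup.normalizer (V : Set G) := le_normalizer_vOf L
  -- `V ≤ T₁`
  have hVT : V ≤ T₁ := by
    intro v hv
    by_contra hvT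
    have hlt : T₁ < T₁ ⊔ V := lt_of_le_of_ne le_sup_left fun e =>
      hvT (e.ge (Subgroup.mem_sup_right hv))
    obtain ⟨x, ⟨hx, hxN⟩, hxT⟩ := SetLike.exists_of_lt
      (Fusion.lt_normalizer_inf (S.isPGroup'.to_le (sup_le hT₁S hVS)) hlt)
    have hx' : x ∈ (↑(T₁ ⊔ V) : Set G) := hx
    rw [Subgroup.coe_mul_of_left_le_normalizer_right T₁ V (hT₁.1.2.2.1.trans hVn)] at hx'
    obtain ⟨t, ht, s, hs, rfl⟩ := Set.mem_mul.1 hx'
    have hsN : s ∈ Subgroup.normalizer (T₁ : Set G) := by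
      simpa using mul_mem (inv_mem (Subgroup.le_normalizer ht)) hxN
    have hsT : s ∉ T₁ := fun hsT => hxT (mul_mem ht hsT)
    have key : ∀ D : Subgroup G, V ⊓ T₁ ≤ qOf T₁ D → ∀ q ∈ qOf T₁ D, s * q * s⁻¹ ∈ qOf T₁ D := by
      intro D hD q hq
      have hqT : q ∈ T₁ := hq.1
      have h1 : q⁻¹ * (s * q * s⁻¹) ∈ V ⊓ T₁ := by
        refine Subgroup.mem_inf.2 ⟨?_, mul_mem (inv_mem hqT) ((Subgroup.mem_normalizer_iff.1 hsN q).1 hqT)⟩
        have h2 := (Subgroup.mem_normalizer_iff.1 (hVn (hT₁.1.2.2.1 (inv_mem hqT))) s).1 hs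
        rw [inv_inv] at h2
        rw [show q⁻¹ * (s * q * s⁻¹) = q⁻¹ * s * q * s⁻¹ by group]
        exact mul_mem h2 (inv_mem hs)
      simpa using mul_mem hq (hD h1)
    have fin : ∀ D LD : Subgroup G, PCtx T₁ L D LD S g → V ⊓ T₁ ≤ qOf T₁ D → False := by
      intro D LD cD hD
      have hsQ : s ∈ Subgroup.normalizer (qOf T₁ D : Set G) := by
        rw [Subgroup.mem_normalizer_iff_map_conj_eq]
        refine Subgroup.eq_of_le_of_card_ge ?_
          (Subgroup.card_map_of_injective (f := (MulAut.conj s).toMonoidHom)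
            (MulAut.conj s).injective).ge
        rintro _ ⟨q, hq, rfl⟩
        exact key D hD q hq
      have hQ1 : qOf T₁ D ≠ ⊥ := fun e =>
        cD.mem.z_ne (Subgroup.mem_bot.1 (e ▸ cD.mem.wOf_le_q cD.mem.z_mem))
      have hsL := cD.tight.le_max hz cD.hT2 cD.hL cD.hKL cD.hJL
        (⟨qOf T₁ D, cD.hT2.to_le inf_le_left, hQ1, rfl⟩ :
          IsTwoLocal (Subgroup.normalizer (qOf T₁ D : Set G)))
        (le_sup_left.trans cD.mem.normalizes_q)
        ((thompsonOf_le T₁).trans (le_sup_right.trans cD.mem.normalizes_q)) hsQ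
      refine hsT ?_
      rw [← eq_of_sylowTwoIn cD.jover.1 (S.isPGroup'.to_le (sup_le hT₁S
        (Subgroup.zpowers_le.2 (hVS hs)))) le_sup_left (sup_le cD.hTL (Subgroup.zpowers_le.2 hsL))]
      exact Subgroup.mem_sup_right (Subgroup.mem_zpowers s)
    rcases c.le_q_or (E := V ⊓ T₁) inf_le_right (fun x hx => hV2 x hx.1) with hD | hD
    · exact fin C L₁ c hD
    · exact fin C' _ c.swap hD
  -- `V` lies in both
  have hgV : ∀ x ∈ V, g * x * g⁻¹ ∈ V ∧ g⁻¹ * x * g ∈ V := fun x hx => by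
    have hgN := hVn (h.hSL c.gS)
    have h2 := (Subgroup.mem_normalizer_iff.1 (inv_mem hgN) x).1 hx
    rw [inv_inv] at h2
    exact ⟨(Subgroup.mem_normalizer_iff.1 hgN x).1 hx, h2⟩
  have hQg : ∀ x, x ∈ qOf T₁ C → g * x * g⁻¹ ∈ qOf T₁ C' := by
    intro x hx
    have := Subgroup.mem_map_of_mem (MulAut.conj g).toMonoidHom hx
    rw [qOf_conj, c.mapT] at this
    exact this
  have hQg' : ∀ x, g * x * g⁻¹ ∈ qOf T₁ C' → x ∈ qOf T₁ C := by
    intro x hx
    rw [← c.mapT, ← qOf_conj] at hx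
    obtain ⟨y, hy, hxy⟩ := hx
    exact (mul_left_cancel (mul_right_cancel (show g * y * g⁻¹ = g * x * g⁻¹ from hxy))) ▸ hy
  have hboth : V ≤ qOf T₁ C ⊓ qOf T₁ C' := by
    rcases c.le_q_or hVT hV2 with hD | hD
    · refine fun x hx => ⟨hD hx, ?_⟩
      have := hQg _ (hD (hgV x hx).2)
      simpa [mul_assoc] using this
    · exact fun x hx => ⟨hQg' x (hD (hgV x hx).1), hD hx⟩
  -- the size
  have hKd : CompData (S : Subgroup G) L K := CompData.of_isJComponent h.hK h.hKL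
  have hWV : wOf K ≤ V := hKd.wOf_le_vOf hz hover
  set D := qOf T₁ C ⊓ qOf T₁ C'
  obtain ⟨s1, s2⟩ := c.small
  have hD4 : Nat.card D ≤ 4 := by
    have hne' : D ≠ qOf T₁ C := by
      intro e
      have hle1 : qOf T₁ C ≤ qOf T₁ C' := e ▸ inf_le_right
      obtain ⟨a, ha, haQ, ha2⟩ := c.swap.mem.exists_mover
      rcases c.mem_q_or ha ha2 with h1 | h1
      · exact haQ (hle1 h1)
      · exact haQ h1
    have h1 := Subgroup.relIndex_mul_relIndex ⊥ D (qOf T₁ C) bot_le inf_le_left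
    rw [Subgroup.relIndex_bot_left, Subgroup.relIndex_bot_left] at h1
    have h2 : D.relIndex (qOf T₁ C) ≠ 1 := fun e =>
      hne' (le_antisymm inf_le_left (Subgroup.relIndex_eq_one.1 e))
    have h3 : D.relIndex (qOf T₁ C) ≠ 0 := fun e => by
      rw [e, mul_zero] at h1
      exact (Nat.card_pos : 0 < Nat.card ↥(qOf T₁ C)).ne h1
    have h4 : Nat.card D * 2 ≤ Nat.card ↥(qOf T₁ C) :=
      h1 ▸ Nat.mul_le_mul_left _ (by omega)
    have := s1.card_q_le
    omega
  have hVW : wOf K = D := Subgroup.eq_of_le_of_card_ge (hWV.trans hboth)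
    (h.hK.2.2.2.2.1 ▸ hD4)
  have hVW' : V = wOf K := le_antisymm (hboth.trans hVW.ge) hWV
  -- an element of `U` in `V`
  obtain ⟨r, hr, hr1⟩ : ∃ r ∈ uOf T₁ C, r ≠ 1 := by
    by_contra hcon
    push Not at hcon
    have h1 := s1.card_q
    rw [(Subgroup.eq_bot_iff_forall _).2 hcon, Subgroup.card_bot, mul_one] at h1
    have h2 : D = qOf T₁ C := Subgroup.eq_of_le_of_card_ge inf_le_left (by
      rw [h1, ← hVW, h.hK.2.2.2.2.1])
    obtain ⟨a, ha, haQ, ha2⟩ := c.swap.mem.exists_mover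
    rcases c.mem_q_or ha ha2 with h3 | h3
    · exact haQ ((h2.ge.trans inf_le_right) h3)
    · exact haQ h3
  have hrC : C ⊔ T₁ ≤ Subgroup.centralizer ({r} : Set G) := fun x hx =>
    Subgroup.mem_centralizer_singleton_iff.2 (Subgroup.mem_centralizer_iff.1 hr.2 x hx)
  have hrD : r ∈ wOf K := by
    rw [hVW]
    refine ⟨hr.1, hr.1.1, Subgroup.mem_centralizer_iff.2 fun v hv => ?_⟩
    exact Subgroup.mem_centralizer_iff.1 hr.2 v
      (Subgroup.mem_sup_right (c.swap.mem.wOf_le_q hv).1)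
  -- a central involution in `V`
  obtain ⟨v, hv, hvK⟩ := exists_omega_not_mem hz h.hK S (thompsonOf_le _)
  have hvV : v ∈ V := by
    have hxc := omegaCenterOf_le _ hv
    have h1 : v ∈ Subgroup.centralizer (pCoreOf 2 L : Set G) := Subgroup.mem_centralizer_iff.2
      fun q hq => Subgroup.mem_centralizer_iff.1 hxc.2 q (pCoreOf_le_sylow hover.1 hq)
    exact Modules.mem_omegaOne_of_pow ⟨hover.2.2 h1, h1⟩ ((omegaCenterOf_elemAb _).2 v hv)
  have hv1 : v ≠ 1 := fun e => hvK (e ▸ one_mem _)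
  obtain ⟨e, he, -, heQ⟩ := exists_order_three h.hK.2.2.1
  obtain ⟨k, hkK, hk⟩ : ∃ k ∈ K, k * r * k⁻¹ = v := by
    rcases wOf_cases h.hK.2.2.1 h.hK.2.2.2.2.1 he heQ hrD hr1 (hVW' ▸ hvV) with e1 | e1 | e1 | e1
    · exact absurd e1 hv1
    · exact ⟨1, one_mem _, by rw [e1]; group⟩
    · exact ⟨e, he, e1.symm⟩
    · exact ⟨e * e, mul_mem he he, by rw [e1]; group⟩
  -- the centralizer of `r` is too small
  have hr2 : r * r = 1 := s1.sq r hr.1
  have hCr : Subgroup.centralizer ({r} : Set G) ≤ L₁ :=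
    c.tight.le_max hz c.hT2 c.hL c.hKL c.hJL (isTwoLocal_centralizer_of_sq hr2 hr1)
      (le_sup_left.trans hrC) ((thompsonOf_le T₁).trans (le_sup_right.trans hrC))
  have hSk : (S : Subgroup G).map (MulAut.conj k⁻¹).toMonoidHom ≤ L₁ := by
    refine le_trans ?_ hCr
    rintro _ ⟨x, hx, rfl⟩
    refine Subgroup.mem_centralizer_singleton_iff.2 (mul_inv_eq_iff_eq_mul.1 ?_)
    change k⁻¹ * x * k⁻¹⁻¹ * r * (k⁻¹ * x * k⁻¹⁻¹)⁻¹ = r
    have hxv : x * v * x⁻¹ = v := by
      rw [Subgroup.mem_centralizer_iff.1 (omegaCenterOf_le _ hv).2 x hx, mul_inv_cancel_right]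
    calc k⁻¹ * x * k⁻¹⁻¹ * r * (k⁻¹ * x * k⁻¹⁻¹)⁻¹ = k⁻¹ * (x * (k * r * k⁻¹) * x⁻¹) * k := by
          group
      _ = r := by rw [hk, hxv, ← hk]; group
  obtain ⟨P, hP, hSP⟩ := exists_isSylowTwoIn (S.isPGroup'.map _) hSk
  obtain ⟨x, -, hxP⟩ := exists_conj_of_isSylowTwoIn c.jover.1 hP
  have hcard := Subgroup.card_le_of_le hSP
  rw [← hxP, Subgroup.card_map_of_injective (f := (MulAut.conj k⁻¹).toMonoidHom)
      (MulAut.conj k⁻¹).injective,
    Subgroup.card_map_of_injective (f := (MulAut.conj x).toMonoidHom)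
      (MulAut.conj x).injective] at hcard
  exact hne (Subgroup.eq_of_le_of_card_ge hT₁S hcard)

/-- A component outside `L` with overgroup containing `S`, when `N(J(S)) ≤ L`. -/
theorem exists_second_of_le (hz : ZNHyp G) (hO : pCore 2 G = ⊥) (h : SComp S K L)
    (hNJ : Subgroup.normalizer (thompsonSubgroupOf 2 (S : Subgroup G) : Set G) ≤ L) :
    ∃ K' L', SComp S K' L' ∧ L' ≠ L := by
  have hover := h.jover hz
  obtain ⟨T', hT'⟩ : ∃ T', T' ∈ maxStraddlingTwoSubgroups L := by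
    refine exists_maxStraddling (Set.nonempty_iff_ne_empty.2 fun hemp => hover.2.1 ?_)
    have hSE := (S2947.result hz.char2 hz.solv hz.cent hO S L h.hL.1 hNJ).2 hemp
    obtain ⟨v, hv, hvK⟩ := exists_omega_not_mem hz h.hK S (thompsonOf_le _)
    have hv1 : v ≠ 1 := fun e => hvK (e ▸ one_mem _)
    have hxc := omegaCenterOf_le _ hv
    have hvV : v ∈ vOf L := by
      have h1 : v ∈ Subgroup.centralizer (pCoreOf 2 L : Set G) := Subgroup.mem_centralizer_iff.2
        fun q hq => Subgroup.mem_centralizer_iff.1 hxc.2 q (pCoreOf_le_sylow hover.1 hq)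
      exact Modules.mem_omegaOne_of_pow ⟨hover.2.2 h1, h1⟩ ((omegaCenterOf_elemAb _).2 v hv)
    have hvo : orderOf v = 2 :=
      orderOf_eq_prime (hp := ⟨Nat.prime_two⟩) ((omegaCenterOf_elemAb _).2 v hv) hv1
    obtain ⟨g₀, -, hg₀⟩ := SetLike.exists_of_lt (lt_top_iff_ne_top.2 hSE.1)
    have hu : g₀ * v * g₀⁻¹ ∉ L := fun e =>
      hg₀ (TwoFusion.se_mem_of_conj_mem hSE hvo (h.hSL hxc.1) e)
    rw [Modules.thompsonSubgroupOf_eq_sSup]
    refine sSup_le fun A hA x hx => ?_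
    by_cases hx1 : x = 1
    · rw [hx1]; exact one_mem _
    have hxo : orderOf x = 2 := orderOf_eq_prime (hp := ⟨Nat.prime_two⟩) (hA.2.1.2 x hx) hx1
    obtain ⟨d, hd, hdx⟩ := (S1225.result L hSE _ ((TwoFusion.orderOf_conj' _ _).trans hvo) hu v x
      hvo (h.hSL hxc.1) hxo (h.hSL (hA.1 hx))).1
    rw [← hdx]
    exact vOf_le_pCoreOf L ((Subgroup.mem_normalizer_iff.1 (le_normalizer_vOf L hd.1) v).1 hvV)
  obtain ⟨P, hP, hTP⟩ := exists_isSylowTwoIn hT'.1.1 hT'.1.2.2.1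
  obtain ⟨l, hl, hlS⟩ := exists_conj_of_isSylowTwoIn hP hover.1
  have hT₁ := maxStraddling_conj hl hT'
  have heq := eq_sylow_of_maxStraddling hz h hNJ hT₁ (hlS ▸ Subgroup.map_mono hTP)
  rw [heq] at hT₁
  obtain ⟨-, -, -, Y, hY, hSY, hYL⟩ := hT₁.1
  have hYover := straddle_sylow hz hT₁ hNJ hY hYL hSY
  obtain ⟨C, hC, hCY, hCL⟩ :=
    exists_component_not_le hz hYover S.isPGroup' hYL (inf_le_right.trans hNJ)
  obtain ⟨L', hle, hL'⟩ := exists_maximal_twoLocal hY
  exact ⟨C, L', ⟨hC, hL', hCY.trans hle, hSY.trans hle⟩, fun e => hCL (e ▸ hCY.trans hle)⟩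

end Cfsg.Agent.LocalEven
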