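import Cfsg.Agent.LocalEven.JLines

/-!
Two members with non-commuting planes: `T` is small, and `KT ≅ S₄` or `S₄ × 2`.
-/

set_option autoImplicit false

open Cfsg
open scoped commutatorElement

namespace Cfsg.Agent.LocalEven

variable {G : Type*} [Group G] [Finite G] {T i j K L : Subgroup G}

/-- The elements of `C_T(W)` centralized by `KT`. -/
abbrev uOf (T K : Subgroup G) : Subgroup G :=
  qOf T K ⊓ Subgroup.centralizer ((K ⊔ T : Subgroup G) : Set G)

/-- The structure of a member in a small configuration. -/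
structure Small (T K : Subgroup G) : Prop where
  mem : Member T K
  sq : ∀ q ∈ qOf T K, q * q = 1
  dec : ∀ q ∈ qOf T K, ∃ u ∈ wOf K, ∃ r ∈ uOf T K, q = u * r
  uu : ∀ r ∈ uOf T K, r ≠ 1 → ∀ r' ∈ uOf T K, r' ≠ 1 → r = r'

theorem Small.comm (h : Small T K) {p q : G} (hp : p ∈ qOf T K) (hq : q ∈ qOf T K) :
    p * q = q * p := by
  have := h.sq _ (mul_mem hp hq)
  rw [eq_inv_of_mul_eq_one_left this, mul_inv_rev, inv_eq_of_mul_eq_one_right (h.sq _ hp),
    inv_eq_of_mul_eq_one_right (h.sq _ hq)]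

theorem clash_basic (mi : Member T i) (mj : Member T j) {u w : G} (hu : u ∈ wOf i)
    (hw : w ∈ wOf j) (hne : u * w ≠ w * u) :
    zOf T i = zOf T j ∧ w ∈ T ∧ w ∉ qOf T i :=
  ⟨clash_z_eq mi mj (mi.wOf_le_q.trans inf_le_left) (mj.wOf_le_q.trans inf_le_left)
      fun h => hne (h u hu w hw),
    (mj.wOf_le_q hw).1, fun hq => hne (Subgroup.mem_centralizer_iff.1 hq.2 u hu)⟩

theorem clash_act (mj : Member T j) {w q : G} (hw : w ∈ wOf j) (hq : q ∈ T) :
    w * q * w⁻¹ = q ∨ w * q * w⁻¹ = q * zOf T j := by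
  have hwi : w⁻¹ = w := inv_eq_of_mul_eq_one_right (wOf_sq hw)
  rcases mj.conj_T hq hw with e | e
  · left; exact mul_inv_eq_iff_eq_mul.2 (mul_inv_eq_iff_eq_mul.1 e).symm
  · right
    have h1 := mul_inv_eq_iff_eq_mul.1 e
    calc w * q * w⁻¹ = w * (q * w) := by rw [hwi, mul_assoc]
      _ = (w * w) * (zOf T j * q) := by rw [h1]; group
      _ = q * zOf T j := by
          rw [wOf_sq hw, one_mul, ← mul_inv_eq_iff_eq_mul.1 (mj.z_fix hq)]

/-- Splitting `C_T(W)` when the planes clash. -/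
theorem clash_split (mi : Member T i) (mj : Member T j) {u w : G} (hu : u ∈ wOf i)
    (hw : w ∈ wOf j) (hne : u * w ≠ w * u) :
    ∃ σ ∈ i, σ ∉ pCoreOf 2 i ∧ ∀ q ∈ qOf T i,
      ∃ v ∈ wOf i, ∃ r ∈ qOf T i, q = v * r ∧ Commute w r ∧ Commute σ r := by
  obtain ⟨hz, hwT, hwQ⟩ := clash_basic mi mj hu hw hne
  obtain ⟨e, he, -, heQ⟩ := exists_order_three mi.idx
  obtain ⟨σ, hσ, hσQ, -, hσc⟩ := mi.exists_sigma hwT hwQ he heQ
  refine ⟨σ, hσ, hσQ, fun q hq => ?_⟩
  have hq' : e⁻¹ * q * e ∈ qOf T i := by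
    have := (Subgroup.mem_normalizer_iff.1
      (mi.normalizes_q (Subgroup.mem_sup_left (inv_mem he))) q).1 hq
    rwa [inv_inv] at this
  have h2 : e * w * e⁻¹ * q * (e * w * e⁻¹)⁻¹ = q ∨
      e * w * e⁻¹ * q * (e * w * e⁻¹)⁻¹ = q * (e * zOf T i * e⁻¹) := by
    rcases clash_act mj hw hq'.1 with e' | e'
    · left
      calc e * w * e⁻¹ * q * (e * w * e⁻¹)⁻¹ = e * (w * (e⁻¹ * q * e) * w⁻¹) * e⁻¹ := by group
        _ = q := by rw [e']; group
    · right
      calc e * w * e⁻¹ * q * (e * w * e⁻¹)⁻¹ = e * (w * (e⁻¹ * q * e) * w⁻¹) * e⁻¹ := by group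
        _ = _ := by rw [e', hz]; group
  obtain ⟨v, hv, r, hr, hqe, h1, h3⟩ :=
    mi.split hwT hwQ he heQ hq (hz ▸ clash_act mj hw hq.1) h2
  exact ⟨v, hv, r, hr, hqe, h1, hσc r h1 h3⟩

theorem sq_of_split {v r : G} (hv : v ∈ wOf K) (hr : r ∈ qOf T K) :
    (v * r) * (v * r) = r * r := by
  have h : v * r = r * v := Subgroup.mem_centralizer_iff.1 hr.2 v hv
  calc (v * r) * (v * r) = v * (r * v) * r := by group
    _ = v * (v * r) * r := by rw [← h]
    _ = (v * v) * (r * r) := by group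
    _ = r * r := by rw [wOf_sq hv, one_mul]

/-- Squares of `C_T(W_j)` are squares of `C_T(W_i)`. -/
theorem clash_squares (mi : Member T i) (mj : Member T j) {u w : G} (hu : u ∈ wOf i)
    (hw : w ∈ wOf j) (hne : u * w ≠ w * u) {x : G} (hx : x ∈ qOf T j) :
    ∃ q ∈ qOf T i, x * x = q * q := by
  by_cases hxi : x ∈ qOf T i
  · exact ⟨x, hxi, rfl⟩
  obtain ⟨-, hwT, hwQ⟩ := clash_basic mi mj hu hw hne
  have hq : x * w ∈ qOf T i := mi.q_mul hx.1 hxi hwT hwQ
  have hxw : w * x = x * w := Subgroup.mem_centralizer_iff.1 hx.2 w hw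
  refine ⟨x * w, hq, ?_⟩
  calc x * x = x * x * (w * w) := by rw [wOf_sq hw, mul_one]
    _ = x * (x * w) * w := by group
    _ = x * (w * x) * w := by rw [hxw]
    _ = (x * w) * (x * w) := by group

theorem clash_elementary (mi : Member T i) (mj : Member T j)
    (hap : ∀ X : Subgroup G, IsPGroup 2 X → i ≤ Subgroup.normalizer (X : Set G) →
      j ≤ Subgroup.normalizer (X : Set G) → T ≤ Subgroup.normalizer (X : Set G) → X = ⊥)
    {u w : G} (hu : u ∈ wOf i) (hw : w ∈ wOf j) (hne : u * w ≠ w * u) :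
    ∀ q ∈ qOf T i, q * q = 1 := by
  intro q hq
  set S : ∀ K : Subgroup G, Subgroup G := fun K =>
    Subgroup.closure {g : G | ∃ q ∈ qOf T K, g = q * q} with hS
  have heq : S j = S i := by
    refine le_antisymm ((Subgroup.closure_le _).2 ?_) ((Subgroup.closure_le _).2 ?_)
    · rintro g ⟨x, hx, rfl⟩
      obtain ⟨q, hq, e⟩ := clash_squares mi mj hu hw hne hx
      exact Subgroup.subset_closure ⟨q, hq, e⟩
    · rintro g ⟨x, hx, rfl⟩
      obtain ⟨q, hq, e⟩ := clash_squares mj mi hw hu hne.symm hx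
      exact Subgroup.subset_closure ⟨q, hq, e⟩
  have hnorm : ∀ K : Subgroup G, Member T K → K ⊔ T ≤ Subgroup.normalizer (S K : Set G) := by
    intro K mK g hg
    rw [Subgroup.mem_normalizer_iff_map_conj_eq]
    refine Subgroup.eq_of_le_of_card_ge ?_
      (Subgroup.card_map_of_injective (f := (MulAut.conj g).toMonoidHom)
        (MulAut.conj g).injective).ge
    rw [Subgroup.map_le_iff_le_comap, Subgroup.closure_le]
    rintro _ ⟨x, hx, rfl⟩
    exact Subgroup.subset_closure ⟨g * x * g⁻¹,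
      (Subgroup.mem_normalizer_iff.1 (mK.normalizes_q hg) x).1 hx, by
        change g * (x * x) * g⁻¹ = _
        rw [conj_mul_conj]⟩
  have hST : S i ≤ T := (Subgroup.closure_le _).2 (by
    rintro g ⟨x, hx, rfl⟩; exact mul_mem hx.1 hx.1)
  have hb := hap (S i) (mi.hT.to_le hST) (le_sup_left.trans (hnorm i mi))
    (heq ▸ le_sup_left.trans (hnorm j mj)) (le_sup_right.trans (hnorm i mi))
  exact Subgroup.mem_bot.1 (hb ▸ Subgroup.subset_closure ⟨q, hq, rfl⟩)

theorem small_of_clash (mi : Member T i) (mj : Member T j)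
    (hap : ∀ X : Subgroup G, IsPGroup 2 X → i ≤ Subgroup.normalizer (X : Set G) →
      j ≤ Subgroup.normalizer (X : Set G) → T ≤ Subgroup.normalizer (X : Set G) → X = ⊥)
    {u w : G} (hu : u ∈ wOf i) (hw : w ∈ wOf j) (hne : u * w ≠ w * u)
    (hR : ∀ r ∈ T, r * r = 1 → (∀ t ∈ T, t * r = r * t) → r ∈ Subgroup.centralizer (i : Set G) →
      r ≠ 1 → ∀ r' ∈ T, r' * r' = 1 → (∀ t ∈ T, t * r' = r' * t) →
      r' ∈ Subgroup.centralizer (i : Set G) → r' ≠ 1 → r = r') :
    Small T i := by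
  obtain ⟨-, hwT, hwQ⟩ := clash_basic mi mj hu hw hne
  obtain ⟨σ, hσ, hσQ, hsplit⟩ := clash_split mi mj hu hw hne
  have hel := clash_elementary mi mj hap hu hw hne
  have hcomm : ∀ p ∈ qOf T i, ∀ q ∈ qOf T i, p * q = q * p := by
    intro p hp q hq
    rw [eq_inv_of_mul_eq_one_left (hel _ (mul_mem hp hq)), mul_inv_rev,
      inv_eq_of_mul_eq_one_right (hel _ hp), inv_eq_of_mul_eq_one_right (hel _ hq)]
  have hdec : ∀ q ∈ qOf T i, ∃ v ∈ wOf i, ∃ r ∈ uOf T i, q = v * r := by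
    intro q hq
    obtain ⟨v, hv, r, hr, hqe, hwr, hσr⟩ := hsplit q hq
    refine ⟨v, hv, r, ⟨hr, ?_⟩, hqe⟩
    have hT' : T ≤ Subgroup.centralizer ({r} : Set G) := by
      intro t ht
      rw [Subgroup.mem_centralizer_singleton_iff]
      by_cases htQ : t ∈ qOf T i
      · exact hcomm t htQ r hr
      · have h1 := hcomm _ (mi.q_mul ht htQ hwT hwQ) r hr
        have h2 : (t * r) * w = (r * t) * w := by
          calc (t * r) * w = t * (r * w) := by group
            _ = t * w * r := by rw [← hwr.eq]; group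
            _ = r * t * w := by rw [h1]; group
        exact mul_right_cancel h2
    have hiC : i ≤ Subgroup.centralizer ({r} : Set G) := by
      rw [← sup_zpowers_eq mi.idx hσ hσQ]
      refine sup_le (fun c hc => Subgroup.mem_centralizer_singleton_iff.2
        (hcomm c (mi.core_le_q hc) r hr)) (Subgroup.zpowers_le.2 ?_)
      exact Subgroup.mem_centralizer_singleton_iff.2 hσr.eq
    exact Subgroup.mem_centralizer_iff.2 fun g hg =>
      Subgroup.mem_centralizer_singleton_iff.1 (sup_le hiC hT' hg)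
  have hprop : ∀ r ∈ uOf T i, r ∈ T ∧ r * r = 1 ∧ (∀ t ∈ T, t * r = r * t) ∧
      r ∈ Subgroup.centralizer (i : Set G) := fun r hr =>
    ⟨hr.1.1, hel r hr.1, fun t ht => Subgroup.mem_centralizer_iff.1 hr.2 t
      (Subgroup.mem_sup_right ht),
      Subgroup.centralizer_le (SetLike.coe_subset_coe.2 le_sup_left) hr.2⟩
  refine ⟨mi, hel, hdec, fun r hr hr1 r' hr' hr1' => ?_⟩
  obtain ⟨a1, a2, a3, a4⟩ := hprop r hr
  obtain ⟨b1, b2, b3, b4⟩ := hprop r' hr'
  exact hR r a1 a2 a3 a4 hr1 r' b1 b2 b3 b4 hr1'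

theorem Small.card_q_le (h : Small T K) : Nat.card ↥(qOf T K) ≤ 8 := by
  have hsub : (qOf T K : Set G) ⊆
      (fun p : G × G => p.1 * p.2) '' ((wOf K : Set G) ×ˢ (uOf T K : Set G)) := by
    intro q hq
    obtain ⟨v, hv, r, hr, rfl⟩ := h.dec q hq
    exact ⟨(v, r), ⟨hv, hr⟩, rfl⟩
  have hU : (uOf T K : Set G).ncard ≤ 2 := by
    by_contra hcon
    obtain ⟨a, b, c, ha, hb, hc, hab, hac, hbc⟩ := (Set.two_lt_ncard_iff).1 (not_le.1 hcon)
    by_cases ha1 : a = 1
    · exact hbc (h.uu b hb (fun e => hab (ha1.trans e.symm)) c hc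
        (fun e => hac (ha1.trans e.symm)))
    by_cases hb1 : b = 1
    · exact hac (h.uu a ha ha1 c hc (fun e => hbc (hb1.trans e.symm)))
    exact hab (h.uu a ha ha1 b hb hb1)
  calc Nat.card ↥(qOf T K) = (qOf T K : Set G).ncard := (Nat.card_coe_set_eq _)
    _ ≤ _ := Set.ncard_le_ncard hsub
    _ ≤ _ := Set.ncard_image_le
    _ = (wOf K : Set G).ncard * (uOf T K : Set G).ncard := Set.ncard_prod
    _ ≤ 4 * 2 := Nat.mul_le_mul ((Nat.card_coe_set_eq _).symm.trans h.mem.card).le hU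
    _ = 8 := rfl

theorem Small.u_inf_w (h : Small T K) {r : G} (hr : r ∈ uOf T K) (hrW : r ∈ wOf K) : r = 1 := by
  obtain ⟨x, hx, hxQ⟩ := exists_not_mem_pCoreOf h.mem.idx
  refine wOf_fixed_eq_one h.mem.idx hx hxQ hrW ?_
  rw [Subgroup.mem_centralizer_iff.1 hr.2 x (Subgroup.mem_sup_left hx), mul_inv_cancel_right]

/-- In a small configuration the overgroup is `KT`. -/
theorem Small.eq_sup (h : Small T K) (hz : ZNHyp G) (hL : L ∈ jOvergroups T) (hKL : K ≤ L) :
    L = K ⊔ T := by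
  refine le_antisymm ?_ (sup_le hKL hL.1.1)
  have m := h.mem
  have hd : CompData T L K := ⟨hKL, m.gen, m.comm, m.idx, m.card⟩
  have hOT : pCoreOf 2 L ≤ T := pCoreOf_le_sylow hL.1
  have hOQ : pCoreOf 2 L = qOf T K := by
    refine le_antisymm (le_inf hOT (hd.core_centralizes hL)) fun q hq => hL.2.2 ?_
    rw [Subgroup.mem_centralizer_iff]
    intro o ho
    exact h.comm ⟨hOT ho, hd.core_centralizes hL ho⟩ hq
  have hLQ : L ≤ Subgroup.normalizer (qOf T K : Set G) := hOQ ▸ le_normalizer_pCoreOf L 2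
  intro l hl
  have hlQ : ∀ q ∈ qOf T K, l * q * l⁻¹ ∈ qOf T K := fun q hq =>
    (Subgroup.mem_normalizer_iff.1 (hLQ hl) q).1 hq
  set cn := (MulAut.conj l).toMonoidHom
  have hLl : L.map cn = L := FF.map_conj_eq (Subgroup.le_normalizer hl)
  have hd' := hd.conj l
  have hL' := jOvergroups_conj hL l
  rw [hLl] at hd' hL'
  have hlW : l ∈ Subgroup.normalizer (wOf K : Set G) := by
    -- two planes of order four in a group of order at most eight meet
    obtain ⟨v, hv, hv', hv1⟩ : ∃ v ∈ wOf K, v ∈ (wOf K).map cn ∧ v ≠ 1 := by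
      by_contra hcon
      push Not at hcon
      have hbot : wOf K ⊓ (wOf K).map cn = ⊥ :=
        (Subgroup.eq_bot_iff_forall _).2 fun v hv => hcon v hv.1 hv.2
      have hle' : (wOf K).map cn ≤ qOf T K := by
        rintro _ ⟨v, hv, rfl⟩; exact hlQ v (m.wOf_le_q hv)
      have hn : wOf K ≤ Subgroup.normalizer ((wOf K).map cn : Set G) := fun v hv => by
        rw [Subgroup.mem_normalizer_iff_map_conj_eq]
        refine Subgroup.eq_of_le_of_card_ge ?_
          (Subgroup.card_map_of_injective (f := (MulAut.conj v).toMonoidHom)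
            (MulAut.conj v).injective).ge
        rintro _ ⟨y, hy, rfl⟩
        change v * y * v⁻¹ ∈ _
        rw [h.comm (m.wOf_le_q hv) (hle' hy), mul_inv_cancel_right]; exact hy
      have h1 := Modules.card_sup_mul_card_inf hn
      rw [hbot, Subgroup.card_bot, mul_one, Subgroup.card_map_of_injective
        (f := cn) (MulAut.conj l).injective, m.card] at h1
      have h2 := Subgroup.card_le_of_le (sup_le m.wOf_le_q hle')
      have h3 := h.card_q_le
      omega
    have heq := (hd.plane_unique hz hL hL' hd' hv (by rw [← map_conj_wOf]; exact hv') hv1).1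
    rw [Subgroup.mem_normalizer_iff_map_conj_eq]
    exact (map_conj_wOf K l).trans heq.symm
  have hlK : l ∈ Subgroup.normalizer (K : Set G) := hd.normalizer_wOf_le hz hL hl hlW
  -- after an element of `K` the element fixes `z`
  set z := zOf T K
  obtain ⟨e, he, -, heQ⟩ := exists_order_three m.idx
  obtain ⟨hW1, hz1, hz2⟩ := m.z_moved he heQ
  obtain ⟨k, hk, hkz⟩ : ∃ k ∈ K, k⁻¹ * l * z * (k⁻¹ * l)⁻¹ = z := by
    have hlz := (Subgroup.mem_normalizer_iff.1 hlW z).1 m.z_mem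
    have key : ∀ k ∈ K, k * z * k⁻¹ = l * z * l⁻¹ → k⁻¹ * l * z * (k⁻¹ * l)⁻¹ = z := by
      intro k _ e'
      calc k⁻¹ * l * z * (k⁻¹ * l)⁻¹ = k⁻¹ * (l * z * l⁻¹) * k := by group
        _ = z := by rw [← e']; group
    rcases wOf_cases m.idx m.card he heQ m.z_mem m.z_ne hlz with e1 | e1 | e1 | e1
    · exact absurd (conj_eq_one_iff.1 e1) m.z_ne
    · exact ⟨1, one_mem _, by rw [inv_one, one_mul]; exact e1⟩
    · exact ⟨e, he, key e he e1.symm⟩
    · exact ⟨e * e, mul_mem he he, key _ (mul_mem he he) (by rw [e1, show zOf T K = z from rfl]; group)⟩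
  have hl'L : k⁻¹ * l ∈ L := mul_mem (inv_mem (hKL hk)) hl
  suffices hmem : k⁻¹ * l ∈ K ⊔ T by
    have := mul_mem (Subgroup.mem_sup_left (T := T) hk) hmem
    rwa [mul_inv_cancel_left] at this
  have hl'W : k⁻¹ * l ∈ Subgroup.normalizer (wOf K : Set G) :=
    mul_mem (le_normalizer_wOf K (inv_mem hk)) hlW
  have hl'K : k⁻¹ * l ∈ Subgroup.normalizer (K : Set G) :=
    mul_mem (Subgroup.le_normalizer (inv_mem hk)) hlK
  -- an element fixing `W` pointwise lies in `Q`
  have hQmem : ∀ g ∈ L, g ∈ Subgroup.normalizer (K : Set G) →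
      (∀ v ∈ wOf K, g * v * g⁻¹ = v) → g ∈ qOf T K := by
    intro g hg hgK hgW
    rw [← hOQ]
    refine hL.2.2 (Subgroup.mem_centralizer_iff.2 fun q hq => ?_)
    rw [SetLike.mem_coe, hOQ] at hq
    obtain ⟨v, hv, r, hr, rfl⟩ := h.dec q hq
    have hgQ := (Subgroup.mem_normalizer_iff.1 (hLQ hg) r).1 hr.1
    have hgr : g * r * g⁻¹ = r := by
      obtain ⟨v', hv', r', hr', he'⟩ := h.dec _ hgQ
      have hcK : ∀ x ∈ K, Commute x r := fun x hx =>
        Subgroup.mem_centralizer_iff.1 hr.2 x (Subgroup.mem_sup_left hx)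
      have hcK' : Commute e (g * r * g⁻¹) := by
        have h1 : g⁻¹ * e * g ∈ K := by
          simpa using (Subgroup.mem_normalizer_iff.1 (inv_mem hgK) e).1 he
        change e * (g * r * g⁻¹) = g * r * g⁻¹ * e
        calc e * (g * r * g⁻¹) = g * ((g⁻¹ * e * g) * r) * g⁻¹ := by group
          _ = g * r * g⁻¹ * e := by rw [(hcK _ h1).eq]; group
      have hv'1 : v' = 1 := by
        refine wOf_fixed_eq_one m.idx he heQ hv' ?_
        have h1 : e * r' * e⁻¹ = r' := mul_inv_eq_iff_eq_mul.2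
          (Subgroup.mem_centralizer_iff.1 hr'.2 e (Subgroup.mem_sup_left he))
        have h2 : e * (g * r * g⁻¹) * e⁻¹ = g * r * g⁻¹ := mul_inv_eq_iff_eq_mul.2 hcK'.eq
        rw [he', conj_mul_conj, h1] at h2
        exact mul_right_cancel h2
      rw [hv'1, one_mul] at he'
      rw [he']
      by_cases hr1 : r = 1
      · rw [hr1, mul_one, mul_inv_cancel] at he'
        rw [hr1]; exact he'.symm
      · refine h.uu r' hr' (fun e'' => hr1 ?_) r hr hr1
        rw [e''] at he'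
        exact conj_eq_one_iff.1 he'
    exact (mul_inv_eq_iff_eq_mul.1 (by rw [conj_mul_conj, hgW v hv, hgr] :
      g * (v * r) * g⁻¹ = v * r)).symm
  by_cases hfix : ∀ v ∈ wOf K, k⁻¹ * l * v * (k⁻¹ * l)⁻¹ = v
  · exact Subgroup.mem_sup_right (hQmem _ hl'L hl'K hfix).1
  push Not at hfix
  obtain ⟨v, hv, hvne⟩ := hfix
  have hv1 : v ≠ 1 := fun e' => hvne (by rw [e']; group)
  have hvz : v ≠ z := fun e' => hvne (by rw [e']; exact hkz)
  obtain ⟨a, ha, haQ, -⟩ := m.exists_mover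
  have ev := (m.conj_cases hl'W hkz hv).resolve_left hvne
  have hav := (m.conj_T ha hv).resolve_left fun e' => haQ (m.mem_q_of_fixed ha hv hv1 hvz e')
  have hall : ∀ v' ∈ wOf K, a * (k⁻¹ * l) * v' * (a * (k⁻¹ * l))⁻¹ = v' := by
    intro v' hv'
    have hz' : a * (k⁻¹ * l) * z * (a * (k⁻¹ * l))⁻¹ = z := by
      rw [show a * (k⁻¹ * l) * z * (a * (k⁻¹ * l))⁻¹ = a * (k⁻¹ * l * z * (k⁻¹ * l)⁻¹) * a⁻¹ by
        group, hkz, m.z_fix ha]
    have hv'' : a * (k⁻¹ * l) * v * (a * (k⁻¹ * l))⁻¹ = v := by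
      rw [show a * (k⁻¹ * l) * v * (a * (k⁻¹ * l))⁻¹ = a * (k⁻¹ * l * v * (k⁻¹ * l)⁻¹) * a⁻¹ by
        group, ev, conj_mul_conj, hav, m.z_fix ha, mul_assoc, wOf_sq m.z_mem, mul_one]
    rcases plane_cases m.card m.z_mem m.z_ne hv hv1 hvz hv' with rfl | rfl | rfl | rfl
    · group
    · exact hz'
    · exact hv''
    · rw [conj_mul_conj, hv'', hz']
  have h1 := hQmem _ (mul_mem (hL.1.1 ha) hl'L) (mul_mem (m.norm ha) hl'K) hall
  have h2 := mul_mem (Subgroup.mem_sup_right (S := K) (inv_mem ha))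
    (Subgroup.mem_sup_right (S := K) h1.1)
  rwa [inv_mul_cancel_left] at h2

end Cfsg.Agent.LocalEven
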