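import Cfsg.Agent.LocalEven.JSecond

/-!
The case of a Sylow 2-subgroup of `G`.
-/

set_option autoImplicit false

open Cfsg
open scoped commutatorElement

namespace Cfsg.Agent.LocalEven

variable {G : Type*} [Group G] [Finite G] {T L L' K C : Subgroup G} {S : Sylow 2 G}

theorem zOf_eq_line (hm : Member T K) (hK : IsJComponent T K) {v : G} (hv : v ∈ z0Of T)
    (hvW : v ∈ wOf K) (hv1 : v ≠ 1) : v = zOf T K := by
  obtain ⟨w, -, -, -, -, -, huniq⟩ := exists_line hK hm.hT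
  rw [(huniq v hv hvW).resolve_left hv1,
    (huniq _ (zOf_mem_z0 hm) hm.z_mem).resolve_left hm.z_ne]

theorem exists_hOf_ne (hK : IsJComponent T K) (hT : IsPGroup 2 T)
    (h2 : 2 < Nat.card ↥(z0Of T)) : ∃ x ∈ hOf T K, x ≠ 1 := by
  by_contra hcon
  push Not at hcon
  have h := card_z0_le_two_mul hK hT
  rw [(Subgroup.eq_bot_iff_forall _).2 hcon, Subgroup.card_bot] at h
  omega

/-- An element normalizing `J(T)` and a component fixes `Ω₁Z(J(T))` when it is small. -/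
theorem fixes_z0 (hK : IsJComponent T K) (hT : IsPGroup 2 T) (h4 : Nat.card ↥(z0Of T) ≤ 4) {x : G}
    (hxJ : x ∈ Subgroup.normalizer (thompsonSubgroupOf 2 T : Set G))
    (hxK : x ∈ Subgroup.normalizer (K : Set G)) {v : G} (hv : v ∈ z0Of T) : x * v * x⁻¹ = v := by
  have hxW := normalizer_le_normalizer_wOf K hxK
  have hxZ := normalizer_le_normalizer_omegaCenterOf _ hxJ
  obtain ⟨w, hw, hwW, hw1, -, hcases, huniq⟩ := exists_line hK hT
  have hconjH : ∀ v ∈ hOf T K, x * v * x⁻¹ = v := by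
    intro v hv
    by_cases hv1 : v = 1
    · rw [hv1]; group
    have := hOf_conj hxJ hv
    rw [show K.map (MulAut.conj x).toMonoidHom = K from FF.map_conj_eq hxK] at this
    exact line_unique hK hT h4 this (fun e => hv1 (conj_eq_one_iff.1 e)) hv hv1
  have hxw : x * w * x⁻¹ = w :=
    (huniq _ ((Subgroup.mem_normalizer_iff.1 hxZ w).1 hw)
      ((Subgroup.mem_normalizer_iff.1 hxW w).1 hwW)).resolve_left
        fun e => hw1 (conj_eq_one_iff.1 e)
  rcases hcases v hv with h | h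
  · exact hconjH v h
  · have h1 := hconjH _ h
    rw [conj_mul_conj, hxw] at h1
    exact mul_right_cancel h1

theorem five_le_card {Z : Subgroup G} {a b c d : G} (ha : a ∈ Z) (hb : b ∈ Z) (hc : c ∈ Z)
    (hd : d ∈ Z) (ha1 : a ≠ 1) (hb1 : b ≠ 1) (hc1 : c ≠ 1) (hd1 : d ≠ 1) (hab : a ≠ b)
    (hac : a ≠ c) (had : a ≠ d) (hbc : b ≠ c) (hbd : b ≠ d) (hcd : c ≠ d) : 5 ≤ Nat.card Z := by
  have hsub : ({1, a, b, c, d} : Set G) ⊆ (Z : Set G) := by
    rintro x (rfl | rfl | rfl | rfl | rfl)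
    exacts [one_mem _, ha, hb, hc, hd]
  refine le_trans (le_of_eq ?_) ((Set.ncard_le_ncard hsub).trans (Nat.card_coe_set_eq _).ge)
  rw [Set.ncard_insert_of_notMem (by simp [ha1.symm, hb1.symm, hc1.symm, hd1.symm]),
    Set.ncard_insert_of_notMem (by simp [hab, hac, had]),
    Set.ncard_insert_of_notMem (by simp [hbc, hbd]), Set.ncard_pair hcd]

theorem SComp.conj (h : SComp S K L) {n : G}
    (hn : n ∈ Subgroup.normalizer ((S : Subgroup G) : Set G)) :
    SComp S (K.map (MulAut.conj n).toMonoidHom) (L.map (MulAut.conj n).toMonoidHom) :=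
  ⟨isJComponent_conj_normalizer h.hK
      (Modules.normalizer_le_normalizer_thompsonSubgroupOf 2 _ hn),
    isMaximalTwoLocal_conj h.hL n, Subgroup.map_mono h.hKL,
    (FF.map_conj_eq hn).ge.trans (Subgroup.map_mono h.hSL)⟩

/-- A component of `S` and one with another overgroup of `J(S)`. -/
structure Pair (S : Sylow 2 G) (K L C L' : Subgroup G) : Prop where
  h : SComp S K L
  hC : IsJComponent (S : Subgroup G) C
  hL' : IsMaximalTwoLocal L'
  hCL' : C ≤ L'
  hJL' : thompsonSubgroupOf 2 (S : Subgroup G) ≤ L'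
  ne : L ≠ L'

theorem Pair.card_le (p : Pair S K L C L') (hz : ZNHyp G) :
    Nat.card ↥(z0Of (S : Subgroup G)) ≤ 4 :=
  card_z0_le_four hz S.isPGroup' p.h.tight p.h.hL p.h.hKL p.h.hJL (tight_of_sylow S p.hC) p.hL'
    p.hCL' p.hJL' p.ne

/-- `S` normalizes the component. -/
theorem Pair.norm (p : Pair S K L C L') (hz : ZNHyp G) :
    (S : Subgroup G) ≤ Subgroup.normalizer (K : Set G) := by
  intro t ht
  rw [Subgroup.mem_normalizer_iff_map_conj_eq]
  by_contra hne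
  change K.map (MulAut.conj t).toMonoidHom ≠ K at hne
  set K' := K.map (MulAut.conj t).toMonoidHom
  have h := p.h
  have hover := h.jover hz
  have htJ : t ∈ Subgroup.normalizer (thompsonSubgroupOf 2 (S : Subgroup G) : Set G) :=
    Modules.normalizer_le_normalizer_thompsonSubgroupOf 2 (S : Subgroup G) (Subgroup.le_normalizer ht)
  have hK' : IsJComponent (S : Subgroup G) K' := isJComponent_conj_normalizer h.hK htJ
  have hK'L : K' ≤ L := by
    rw [← FF.map_conj_eq (Subgroup.le_normalizer (h.hSL ht))]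
    exact Subgroup.map_mono h.hKL
  obtain ⟨w₁, hw₁, hw₁W, hw₁1, hw₁H, -, -⟩ := exists_line h.hK S.isPGroup'
  obtain ⟨w₂, hw₂, hw₂W, hw₂1, hw₂H, -, hu₂⟩ := exists_line hK' S.isPGroup'
  have a2 : w₂ ∈ hOf (S : Subgroup G) K := mem_hOf_of_ne hz hover rfl h.hK h.hKL hK' hK'L hne hw₂ hw₂W
  have a1 : w₁ ∈ hOf (S : Subgroup G) K' :=
    mem_hOf_of_ne hz hover rfl hK' hK'L h.hK h.hKL (Ne.symm hne) hw₁ hw₁W
  have n12 : w₁ ≠ w₂ := fun e => hw₁H (e ▸ a2)
  have ht₁ : t * w₁ * t⁻¹ = w₂ :=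
    (hu₂ _ ((Subgroup.mem_normalizer_iff.1 (normalizer_le_normalizer_omegaCenterOf _ htJ) w₁).1 hw₁)
      (by rw [← map_conj_wOf]; exact ⟨w₁, hw₁W, rfl⟩)).resolve_left
        fun e => hw₁1 (conj_eq_one_iff.1 e)
  have h3 : 2 < Nat.card ↥(z0Of (S : Subgroup G)) := by
    have hsub : ({1, w₁, w₂} : Set G) ⊆ (z0Of (S : Subgroup G) : Set G) := by
      rintro x (rfl | rfl | rfl)
      exacts [one_mem _, hw₁, hw₂]
    refine lt_of_lt_of_le ?_ ((Set.ncard_le_ncard hsub).trans (Nat.card_coe_set_eq _).ge)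
    rw [Set.ncard_insert_of_notMem (by simp [hw₁1.symm, hw₂1.symm]), Set.ncard_pair n12]
    omega
  obtain ⟨x, hx, hx1⟩ := exists_hOf_ne p.hC S.isPGroup' h3
  obtain ⟨v, hv, hvC⟩ := exists_omega_not_mem hz p.hC S (thompsonOf_le _)
  have hvz0 := (omega_sylow_le hover S le_rfl hv).2.2.2
  have htv : t * v * t⁻¹ = v := by
    rw [Subgroup.mem_centralizer_iff.1 (omegaCenterOf_le _ hv).2 t ht, mul_inv_cancel_right]
  have hv1 : v ≠ 1 := fun e => hvC (e ▸ one_mem _)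
  have hvx : v ≠ x := fun e => hvC (e ▸ hx.2)
  have hv₁ : v ≠ w₁ := fun e => n12 (e.symm.trans (by rw [e] at htv; rw [← ht₁, htv]; exact e))
  have hv₂ : v ≠ w₂ := fun e => n12 (by
    have e' : t * w₁ * t⁻¹ = t * w₂ * t⁻¹ := by rw [ht₁, ← e, htv]
    exact mul_left_cancel (mul_right_cancel e'))
  have hd : ∀ A, IsJComponent (S : Subgroup G) A → A ≤ L → ∀ y ∈ hOf (S : Subgroup G) A, y ≠ 1 → x ≠ y := fun A hA hAL y hy hy1 e =>
    hy1 (hOf_disjoint hz S.isPGroup' (tight_of_sylow S hA) h.hL hAL h.hJL (tight_of_sylow S p.hC)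
      p.hL' p.hCL' p.hJL' p.ne hy (e ▸ hx))
  have h5 := five_le_card hw₁ hw₂ hx.1 hvz0 hw₁1 hw₂1 hx1 hv1 n12 (hd K' hK' hK'L _ a1 hw₁1).symm
    hv₁.symm (hd K h.hK h.hKL _ a2 hw₂1).symm hv₂.symm hvx.symm
  have h4 := p.card_le hz
  omega

theorem Pair.mem (p : Pair S K L C L') (hz : ZNHyp G) : Member (S : Subgroup G) K :=
  member_of_component hz S.isPGroup' (p.h.jover hz) p.h.hK p.h.hKL (p.norm hz)

theorem Pair.fixed (p : Pair S K L C L') (hz : ZNHyp G) {t v : G} (ht : t ∈ (S : Subgroup G))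
    (hv : v ∈ z0Of (S : Subgroup G)) : t * v * t⁻¹ = v :=
  fixes_z0 p.h.hK S.isPGroup' (p.card_le hz)
    (Modules.normalizer_le_normalizer_thompsonSubgroupOf 2 _ (Subgroup.le_normalizer ht))
    (p.norm hz ht) hv

/-- `Ω₁Z(S) = Ω₁Z(J(S))`, of order two or four. -/
theorem Pair.omega_eq (p : Pair S K L C L') (hz : ZNHyp G) :
    omegaCenterOf (S : Subgroup G) = z0Of (S : Subgroup G) ∧
      (Nat.card ↥(z0Of (S : Subgroup G)) = 2 ∨ Nat.card ↥(z0Of (S : Subgroup G)) = 4) := by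
  refine ⟨le_antisymm (fun x hx => (omega_sylow_le (p.h.jover hz) S le_rfl hx).2.2.2)
    fun x hx => Modules.mem_omegaOne_of_pow ⟨thompsonOf_le _ (omegaCenterOf_le _ hx).1,
      Subgroup.mem_centralizer_iff.2 fun t ht => mul_inv_eq_iff_eq_mul.1 (p.fixed hz ht hx)⟩
      ((omegaCenterOf_elemAb _).2 x hx), ?_⟩
  have h4 := p.card_le hz
  haveI : Fact (Nat.Prime 2) := ⟨Nat.prime_two⟩
  obtain ⟨n, hn⟩ := IsPGroup.iff_card.1
    (Modules.elemAb_isPGroup (omegaCenterOf_elemAb (thompsonSubgroupOf 2 (S : Subgroup G))))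
  rw [hn] at h4 ⊢
  have hn0 : n ≠ 0 := by
    rintro rfl
    rw [pow_zero] at hn
    have := Subgroup.card_eq_one.1 hn
    exact (p.mem hz).z_ne (Subgroup.mem_bot.1 (this ▸ zOf_mem_z0 (p.mem hz)))
  have hn2 : n ≤ 2 := by
    by_contra hc
    have := Nat.pow_le_pow_right (show 0 < 2 by norm_num) (not_le.1 hc : 3 ≤ n)
    norm_num at this
    omega
  interval_cases n <;> simp_all

/-- An overgroup of `J(S)` with a nontrivial line contains `S`. -/
theorem Pair.sylow_le (p : Pair S K L C L') (hz : ZNHyp G) {D M : Subgroup G}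
    (hD : IsJComponent (S : Subgroup G) D) (hM : IsMaximalTwoLocal M) (hDM : D ≤ M)
    (hJM : thompsonSubgroupOf 2 (S : Subgroup G) ≤ M) {x : G}
    (hx : x ∈ hOf (S : Subgroup G) D) (hx1 : x ≠ 1) : (S : Subgroup G) ≤ M := by
  intro t ht
  have htJ : t ∈ Subgroup.normalizer (thompsonSubgroupOf 2 (S : Subgroup G) : Set G) :=
    Modules.normalizer_le_normalizer_thompsonSubgroupOf 2 _ (Subgroup.le_normalizer ht)
  rw [← IsMaximalTwoLocal.normalizer_eq hz hM, Subgroup.mem_normalizer_iff_map_conj_eq]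
  by_contra hne
  have h1 := hOf_conj htJ hx
  rw [p.fixed hz ht hx.1] at h1
  exact hx1 (hOf_disjoint hz S.isPGroup' (tight_of_sylow S hD) hM hDM hJM
    (tight_of_sylow S (isJComponent_conj_normalizer hD htJ)) (isMaximalTwoLocal_conj hM t)
    (Subgroup.map_mono hDM) ((FF.map_conj_eq htJ).ge.trans (Subgroup.map_mono hJM))
    (Ne.symm hne) hx h1)

/-- A second overgroup of `S`. -/
theorem exists_second (hz : ZNHyp G) (hO : pCore 2 G = ⊥) (h : SComp S K L) :
    ∃ K' L', SComp S K' L' ∧ L' ≠ L := by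
  by_cases hNJ : Subgroup.normalizer (thompsonSubgroupOf 2 (S : Subgroup G) : Set G) ≤ L
  · exact exists_second_of_le hz hO h hNJ
  obtain ⟨g, hg, hgL⟩ := SetLike.not_le_iff_exists.1 hNJ
  set L' := L.map (MulAut.conj g).toMonoidHom
  have hne : L ≠ L' := fun e => hgL (by
    rw [← IsMaximalTwoLocal.normalizer_eq hz h.hL, Subgroup.mem_normalizer_iff_map_conj_eq]
    exact e.symm)
  have hC := isJComponent_conj_normalizer h.hK hg
  have hJL' : thompsonSubgroupOf 2 (S : Subgroup G) ≤ L' :=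
    (FF.map_conj_eq hg).ge.trans (Subgroup.map_mono h.hJL)
  have p : Pair S K L (K.map (MulAut.conj g).toMonoidHom) L' :=
    ⟨h, hC, isMaximalTwoLocal_conj h.hL g, Subgroup.map_mono h.hKL, hJL', hne⟩
  refine ⟨K.map (MulAut.conj g).toMonoidHom, L', ⟨hC, p.hL', p.hCL', ?_⟩, hne.symm⟩
  rcases (p.omega_eq hz).2 with h2 | h4
  · -- `g` centralizes `Ω₁Z(S)`
    have hgS : g ∈ Subgroup.normalizer ((S : Subgroup G) : Set G) := by
      refine hz.cent S (Subgroup.mem_centralizer_iff.2 fun v hv => ?_)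
      rw [(p.omega_eq hz).1] at hv
      have hgv := (Subgroup.mem_normalizer_iff.1 (normalizer_le_normalizer_omegaCenterOf _ hg) v).1 hv
      by_cases hv1 : v = 1
      · simp [hv1]
      have hgv1 : g * v * g⁻¹ ≠ 1 := fun e => hv1 (conj_eq_one_iff.1 e)
      refine (mul_inv_eq_iff_eq_mul.1 ?_).symm
      obtain ⟨u, hu⟩ := (Nat.card_eq_two_iff' (⟨1, one_mem _⟩ : ↥(z0Of (S : Subgroup G)))).1 h2
      have e1 := hu.2 ⟨_, hgv⟩ (fun e => hgv1 (congrArg Subtype.val e))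
      have e2 := hu.2 ⟨v, hv⟩ (fun e => hv1 (congrArg Subtype.val e))
      exact congrArg Subtype.val (e1.trans e2.symm)
    exact (FF.map_conj_eq hgS).ge.trans (Subgroup.map_mono h.hSL)
  · obtain ⟨x, hx, hx1⟩ := exists_hOf_ne hC S.isPGroup' (by omega)
    exact p.sylow_le hz hC p.hL' p.hCL' hJL' hx hx1

theorem SComp.exists_pair (hz : ZNHyp G) (hO : pCore 2 G = ⊥) (h : SComp S K L) :
    ∃ C L', Pair S K L C L' := by
  obtain ⟨C, L', hC, hne⟩ := exists_second hz hO h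
  exact ⟨C, L', h, hC.hK, hC.hL, hC.hKL, hC.hJL, hne.symm⟩

theorem SComp.mem (hz : ZNHyp G) (hO : pCore 2 G = ⊥) (h : SComp S K L) :
    Member (S : Subgroup G) K := by
  obtain ⟨C, L', p⟩ := h.exists_pair hz hO
  exact p.mem hz

/-- Two components with the same involution and different overgroups. -/
theorem exists_common (hz : ZNHyp G) (hO : pCore 2 G = ⊥) (h₀ : SComp S K L) :
    ∃ K₁ L₁ K₂ L₂, SComp S K₁ L₁ ∧ SComp S K₂ L₂ ∧ L₁ ≠ L₂ ∧
      zOf (S : Subgroup G) K₁ = zOf (S : Subgroup G) K₂ := by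
  by_contra hcon
  push Not at hcon
  have hinj : ∀ {A LA B LB : Subgroup G}, SComp S A LA → SComp S B LB →
      zOf (S : Subgroup G) A = zOf (S : Subgroup G) B → LA = LB := fun hA hB e => by
    by_contra hne
    exact hcon _ _ _ _ hA hB hne e
  obtain ⟨K₁, L₁, h₁, hne⟩ := exists_second hz hO h₀
  have p₀ : Pair S K L K₁ L₁ := ⟨h₀, h₁.hK, h₁.hL, h₁.hKL, h₁.hJL, hne.symm⟩
  have h4 : Nat.card ↥(z0Of (S : Subgroup G)) ≤ 4 := p₀.card_le hz
  have h3 : 2 < Nat.card ↥(z0Of (S : Subgroup G)) := by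
    have m := h₀.mem hz hO
    have m₁ := h₁.mem hz hO
    have hsub : ({1, zOf (S : Subgroup G) K, zOf (S : Subgroup G) K₁} : Set G) ⊆ (z0Of (S : Subgroup G) : Set G) := by
      rintro x (rfl | rfl | rfl)
      exacts [one_mem _, zOf_mem_z0 m, zOf_mem_z0 m₁]
    refine lt_of_lt_of_le ?_ ((Set.ncard_le_ncard hsub).trans (Nat.card_coe_set_eq _).ge)
    rw [Set.ncard_insert_of_notMem (by simp [m.z_ne.symm, m₁.z_ne.symm]),
      Set.ncard_pair fun e => hne (hinj h₁ h₀ e.symm)]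
    omega
  -- one component in each overgroup
  have single : ∀ {A LA : Subgroup G}, SComp S A LA → ∀ B, IsJComponent (S : Subgroup G) B → B ≤ LA → B = A := by
    intro A LA hA B hBc hBL
    by_contra hBA
    have hB : SComp S B LA := ⟨hBc, hA.hL, hBL, hA.hSL⟩
    obtain ⟨K', L', hK', hne'⟩ := exists_second hz hO hA
    have mA := hA.mem hz hO
    have mB := hB.mem hz hO
    have m' := hK'.mem hz hO
    have hover := hA.jover hz
    have a1 := mem_hOf_of_ne hz hover rfl hA.hK hA.hKL hBc hBL hBA (zOf_mem_z0 mB) mB.z_mem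
    have a2 := mem_hOf_of_ne hz hover rfl hBc hBL hA.hK hA.hKL (Ne.symm hBA) (zOf_mem_z0 mA)
      mA.z_mem
    obtain ⟨x, hx, hx1⟩ := exists_hOf_ne hK'.hK S.isPGroup' h3
    have hd : ∀ {D}, SComp S D LA → ∀ y ∈ hOf (S : Subgroup G) D, y ≠ 1 → x ≠ y := fun hD y hy hy1 e =>
      hy1 (hOf_disjoint hz S.isPGroup' hD.tight hD.hL hD.hKL hD.hJL hK'.tight hK'.hL hK'.hKL
        hK'.hJL hne'.symm hy (e ▸ hx))
    have h5 := five_le_card (zOf_mem_z0 mA) (zOf_mem_z0 mB) (zOf_mem_z0 m') hx.1 mA.z_ne mB.z_ne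
      m'.z_ne hx1 (fun e => zOf_not_mem_hOf mB (e ▸ a2))
      (fun e => hne' (hinj hA hK' e).symm) (hd hB _ a2 mA.z_ne).symm
      (fun e => hne' (hinj hB hK' e).symm) (hd hA _ a1 mB.z_ne).symm
      (fun e => zOf_not_mem_hOf m' (e ▸ hx))
    omega
  -- the decomposition of an overgroup
  have hdec : ∀ {A LA : Subgroup G}, SComp S A LA → ∀ y ∈ LA,
      ∃ a ∈ A ⊔ (S : Subgroup G), ∃ n ∈ Subgroup.normalizer ((S : Subgroup G) : Set G), y = a * n := by
    intro A LA hA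
    set N0 := LA ⊓ Subgroup.normalizer (thompsonSubgroupOf 2 (S : Subgroup G) : Set G)
    have hN0A : N0 ≤ Subgroup.normalizer (A : Set G) := fun y hy => by
      rw [Subgroup.mem_normalizer_iff_map_conj_eq]
      refine single hA _ (isJComponent_conj_normalizer hA.hK hy.2) ?_
      rw [← FF.map_conj_eq (Subgroup.le_normalizer hy.1)]
      exact Subgroup.map_mono hA.hKL
    have hN0T : N0 ≤ Subgroup.normalizer ((S : Subgroup G) : Set G) := fun y hy =>
      hz.cent S (Subgroup.mem_centralizer_iff.2 fun v hv =>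
        (mul_inv_eq_iff_eq_mul.1 (fixes_z0 hA.hK S.isPGroup' h4 hy.2 (hN0A hy)
          (omega_sylow_le (hA.jover hz) S le_rfl hv).2.2.2)).symm)
    have hle : LA ≤ A ⊔ N0 := by
      by_contra hc
      obtain ⟨B, hB, hBL, hBne⟩ :=
        exists_component_not_le hz (hA.jover hz) S.isPGroup' hc le_sup_right
      exact hBne ((single hA B hB hBL).le.trans le_sup_left)
    intro y hy
    have hy' : y ∈ (↑(A ⊔ N0) : Set G) := hle hy
    rw [Subgroup.coe_mul_of_right_le_normalizer_left A N0 hN0A] at hy'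
    obtain ⟨a, ha, n, hn, rfl⟩ := Set.mem_mul.1 hy'
    exact ⟨a, Subgroup.mem_sup_left ha, n, hN0T hn, rfl⟩
  set V : Set (Subgroup G) := {A | ∃ LA, SComp S A LA}
  have hVL : ∀ {A LA B LB : Subgroup G}, SComp S A LA → SComp S B LB → A ≠ B → LA ≠ LB :=
    fun hA hB hAB e => hAB (single hA _ hB.hK (e ▸ hB.hKL)).symm
  have hF : Fam (S : Subgroup G) V := by
    refine ⟨fun A ⟨LA, hA⟩ => hA.mem hz hO, ?_, K, ⟨L, h₀⟩, K₁, ⟨L₁, h₁⟩, ?_⟩
    · rintro A ⟨LA, hA⟩ B ⟨LB, hB⟩ hAB X hX b1 b2 b3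
      exact apart_of_ne hz S.isPGroup' hA.tight hA.hL hA.hKL hA.hSL hB.tight hB.hL hB.hKL hB.hSL
        (hVL hA hB hAB) hX b1 b2 b3
    · rintro rfl
      exact hne (h₀.tight.unique hz S.isPGroup' h₀.hL h₀.hKL h₀.hJL h₁.hL h₁.hKL h₁.hJL)
  have hclosed : ∀ n ∈ Subgroup.normalizer ((S : Subgroup G) : Set G), ∀ A ∈ V,
      A.map (MulAut.conj n).toMonoidHom ∈ V := fun n hn A ⟨LA, hA⟩ => ⟨_, hA.conj hn⟩
  refine hF.false_of_distinct ?_ hclosed ?_
  · rintro A ⟨LA, hA⟩ B ⟨LB, hB⟩ e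
    obtain rfl := hinj hA hB e
    exact single hB A hA.hK hA.hKL
  rintro i ⟨Li, hi⟩ k ⟨Lk, hk⟩ h heq
  by_cases hline : ∃ m Lm, SComp S m Lm ∧ zOf (S : Subgroup G) i ∈ hOf (S : Subgroup G) m
  · obtain ⟨m, Lm, hm, hzm⟩ := hline
    exact meet_of_line hF hclosed ⟨Li, hi⟩ ⟨Lk, hk⟩ ⟨Lm, hm⟩ heq hzm
      (fix_le hz S.isPGroup' hm.tight hm.hL hm.hKL hm.hJL hzm (hi.mem hz hO).z_ne)
      (isSylowTwoIn_of_sylow_le hm.hSL) (hdec hm)
  push Not at hline
  have mi := hi.mem hz hO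
  have mk' := hk.mem hz hO
  set z := zOf (S : Subgroup G) i
  set Y := Subgroup.centralizer ({z} : Set G)
  have hSY : (S : Subgroup G) ≤ Y := fun t ht => Subgroup.mem_centralizer_singleton_iff.2
    (mul_inv_eq_iff_eq_mul.1 (mi.z_fix ht))
  have hYJ : Y ≤ Subgroup.normalizer (thompsonSubgroupOf 2 (S : Subgroup G) : Set G) := by
    by_contra hc
    have hY : IsTwoLocal Y := isTwoLocal_centralizer_of_sq (wOf_sq mi.z_mem) mi.z_ne
    have hYover : Y ∈ jOvergroups (S : Subgroup G) := by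
      refine ⟨isSylowTwoIn_of_sylow_le hSY, fun hle => hc ?_,
        centralizer_pCoreOf_le_of_twoLocal hz.char2 hY⟩
      rw [← Modules.thompsonSubgroupOf_eq_of_le (pCoreOf_le_sylow (isSylowTwoIn_of_sylow_le hSY))
        hle]
      exact (le_normalizer_pCoreOf Y 2).trans
        (Modules.normalizer_le_normalizer_thompsonSubgroupOf 2 _)
    obtain ⟨m, hm, hmY, -⟩ := exists_component_not_le hz hYover S.isPGroup' hc inf_le_right
    obtain ⟨Lm, hle, hLm⟩ := exists_maximal_twoLocal hY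
    refine hline m Lm ⟨hm, hLm, hmY.trans hle, hSY.trans hle⟩ ⟨zOf_mem_z0 mi, ?_⟩
    exact Subgroup.mem_centralizer_iff.2 fun y hy =>
      Subgroup.mem_centralizer_singleton_iff.1 (hmY hy)
  have hhY : (S : Subgroup G).map (MulAut.conj h).toMonoidHom ≤ Y := by
    rintro _ ⟨t, ht, rfl⟩
    refine Subgroup.mem_centralizer_singleton_iff.2 (mul_inv_eq_iff_eq_mul.1 ?_)
    change h * t * h⁻¹ * z * (h * t * h⁻¹)⁻¹ = z
    rw [heq]
    conv_rhs => rw [← mk'.z_fix ht]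
    group
  have hhJ : h ∈ Subgroup.normalizer (thompsonSubgroupOf 2 (S : Subgroup G) : Set G) := by
    obtain ⟨P, hP, hhP⟩ := exists_isSylowTwoIn (S.isPGroup'.map _) (hhY.trans hYJ)
    obtain ⟨x, hx, hxP⟩ := exists_conj_of_isSylowTwoIn (isSylowTwoIn_of_sylow_le
      (Subgroup.le_normalizer.trans (Modules.normalizer_le_normalizer_thompsonSubgroupOf 2 (S : Subgroup G)))) hP
    have hPe : (S : Subgroup G).map (MulAut.conj h).toMonoidHom = P := Subgroup.eq_of_le_of_card_ge hhP (by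
      rw [← hxP, Subgroup.card_map_of_injective (MulAut.conj x).injective,
        Subgroup.card_map_of_injective (MulAut.conj h).injective])
    rw [Subgroup.mem_normalizer_iff_map_conj_eq]
    change (thompsonSubgroupOf 2 (S : Subgroup G)).map (MulAut.conj h).toMonoidHom = thompsonSubgroupOf 2 (S : Subgroup G)
    rw [Modules.conj_thompsonSubgroupOf, hPe, ← hxP, ← Modules.conj_thompsonSubgroupOf]
    exact FF.map_conj_eq hx
  set k' := k.map (MulAut.conj h).toMonoidHom with hk'def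
  set Lk' := Lk.map (MulAut.conj h).toMonoidHom with hLk'def
  have hkc := isJComponent_conj_normalizer hk.hK hhJ
  have hJk : thompsonSubgroupOf 2 (S : Subgroup G) ≤ Lk' :=
    (FF.map_conj_eq hhJ).ge.trans (Subgroup.map_mono hk.hJL)
  obtain ⟨x, hx, hx1⟩ := exists_hOf_ne hkc S.isPGroup' h3
  have hk' : SComp S k' Lk' := ⟨hkc, isMaximalTwoLocal_conj hk.hL h, Subgroup.map_mono hk.hKL,
    p₀.sylow_le hz hkc (isMaximalTwoLocal_conj hk.hL h) (Subgroup.map_mono hk.hKL) hJk hx hx1⟩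
  have hzk : z = zOf (S : Subgroup G) k' := by
    refine zOf_eq_line (hk'.mem hz hO) hkc (zOf_mem_z0 mi) ?_ mi.z_ne
    rw [heq, hk'def, ← map_conj_wOf]
    exact ⟨_, mk'.z_mem, rfl⟩
  have hLi : Li = Lk' := hinj hi hk' hzk
  have hik : k' = i := single hi k' hkc (hLi ▸ hk'.hKL)
  have hTh : (S : Subgroup G).map (MulAut.conj h).toMonoidHom ≤ Li := hLi ▸ Subgroup.map_mono hk.hSL
  obtain ⟨P, hP, hhP⟩ := exists_isSylowTwoIn (S.isPGroup'.map _) hTh
  obtain ⟨y, hy, hyP⟩ := exists_conj_of_isSylowTwoIn (isSylowTwoIn_of_sylow_le hi.hSL) hP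
  have hPe : (S : Subgroup G).map (MulAut.conj h).toMonoidHom = P := Subgroup.eq_of_le_of_card_ge hhP (by
    rw [← hyP, Subgroup.card_map_of_injective (MulAut.conj y).injective,
      Subgroup.card_map_of_injective (MulAut.conj h).injective])
  obtain ⟨c, hc, n, hn, rfl⟩ := hdec hi y hy
  refine ⟨0, by omega, ?_⟩
  change vtx (S : Subgroup G) i 1 = vtx (S : Subgroup G) k h
  refine Prod.ext ?_ ?_
  · rw [vtx_one_fst, vtx_fst, ← hk'def, hik]
  · have e1 : (S : Subgroup G).map (MulAut.conj h).toMonoidHom = (S : Subgroup G).map (MulAut.conj c).toMonoidHom := by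
      rw [hPe, ← hyP, ← map_conj_map_conj]
      congr 1
      exact FF.map_conj_eq hn
    have e2 : i.map (MulAut.conj c).toMonoidHom = i :=
      FF.map_conj_eq ((sup_le Subgroup.le_normalizer mi.norm) hc)
    rw [vtx_one_snd, vtx_snd, Subgroup.map_sup, e1, ← hk'def, hik]
    conv_rhs => rw [← e2]
    rw [← Subgroup.map_sup]
    exact (FF.map_conj_eq (Subgroup.le_normalizer hc)).symm

/-- Two components with the small structure. -/
theorem exists_small (hz : ZNHyp G) (hO : pCore 2 G = ⊥) (h₀ : SComp S K L) :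
    ∃ K₁ L₁ K₂ L₂, SComp S K₁ L₁ ∧ SComp S K₂ L₂ ∧ L₁ ≠ L₂ ∧
      Small (S : Subgroup G) K₁ ∧ Small (S : Subgroup G) K₂ := by
  obtain ⟨K₁, L₁, K₂, L₂, h₁, h₂, hne, he⟩ := exists_common hz hO h₀
  refine ⟨K₁, L₁, K₂, L₂, h₁, h₂, hne, small_of_common hz h₁.tight h₁.hL h₁.hKL h₁.hSL h₂.tight
    h₂.hL h₂.hKL h₂.hSL hne (h₁.mem hz hO) (h₂.mem hz hO) ?_ he⟩
  exact (⟨h₁, h₂.hK, h₂.hL, h₂.hKL, h₂.hJL, hne⟩ : Pair S K₁ L₁ K₂ L₂).card_le hz

end Cfsg.Agent.LocalEven
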