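import Cfsg.Agent.LocalEven.JStraddling

/-!
Uniqueness of the maximal 2-local overgroup of a `J(T)`-component.
-/

set_option autoImplicit false

open Cfsg
open scoped commutatorElement

namespace Cfsg.Agent.LocalEven

variable {G : Type*} [Group G] [Finite G] {T L K : Subgroup G}

theorem exists_maximal_twoLocal {N : Subgroup G} (hN : IsTwoLocal N) :
    ∃ M : Subgroup G, N ≤ M ∧ IsMaximalTwoLocal M := by
  obtain ⟨M, hle, hM⟩ := {L : Subgroup G | IsTwoLocal L}.toFinite.exists_le_maximal hN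
  exact ⟨M, hle, hM.1, fun L hL hML => le_antisymm (hM.2 hL hML) hML⟩

omit [Finite G] in
theorem map_conj_map_conj (g h : G) (X : Subgroup G) :
    (X.map (MulAut.conj g).toMonoidHom).map (MulAut.conj h).toMonoidHom =
      X.map (MulAut.conj (h * g)).toMonoidHom := by
  rw [Subgroup.map_map]; congr 1; ext y; simp

omit [Finite G] in
theorem map_conj_inv_map_conj (g : G) (X : Subgroup G) :
    (X.map (MulAut.conj g).toMonoidHom).map (MulAut.conj g⁻¹).toMonoidHom = X := by
  rw [Subgroup.map_map]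
  convert X.map_id using 2
  ext y; simp [mul_assoc]

/-- A subgroup `S` containing `J(T)` whose Thompson subgroup is a conjugate of `J(T)`. -/
theorem thompson_eq_of_conj {S : Subgroup G} (x : G) (hJS : thompsonSubgroupOf 2 T ≤ S)
    (hS : thompsonSubgroupOf 2 S = (thompsonSubgroupOf 2 T).map (MulAut.conj x).toMonoidHom) :
    thompsonSubgroupOf 2 S = thompsonSubgroupOf 2 T := by
  have hle : thompsonSubgroupOf 2 T ≤ thompsonSubgroupOf 2 S := by
    rw [Modules.thompsonSubgroupOf_eq_sSup 2 T]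
    refine sSup_le fun A hA => Modules.le_thompsonSubgroupOf
      ⟨(Modules.le_thompsonSubgroupOf hA).trans hJS, hA.2.1, fun B hB hBe => ?_⟩
    obtain ⟨A', hA'⟩ := Modules.maxElemAbIn_nonempty 2 S
    refine (hA'.2.2 B hB hBe).trans ?_
    have h1 : A' ≤ T.map (MulAut.conj x).toMonoidHom :=
      ((Modules.le_thompsonSubgroupOf hA').trans hS.le).trans (Subgroup.map_mono (thompsonOf_le T))
    have h2 : A'.map (MulAut.conj x⁻¹).toMonoidHom ≤ T := by
      rw [← map_conj_inv_map_conj x T]; exact Subgroup.map_mono h1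
    have h3 := hA.2.2 _ h2 (Modules.elemAb_map _ hA'.2.1)
    rwa [Subgroup.card_map_of_injective (MulAut.conj x⁻¹).injective] at h3
  refine (Subgroup.eq_of_le_of_card_ge hle ?_).symm
  rw [hS, Subgroup.card_map_of_injective (MulAut.conj x).injective]

theorem jComponentsZero_conj (hK : K ∈ jComponentsZero T) (g : G) :
    K.map (MulAut.conj g).toMonoidHom ∈ jComponentsZero (T.map (MulAut.conj g).toMonoidHom) := by
  refine ⟨isJComponent_conj hK.1 g, fun S hJS hS => ?_⟩
  rw [← Modules.conj_thompsonSubgroupOf] at hJS ⊢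
  rw [← map_conj_wOf, ← Subgroup.map_equiv_normalizer_eq] at hS
  have hS' := isSylowTwoIn_conj hS g⁻¹
  have hJS' := Subgroup.map_mono (f := (MulAut.conj g⁻¹).toMonoidHom) hJS
  rw [map_conj_inv_map_conj] at hJS'
  erw [map_conj_inv_map_conj] at hS'
  have h := congrArg (Subgroup.map (MulAut.conj g).toMonoidHom) (hK.2 _ hJS' hS')
  rwa [Modules.conj_thompsonSubgroupOf, map_conj_map_conj, mul_inv_cancel, map_one,
    show ((1 : MulAut G).toMonoidHom) = MonoidHom.id G from rfl, Subgroup.map_id] at h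

/-- A `J(T)`-component lying in `𝒦₀` for a conjugate of `T` lies in `𝒦₀` for `T`. -/
theorem jComponentsZero_of_conj (hT : IsPGroup 2 T) (g : G) (hK : IsJComponent T K)
    (hKg : K ∈ jComponentsZero (T.map (MulAut.conj g).toMonoidHom)) : K ∈ jComponentsZero T := by
  refine ⟨hK, fun S hJS hS => ?_⟩
  have hJN : thompsonSubgroupOf 2 (T.map (MulAut.conj g).toMonoidHom) ≤
      Subgroup.normalizer (wOf K : Set G) :=
    (le_normalizer_of_commutator_le hKg.1.2.1.le).trans (normalizer_le_normalizer_wOf K)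
  obtain ⟨S₁, hS₁, hJS₁⟩ := exists_isSylowTwoIn (thompsonOf_isPGroup (hT.map _)) hJN
  obtain ⟨n, -, hn⟩ := exists_conj_of_isSylowTwoIn hS₁ hS
  refine thompson_eq_of_conj (n * g) hJS ?_
  rw [← hn, ← Modules.conj_thompsonSubgroupOf, hKg.2 S₁ hJS₁ hS₁,
    ← Modules.conj_thompsonSubgroupOf, map_conj_map_conj]

/-- Two components in the same overgroup: `K` normalizes `K'`, and centralizes its plane when
they differ. -/
theorem CompData.mutual {K' : Subgroup G} (hz : ZNHyp G) (hL : L ∈ jOvergroups T)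
    (hK : CompData T L K) (hK' : CompData T L K') :
    (K ≠ K' → K ≤ Subgroup.centralizer (wOf K' : Set G)) ∧
      K ≤ Subgroup.normalizer (K' : Set G) := by
  have key : K ≠ K' → K ≤ Subgroup.centralizer (wOf K' : Set G) := by
    intro hne
    have hdisj : ∀ u ∈ wOf K, u ∈ wOf K' → u = 1 := fun u hu hu' => by
      by_contra h
      exact hne (hK.unique hz hL hK' hu hu' h).symm
    obtain ⟨b, hbJ, hb2, hbW, hdev⟩ := hK.exists_transvection hz hL
    have hbK := le_normalizer_of_commutator_le hK.comm.le hbJ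
    have hbK' := normalizer_le_normalizer_wOf K' (le_normalizer_of_commutator_le hK'.comm.le hbJ)
    -- `b` centralizes `W_{K'}`
    have hbfix : ∀ v ∈ wOf K', b * v * b⁻¹ = v := by
      intro v hv
      have h1 := hdev v (hK'.wOf_le_vOf hz hL hv)
      have h2 : v⁻¹ * (b * v * b⁻¹) ∈ wOf K' :=
        mul_mem (inv_mem hv) ((Subgroup.mem_normalizer_iff.1 hbK' v).1 hv)
      exact (inv_mul_eq_one.1 (hdisj _ h1 h2)).symm
    -- the `W_K`-parts
    have hpart : ∀ v ∈ wOf K', ∃ u ∈ wOf K, b * u * b⁻¹ = u ∧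
        (u = 1 → ∀ k ∈ K, k * v * k⁻¹ = v) ∧ ∃ c, (∀ k ∈ K, k * c * k⁻¹ = c) ∧ v = c * u := by
      intro v hv
      obtain ⟨c, hc, hfix, u, hu, hvu⟩ := hK.fixed_mul hz hL (hK'.wOf_le_vOf hz hL hv)
      refine ⟨u, hu, ?_, fun h1 => by rw [hvu, h1, mul_one]; exact hfix, c, hfix, hvu⟩
      have hbc := hK.transvection_fix hbK (hdev c hc) hfix
      have h := hbfix v hv
      rw [hvu, conj_mul_conj, hbc] at h
      exact mul_left_cancel h
    -- some nontrivial element of `W_{K'}` is fixed by `K`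
    obtain ⟨v₀, hv₀, hv₀1, hv₀fix⟩ : ∃ v ∈ wOf K', v ≠ 1 ∧ ∀ k ∈ K, k * v * k⁻¹ = v := by
      classical
      choose f hf hfb hf1 c hcfix hvc using hpart
      by_contra hcon
      have hne1 : ∀ v (hv : v ∈ wOf K'), v ≠ 1 → f v hv ≠ 1 := fun v hv h1 h2 =>
        hcon ⟨v, hv, h1, hf1 v hv h2⟩
      have hinj : Function.Injective fun v : ↥(wOf K') => (⟨f v v.2, hf v v.2⟩ : ↥(wOf K)) := by
        rintro ⟨v, hv⟩ ⟨w, hw⟩ hvw
        have he : f v hv = f w hw := congrArg Subtype.val hvw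
        by_contra hne'
        have h1 : v * w⁻¹ = c v hv * (c w hw)⁻¹ := by
          conv_lhs => rw [hvc v hv, hvc w hw, he]
          group
        refine hcon ⟨v * w⁻¹, mul_mem hv (inv_mem hw), fun h => hne' (Subtype.ext
          (mul_inv_eq_one.1 h)), fun k hk => ?_⟩
        rw [h1, conj_mul_conj, hcfix v hv k hk]
        congr 1
        conv_rhs => rw [← hcfix w hw k hk]
        group
      obtain ⟨x, hx, hxQ⟩ := exists_not_mem_pCoreOf hK.idx
      have hbij := hinj.bijective_of_nat_card_le (by rw [hK.card, hK'.card])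
      refine hbW (Subgroup.mem_centralizer_iff.2 fun u hu => ?_)
      obtain ⟨v, hv⟩ := hbij.2 ⟨u, hu⟩
      have h2 := hfb v v.2
      rw [show f v v.2 = u from congrArg Subtype.val hv] at h2
      exact (mul_inv_eq_iff_eq_mul.1 h2).symm
    intro k hk
    rw [Subgroup.mem_centralizer_iff]
    intro v hv
    -- `K` moves `W_{K'}` to a plane meeting it, hence to itself
    set cn := (MulAut.conj k).toMonoidHom
    have hLk : L.map cn = L := FF.map_conj_eq (Subgroup.le_normalizer (hK.le hk))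
    have hK'' := hK'.conj k
    rw [hLk] at hK''
    have hL'' := jOvergroups_conj hL k
    rw [hLk] at hL''
    have hv₀'' : v₀ ∈ wOf (K'.map cn) := by
      rw [← map_conj_wOf]; exact ⟨v₀, hv₀, hv₀fix k hk⟩
    have heq := (hK'.plane_unique hz hL hL'' hK'' hv₀ hv₀'' hv₀1).1
    have h1 : k * v * k⁻¹ ∈ wOf K' := by
      rw [heq, ← map_conj_wOf]; exact ⟨v, hv, rfl⟩
    have h2 := hK.coset hz hL (hK'.wOf_le_vOf hz hL hv) hk
    exact (mul_inv_eq_iff_eq_mul.1
      (inv_mul_eq_one.1 (hdisj _ h2 (mul_mem (inv_mem hv) h1))).symm).symm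
  refine ⟨key, ?_⟩
  by_cases h : K = K'
  · subst h; exact Subgroup.le_normalizer
  · exact fun k hk => hK'.normalizer_wOf_le hz hL (hK.le hk)
      (Subgroup.centralizer_le_normalizer _ (key h hk))

/-- A component whose 2-local overgroups all have `J(T)` as Thompson subgroup. -/
def Tight (T K : Subgroup G) : Prop :=
  IsJComponent T K ∧ ∀ Y : Subgroup G, IsTwoLocal Y → K ≤ Y → thompsonSubgroupOf 2 T ≤ Y →
    ∀ T₀ : Subgroup G, IsSylowTwoIn T₀ Y → thompsonSubgroupOf 2 T ≤ T₀ →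
      thompsonSubgroupOf 2 T₀ = thompsonSubgroupOf 2 T

theorem tight_of_not_le {M : Subgroup G} (hz : ZNHyp G) (hT : T ∈ maxStraddlingTwoSubgroups M)
    (hNJ : Subgroup.normalizer (thompsonSubgroupOf 2 T : Set G) ≤ M) (hK : IsJComponent T K)
    (hKM : ¬ K ≤ M) : Tight T K :=
  ⟨hK, fun _ hY hKY _ _ hT₀ hJT₀ =>
    (straddle_overgroup hz hT hNJ hY (fun h => hKM (hKY.trans h)) hT₀ hJT₀).1.symm⟩

theorem isSylowTwoIn_top (S : Sylow 2 G) : IsSylowTwoIn (S : Subgroup G) ⊤ := by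
  have : Fact (Nat.Prime 2) := ⟨Nat.prime_two⟩
  refine ⟨le_top, S.isPGroup', ?_⟩
  rw [Subgroup.relIndex_top_right]
  exact Nat.not_even_iff_odd.1 fun h => S.not_dvd_index (even_iff_two_dvd.1 h)

theorem tight_of_sylow (S : Sylow 2 G) (hK : IsJComponent (S : Subgroup G) K) :
    Tight (S : Subgroup G) K :=
  ⟨hK, fun _ _ _ _ _ hT₀ hJT₀ => thompson_eq_of_le (isSylowTwoIn_top S) hT₀.2.1 le_top hJT₀⟩

theorem isTwoLocal_normalizer_wOf (h4 : Nat.card ↥(wOf K) = 4) :
    IsTwoLocal (Subgroup.normalizer (wOf K : Set G)) :=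
  ⟨wOf K, Modules.elemAb_isPGroup (wOf_elemAb K),
    fun h => by rw [h, Subgroup.card_bot] at h4; omega, rfl⟩

theorem Tight.mem_zero (h : Tight T K) : K ∈ jComponentsZero T :=
  ⟨h.1, fun S hJS hS => h.2 _ (isTwoLocal_normalizer_wOf h.1.2.2.2.2.1) (le_normalizer_wOf K)
    (hJS.trans hS.1) S hS hJS⟩

theorem not_odd_orderOf_of_pGroup {Q : Subgroup G} (hQ : IsPGroup 2 Q) {g : G} (hg : g ∈ Q)
    (ho : Odd (orderOf g)) : g = 1 := by
  obtain ⟨n, hn⟩ := two_pow_pow_eq_one hQ hg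
  exact orderOf_eq_one_iff.1 (Nat.eq_one_of_dvd_coprimes
    (Nat.Coprime.pow_left n (Nat.coprime_two_left.2 ho)) (orderOf_dvd_of_pow_eq_one hn) dvd_rfl)

theorem eq_bot_of_gen {Q : Subgroup G} (hQ : IsPGroup 2 Q)
    (hgen : Subgroup.closure {g : G | g ∈ K ∧ Odd (orderOf g)} = K) (hKQ : K ≤ Q) : K = ⊥ := by
  rw [← hgen, Subgroup.closure_eq_bot_iff]
  exact fun g hg => not_odd_orderOf_of_pGroup hQ (hKQ hg.1) hg.2

theorem not_thompson_le_core {Y : Subgroup G}
    (hgen : Subgroup.closure {g : G | g ∈ K ∧ Odd (orderOf g)} = K)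
    (hKJ : ⁅K, thompsonSubgroupOf 2 T⁆ = K) (h3 : (pCoreOf 2 K).relIndex K = 3) (hKY : K ≤ Y) :
    ¬ thompsonSubgroupOf 2 T ≤ pCoreOf 2 Y := by
  intro h
  have hle : K ≤ pCoreOf 2 Y := by
    conv_lhs => rw [← hKJ]
    rw [Subgroup.commutator_le]
    intro k hk j hj
    rw [commutatorElement_def]
    exact mul_mem ((Subgroup.mem_normalizer_iff.1 (le_normalizer_pCoreOf Y 2 (hKY hk)) j).1 (h hj))
      (inv_mem (h hj))
  have hb := eq_bot_of_gen (LocalP.pCoreOf_isPGroup Y) hgen hle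
  subst hb
  rw [Subgroup.relIndex_bot_right] at h3
  omega

/-- A 2-local subgroup containing a tight component and `J(T)` is an overgroup of the family. -/
theorem Tight.overgroup (hz : ZNHyp G) (hT : IsPGroup 2 T) (h : Tight T K) {Y : Subgroup G}
    (hY : IsTwoLocal Y) (hKY : K ≤ Y) (hJY : thompsonSubgroupOf 2 T ≤ Y) :
    ∃ T₀, Y ∈ jOvergroups T₀ ∧ thompsonSubgroupOf 2 T₀ = thompsonSubgroupOf 2 T ∧
      IsPGroup 2 T₀ := by
  obtain ⟨T₀, hT₀, hJT₀⟩ := exists_isSylowTwoIn (thompsonOf_isPGroup hT) hJY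
  have hJ := h.2 Y hY hKY hJY T₀ hT₀ hJT₀
  refine ⟨T₀, ⟨hT₀, ?_, centralizer_pCoreOf_le_of_twoLocal hz.char2 hY⟩, hJ, hT₀.2.1⟩
  rw [hJ]
  exact not_thompson_le_core h.1.1 h.1.2.1 h.1.2.2.1 hKY

/-- The members of `𝒦₀` inside `L`. -/
def compSet (T L : Subgroup G) : Set (Subgroup G) := {C | C ∈ jComponentsZero T ∧ C ≤ L}

theorem compData_of_mem {T₀ : Subgroup G} (hJ : thompsonSubgroupOf 2 T₀ = thompsonSubgroupOf 2 T)
    {C : Subgroup G} (hC : IsJComponent T C) (hCL : C ≤ L) : CompData T₀ L C :=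
  CompData.of_isJComponent (isJComponent_congr hJ hC) hCL

theorem compSet_conj (hz : ZNHyp G) {T₀ : Subgroup G} (hL : L ∈ jOvergroups T₀)
    (hJ : thompsonSubgroupOf 2 T₀ = thompsonSubgroupOf 2 T) {C : Subgroup G}
    (hC : C ∈ compSet T L) {g : G} (hg : g ∈ L) :
    C.map (MulAut.conj g).toMonoidHom ∈ compSet T L := by
  have hT₀ : IsPGroup 2 T₀ := hL.1.2.1
  have hCd := compData_of_mem hJ hC.1.1 hC.2
  have hLg : L.map (MulAut.conj g).toMonoidHom = L := FF.map_conj_eq (Subgroup.le_normalizer hg)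
  have hle : C.map (MulAut.conj g).toMonoidHom ≤ L := hLg ▸ Subgroup.map_mono hC.2
  have hsn : ((C.map (MulAut.conj g).toMonoidHom).subgroupOf L).IsSubnormal := by
    have hL' := jOvergroups_conj hL g
    have hCd' := hCd.conj g
    rw [hLg] at hL' hCd'
    exact hCd'.subnormal hz hL'
  set C' := C.map (MulAut.conj g).toMonoidHom
  have hzero₀ : C ∈ jComponentsZero T₀ :=
    ⟨isJComponent_congr hJ hC.1.1, fun S h1 h2 => by rw [hJ] at h1 ⊢; exact hC.1.2 S h1 h2⟩
  have hzero := jComponentsZero_conj hzero₀ g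
  have hcomp := isJComponent_of_conjugate hz hT₀ hL hle
    (hsn.comap (Subgroup.inclusion (sup_le hle (thompson_le_of_jOvergroup hL)))) g hzero
  have h := jComponentsZero_of_conj hT₀ g hcomp hzero
  exact ⟨⟨isJComponent_congr hJ.symm h.1,
    fun S h1 h2 => by rw [← hJ] at h1 ⊢; exact h.2 S h1 h2⟩, hle⟩

omit [Finite G] in
theorem isMaximalTwoLocal_normalizer_le {L : Subgroup G} (hL : IsMaximalTwoLocal L)
    {U : Subgroup G} (hU : IsPGroup 2 U) (hU1 : U ≠ ⊥) (hLU : L ≤ Subgroup.normalizer (U : Set G)) :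
    Subgroup.normalizer (U : Set G) = L := hL.2 _ ⟨U, hU, hU1, rfl⟩ hLU

/-- A maximal 2-local subgroup is self-normalizing. -/
theorem IsMaximalTwoLocal.normalizer_eq {L : Subgroup G} (hz : ZNHyp G)
    (hL : IsMaximalTwoLocal L) : Subgroup.normalizer (L : Set G) = L := by
  have hQ : pCoreOf 2 L ≠ ⊥ := by
    obtain ⟨U, hU, hU1, hLU⟩ := hL.1
    refine ne_bot_of_le_ne_bot hU1 (LocalP.le_pCoreOf ?_ hLU.le hU)
    rw [hLU]; exact Subgroup.le_normalizer
  refine le_antisymm (le_trans ?_ (isMaximalTwoLocal_normalizer_le hL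
    (LocalP.pCoreOf_isPGroup L) hQ (le_normalizer_pCoreOf L 2)).le) Subgroup.le_normalizer
  intro g hg
  rw [Subgroup.mem_normalizer_iff_map_conj_eq]
  exact (map_conj_pCoreOf g L).trans (congrArg (pCoreOf 2) (FF.map_conj_eq hg))

/-- A maximal 2-local overgroup is the normalizer of the join of its components. -/
theorem Tight.eq_normalizer (hz : ZNHyp G) (hT : IsPGroup 2 T) (hK : Tight T K)
    (hL : IsMaximalTwoLocal L) (hKL : K ≤ L) (hJL : thompsonSubgroupOf 2 T ≤ L) :
    compSet T L = compSet T (Subgroup.normalizer (wOf K : Set G)) ∧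
      L = Subgroup.normalizer ((sSup (compSet T L) : Subgroup G) : Set G) := by
  obtain ⟨T₀, hover, hJ, hT₀⟩ := hK.overgroup hz hT hL.1 hKL hJL
  set U := sSup (compSet T L) with hU
  have hKU : K ≤ U := le_sSup ⟨hK.mem_zero, hKL⟩
  have hUL : U ≤ L := sSup_le fun C hC => hC.2
  have hLU : L ≤ Subgroup.normalizer (U : Set G) := by
    intro g hg
    rw [Subgroup.mem_normalizer_iff_map_conj_eq]
    refine Subgroup.eq_of_le_of_card_ge ?_
      (Subgroup.card_map_of_injective (f := (MulAut.conj g).toMonoidHom)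
        (MulAut.conj g).injective).ge
    rw [Subgroup.map_le_iff_le_comap, hU]
    exact sSup_le fun C hC => Subgroup.map_le_iff_le_comap.1
      (le_sSup (compSet_conj hz hover hJ hC hg))
  have hQ : pCoreOf 2 U ≠ ⊥ := by
    have hCd := compData_of_mem hJ hK.1 hKL
    refine ne_bot_of_le_ne_bot (b := wOf K) ?_ ?_
    · intro h
      have h4 := hK.1.2.2.2.2.1
      rw [h, Subgroup.card_bot] at h4; omega
    · exact (wOf_le_pCoreOf K).trans (pCoreOf_le_of_isSubnormal hKU
        ((hCd.subnormal hz hover).comap (Subgroup.inclusion hUL)))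
  have hNU : Subgroup.normalizer (U : Set G) ≤ Subgroup.normalizer (pCoreOf 2 U : Set G) := by
    intro g hg
    rw [Subgroup.mem_normalizer_iff_map_conj_eq]
    exact (map_conj_pCoreOf g U).trans (congrArg (pCoreOf 2) (FF.map_conj_eq hg))
  have hLeq : Subgroup.normalizer (U : Set G) = L :=
    le_antisymm (hNU.trans (isMaximalTwoLocal_normalizer_le hL (LocalP.pCoreOf_isPGroup U) hQ
      (hLU.trans hNU)).le) hLU
  refine ⟨?_, hLeq.symm⟩
  set X := Subgroup.normalizer (wOf K : Set G) with hX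
  have hXK : Subgroup.normalizer (K : Set G) = X :=
    (jComponentsZero_normalizer hz hT hK.mem_zero).1
  have hsub : compSet T L ⊆ compSet T X := fun C hC => ⟨hC.1,
    hXK ▸ ((compData_of_mem hJ hC.1.1 hC.2).mutual hz hover
      (compData_of_mem hJ hK.1 hKL)).2⟩
  obtain ⟨S₁, hover₁, hJ₁, -⟩ := hK.overgroup hz hT
    (isTwoLocal_normalizer_wOf hK.1.2.2.2.2.1) (le_normalizer_wOf K)
    ((le_normalizer_of_commutator_le hK.1.2.1.le).trans (normalizer_le_normalizer_wOf K))
  refine Set.Subset.antisymm hsub fun C hC => ⟨hC.1, ?_⟩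
  rw [← hLeq]
  intro c hc
  rw [Subgroup.mem_normalizer_iff_map_conj_eq]
  refine Subgroup.eq_of_le_of_card_ge ?_
    (Subgroup.card_map_of_injective (f := (MulAut.conj c).toMonoidHom)
      (MulAut.conj c).injective).ge
  rw [Subgroup.map_le_iff_le_comap, hU]
  refine sSup_le fun D hD => Subgroup.map_le_iff_le_comap.1 ((FF.map_conj_eq ?_).le.trans
    (le_sSup hD))
  exact ((compData_of_mem hJ₁ hC.1.1 hC.2).mutual hz hover₁
    (compData_of_mem hJ₁ (hsub hD).1.1 (hsub hD).2)).2 hc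

/-- The maximal 2-local overgroup of a tight component is unique. -/
theorem Tight.unique (hz : ZNHyp G) (hT : IsPGroup 2 T) (hK : Tight T K)
    (hL : IsMaximalTwoLocal L) (hKL : K ≤ L) (hJL : thompsonSubgroupOf 2 T ≤ L)
    {L' : Subgroup G} (hL' : IsMaximalTwoLocal L') (hKL' : K ≤ L')
    (hJL' : thompsonSubgroupOf 2 T ≤ L') : L' = L := by
  obtain ⟨h1, h2⟩ := hK.eq_normalizer hz hT hL hKL hJL
  obtain ⟨h1', h2'⟩ := hK.eq_normalizer hz hT hL' hKL' hJL'
  rw [h2', h2, h1', h1]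

/-- 2-local subgroups containing a tight component and `J(T)` lie in its maximal overgroup. -/
theorem Tight.le_max (hz : ZNHyp G) (hT : IsPGroup 2 T) (hK : Tight T K)
    (hL : IsMaximalTwoLocal L) (hKL : K ≤ L) (hJL : thompsonSubgroupOf 2 T ≤ L)
    {Y : Subgroup G} (hY : IsTwoLocal Y) (hKY : K ≤ Y) (hJY : thompsonSubgroupOf 2 T ≤ Y) :
    Y ≤ L := by
  obtain ⟨L', hle, hL'⟩ := exists_maximal_twoLocal hY
  rw [← hK.unique hz hT hL hKL hJL hL' (hKY.trans hle) (hJY.trans hle)]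
  exact hle

end Cfsg.Agent.LocalEven
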