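import Cfsg.Agent.LocalEven.JUnique

/-!
A component normalized by a Sylow 2-subgroup `T`: the group `P = KT`.
-/

set_option autoImplicit false

open Cfsg
open scoped commutatorElement

namespace Cfsg.Agent.LocalEven

variable {G : Type*} [Group G] [Finite G] {T K : Subgroup G}

/-- A component normalized by `T` with `O₂(K) ≤ T`. -/
structure Member (T K : Subgroup G) : Prop where
  hT : IsPGroup 2 T
  norm : T ≤ Subgroup.normalizer (K : Set G)
  gen : Subgroup.closure {g : G | g ∈ K ∧ Odd (orderOf g)} = K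
  comm : ⁅K, thompsonSubgroupOf 2 T⁆ = K
  idx : (pCoreOf 2 K).relIndex K = 3
  card : Nat.card ↥(wOf K) = 4
  core : pCoreOf 2 K ≤ T

/-- `C_T(W_K)`. -/
abbrev qOf (T K : Subgroup G) : Subgroup G := T ⊓ Subgroup.centralizer (wOf K : Set G)

/-- The involution of `W_K` fixed by `T`. -/
noncomputable def zOf (T K : Subgroup G) : G :=
  Classical.epsilon fun z => z ∈ wOf K ∧ z ≠ 1 ∧ ∀ t ∈ T, t * z * t⁻¹ = z

theorem Member.zOf_spec (h : Member T K) :
    zOf T K ∈ wOf K ∧ zOf T K ≠ 1 ∧ ∀ t ∈ T, t * zOf T K * t⁻¹ = zOf T K := by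
  refine Classical.epsilon_spec (p := fun z => z ∈ wOf K ∧ z ≠ 1 ∧ ∀ t ∈ T, t * z * t⁻¹ = z) ?_
  haveI : Fact (Nat.Prime 2) := ⟨Nat.prime_two⟩
  have hne : wOf K ⊓ Subgroup.centralizer (T : Set G) ≠ ⊥ := by
    refine Modules.inf_centralizer_ne_bot_of_isPGroup (p := 2)
      (Modules.elemAb_isPGroup (wOf_elemAb K)) (fun h0 => ?_)
      (h.norm.trans (normalizer_le_normalizer_wOf K)) fun j hj => ?_
    · have h4 := h.card
      rw [h0, Subgroup.card_bot] at h4; omega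
    · obtain ⟨n, hn⟩ := two_pow_pow_eq_one h.hT hj
      exact ⟨n, by rw [hn]; exact one_mem _⟩
  obtain ⟨⟨u, hu⟩, hu1⟩ := (Subgroup.ne_bot_iff_exists_ne_one).1 hne
  refine ⟨u, hu.1, fun h1 => hu1 (Subtype.ext h1), fun t ht => ?_⟩
  rw [Subgroup.mem_centralizer_iff.1 hu.2 t ht, mul_inv_cancel_right]

theorem Member.z_mem (h : Member T K) : zOf T K ∈ wOf K := h.zOf_spec.1

theorem Member.z_ne (h : Member T K) : zOf T K ≠ 1 := h.zOf_spec.2.1

theorem Member.z_fix (h : Member T K) {t : G} (ht : t ∈ T) :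
    t * zOf T K * t⁻¹ = zOf T K := h.zOf_spec.2.2 t ht

theorem wOf_sq {u : G} (hu : u ∈ wOf K) : u * u = 1 := by
  simpa [pow_two] using (wOf_elemAb K).2 u hu

theorem wOf_comm {u v : G} (hu : u ∈ wOf K) (hv : v ∈ wOf K) : u * v = v * u :=
  Modules.elemAb_comm (wOf_elemAb K) hu hv

/-- The plane is `{1, z, u, u z}`. -/
theorem plane_cases (h4 : Nat.card ↥(wOf K) = 4) {z u : G} (hz : z ∈ wOf K) (hz1 : z ≠ 1)
    (hu : u ∈ wOf K) (hu1 : u ≠ 1) (huz : u ≠ z) {v : G} (hv : v ∈ wOf K) :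
    v = 1 ∨ v = z ∨ v = u ∨ v = u * z := by
  have h3' : u * z ≠ z := fun h => hu1 (mul_eq_right.1 h)
  have h2' : u * z ≠ u := fun h => hz1 (mul_eq_left.1 h)
  have h1' : u * z ≠ 1 := fun h => huz (by
    rw [eq_inv_of_mul_eq_one_left h, inv_eq_of_mul_eq_one_right (wOf_sq hz)])
  have hs : ({1, z, u, u * z} : Set G) = (wOf K : Set G) := by
    refine Set.eq_of_subset_of_ncard_le ?_ ?_
    · rintro x (rfl | rfl | rfl | rfl)
      · exact one_mem _
      · exact hz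
      · exact hu
      · exact mul_mem hu hz
    · rw [← Nat.card_coe_set_eq]
      refine h4.le.trans (le_of_eq ?_)
      rw [Set.ncard_insert_of_notMem (by simp [hz1.symm, hu1.symm, h1'.symm]),
        Set.ncard_insert_of_notMem (by simp [huz.symm, h3'.symm]), Set.ncard_pair h2'.symm]
  rw [← SetLike.mem_coe, ← hs] at hv
  simpa using hv

theorem Member.conj_cases (h : Member T K) {g : G}
    (hgW : g ∈ Subgroup.normalizer (wOf K : Set G)) (hgz : g * zOf T K * g⁻¹ = zOf T K)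
    {u : G} (hu : u ∈ wOf K) :
    g * u * g⁻¹ = u ∨ g * u * g⁻¹ = u * zOf T K := by
  by_cases hu1 : u = 1
  · left; rw [hu1]; group
  by_cases huz : u = zOf T K
  · left; rw [huz]; exact hgz
  rcases plane_cases h.card h.z_mem h.z_ne hu hu1 huz
    ((Subgroup.mem_normalizer_iff.1 hgW u).1 hu) with e | e | e | e
  · exact absurd (conj_eq_one_iff.1 e) hu1
  · exact absurd (mul_left_cancel (mul_right_cancel (e.trans hgz.symm))) huz
  · exact Or.inl e
  · exact Or.inr e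

theorem Member.conj_T (h : Member T K) {t u : G} (ht : t ∈ T) (hu : u ∈ wOf K) :
    t * u * t⁻¹ = u ∨ t * u * t⁻¹ = u * zOf T K :=
  h.conj_cases (normalizer_le_normalizer_wOf K (h.norm ht)) (h.z_fix ht) hu

theorem Member.mem_q_of_fixed (h : Member T K) {t u : G} (ht : t ∈ T) (hu : u ∈ wOf K)
    (hu1 : u ≠ 1) (huz : u ≠ zOf T K) (hfix : t * u * t⁻¹ = u) : t ∈ qOf T K := by
  refine ⟨ht, Subgroup.mem_centralizer_iff.2 fun v hv => (mul_inv_eq_iff_eq_mul.1 ?_).symm⟩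
  rcases plane_cases h.card h.z_mem h.z_ne hu hu1 huz hv with rfl | rfl | rfl | rfl
  · group
  · exact h.z_fix ht
  · exact hfix
  · rw [conj_mul_conj, hfix, h.z_fix ht]

theorem Member.fixed_cases (h : Member T K) {t u : G} (ht : t ∈ T) (htQ : t ∉ qOf T K)
    (hu : u ∈ wOf K) (hfix : t * u * t⁻¹ = u) : u = 1 ∨ u = zOf T K := by
  by_contra hcon
  push Not at hcon
  exact htQ (h.mem_q_of_fixed ht hu hcon.1 hcon.2 hfix)

theorem Member.exists_mover (h : Member T K) :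
    ∃ a ∈ T, a ∉ qOf T K ∧ a * a = 1 := by
  obtain ⟨A, hA, a, haA, haW⟩ := exists_moving h.comm h.idx h.card
  exact ⟨a, hA.1 haA, fun hq => haW hq.2, by simpa [pow_two] using hA.2.1.2 a haA⟩

theorem Member.q_mul (h : Member T K) {s t : G} (hs : s ∈ T) (hsQ : s ∉ qOf T K) (ht : t ∈ T)
    (htQ : t ∉ qOf T K) : s * t ∈ qOf T K := by
  obtain ⟨x, hx, hxQ⟩ := exists_not_mem_pCoreOf h.idx
  set u := x * zOf T K * x⁻¹ with hu
  have huW : u ∈ wOf K := (Subgroup.mem_normalizer_iff.1 (le_normalizer_wOf K hx) _).1 h.z_mem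
  have hu1 : u ≠ 1 := fun e => h.z_ne (conj_eq_one_iff.1 e)
  have huz : u ≠ zOf T K := fun e => h.z_ne (wOf_fixed_eq_one h.idx hx hxQ h.z_mem e)
  refine h.mem_q_of_fixed (mul_mem hs ht) huW hu1 huz ?_
  have e1 := (h.conj_T hs huW).resolve_left fun e => hsQ (h.mem_q_of_fixed hs huW hu1 huz e)
  have e2 := (h.conj_T ht huW).resolve_left fun e => htQ (h.mem_q_of_fixed ht huW hu1 huz e)
  calc s * t * u * (s * t)⁻¹ = s * (t * u * t⁻¹) * s⁻¹ := by group
    _ = u * zOf T K * zOf T K := by rw [e2, conj_mul_conj, e1, h.z_fix hs]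
    _ = u := by rw [mul_assoc, wOf_sq h.z_mem, mul_one]

theorem Member.zOf_eq (h : Member T K) {v : G} (hv : v ∈ wOf K) (hv1 : v ≠ 1)
    (hfix : ∀ t ∈ T, t * v * t⁻¹ = v) : v = zOf T K := by
  obtain ⟨a, ha, haQ, -⟩ := h.exists_mover
  exact (h.fixed_cases ha haQ hv (hfix a ha)).resolve_left hv1

theorem Member.sup_le_normalizer (h : Member T K) :
    K ⊔ T ≤ Subgroup.normalizer (wOf K : Set G) :=
  sup_le (le_normalizer_wOf K) (h.norm.trans (normalizer_le_normalizer_wOf K))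

theorem Member.wOf_le_q (h : Member T K) : wOf K ≤ qOf T K :=
  le_inf ((wOf_le_pCoreOf K).trans h.core) (Modules.comm_le_centralizer (wOf_elemAb K).1)

theorem Member.core_le_q (h : Member T K) : pCoreOf 2 K ≤ qOf T K :=
  le_inf h.core fun q hq => Subgroup.mem_centralizer_iff.2 fun w hw =>
    (mul_inv_eq_iff_eq_mul.1 (commute_wOf hq hw)).symm

theorem Member.inf_centralizer (h : Member T K) :
    (K ⊔ T) ⊓ Subgroup.centralizer (wOf K : Set G) = qOf T K := by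
  refine le_antisymm ?_ (inf_le_inf_right _ le_sup_right)
  rintro g ⟨hg, hgC⟩
  have hg' : g ∈ (↑(K ⊔ T) : Set G) := hg
  rw [Subgroup.coe_mul_of_right_le_normalizer_left K T h.norm] at hg'
  obtain ⟨k, hk, t, ht, rfl⟩ := Set.mem_mul.1 hg'
  refine ⟨mul_mem (h.core ?_) ht, hgC⟩
  by_contra hkQ
  refine h.z_ne (wOf_fixed_eq_one h.idx hk hkQ h.z_mem ?_)
  conv_lhs => rw [← h.z_fix ht]
  rw [show k * (t * zOf T K * t⁻¹) * k⁻¹ = (k * t) * zOf T K * (k * t)⁻¹ by group,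
    ← Subgroup.mem_centralizer_iff.1 hgC _ h.z_mem, mul_inv_cancel_right]

theorem Member.normalizes_q (h : Member T K) :
    K ⊔ T ≤ Subgroup.normalizer (qOf T K : Set G) := by
  rw [← h.inf_centralizer]
  exact Modules.normalizes_inf Subgroup.le_normalizer
    (Modules.normalizes_centralizer h.sup_le_normalizer)

theorem Member.card_sup (h : Member T K) :
    Nat.card ↥(K ⊔ T : Subgroup G) = 3 * Nat.card T := by
  have h1 := Modules.card_sup_mul_card_inf (B := T) (V := K) h.norm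
  have hinf : T ⊓ K = pCoreOf 2 K := by
    refine le_antisymm ?_ (le_inf h.core (LocalP.pCoreOf_le K))
    have h2 := Subgroup.relIndex_mul_relIndex (pCoreOf 2 K) (T ⊓ K) K
      (le_inf h.core (LocalP.pCoreOf_le K)) inf_le_right
    rw [h.idx] at h2
    rcases (Nat.dvd_prime Nat.prime_three).1 (Dvd.intro _ h2) with e | e
    · exact Subgroup.relIndex_eq_one.1 e
    · exfalso
      obtain ⟨n, hn⟩ := IsPGroup.iff_card.1 (h.hT.to_le (inf_le_left : T ⊓ K ≤ T))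
      have h3 : 3 ∣ 2 ^ n := by
        rw [← hn, ← e]; exact Subgroup.relIndex_dvd_card _ _
      exact absurd (Nat.Prime.dvd_of_dvd_pow Nat.prime_three h3) (by norm_num)
  rw [sup_comm, hinf] at h1
  have h4 := Subgroup.relIndex_mul_relIndex ⊥ (pCoreOf 2 K) K bot_le (LocalP.pCoreOf_le K)
  rw [Subgroup.relIndex_bot_left, Subgroup.relIndex_bot_left, h.idx] at h4
  rw [← h4] at h1
  exact Nat.eq_of_mul_eq_mul_right
    (Nat.card_pos : 0 < Nat.card ↥(pCoreOf 2 K)) (by rw [h1]; ring)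

theorem Member.relIndex_T (h : Member T K) : T.relIndex (K ⊔ T) = 3 := by
  have h1 := Subgroup.relIndex_mul_relIndex ⊥ T (K ⊔ T) bot_le le_sup_right
  rw [Subgroup.relIndex_bot_left, Subgroup.relIndex_bot_left, h.card_sup] at h1
  rw [mul_comm 3] at h1
  exact Nat.eq_of_mul_eq_mul_left Nat.card_pos h1

theorem Member.isSylow (h : Member T K) : IsSylowTwoIn T (K ⊔ T) :=
  ⟨le_sup_right, h.hT, by rw [h.relIndex_T]; decide⟩

theorem Member.relIndex_q (h : Member T K) : (qOf T K).relIndex T = 2 := by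
  obtain ⟨a, ha, haQ, -⟩ := h.exists_mover
  rw [Subgroup.relIndex, Subgroup.index_eq_two_iff]
  refine ⟨⟨a, ha⟩, fun b => ?_⟩
  simp only [Subgroup.mem_subgroupOf, Subgroup.coe_mul]
  by_cases hb : (b : G) ∈ qOf T K
  · exact Or.inr ⟨hb, fun hba => haQ (by simpa using mul_mem (inv_mem hb) hba)⟩
  · exact Or.inl ⟨h.q_mul b.2 hb ha haQ, hb⟩

theorem Member.pCoreOf_sup (h : Member T K) : pCoreOf 2 (K ⊔ T) = qOf T K := by
  refine le_antisymm ?_ (LocalP.le_pCoreOf (inf_le_left.trans le_sup_right) h.normalizes_q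
    (h.hT.to_le inf_le_left))
  intro t ht
  by_contra htQ
  obtain ⟨x, hx, hxQ⟩ := exists_not_mem_pCoreOf h.idx
  have hO := pCoreOf_le_sylow h.isSylow
  have ht' : x * t * x⁻¹ ∈ pCoreOf 2 (K ⊔ T) :=
    (Subgroup.mem_normalizer_iff.1
      (le_normalizer_pCoreOf (K ⊔ T) 2 (Subgroup.mem_sup_left hx)) t).1 ht
  have e := h.z_fix (hO ht')
  set u := x⁻¹ * zOf T K * x with hu
  have huW : u ∈ wOf K := by
    have h1 := (Subgroup.mem_normalizer_iff.1 (le_normalizer_wOf K (inv_mem hx)) _).1 h.z_mem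
    simpa [hu] using h1
  have hfix : t * u * t⁻¹ = u := by
    calc t * u * t⁻¹ = x⁻¹ * (x * t * x⁻¹ * zOf T K * (x * t * x⁻¹)⁻¹) * x := by rw [hu]; group
      _ = u := by rw [e]
  have huz : u ≠ zOf T K := fun e' => h.z_ne (wOf_fixed_eq_one h.idx hx hxQ h.z_mem (by
    conv_lhs => rw [← e', hu]
    group))
  have hu1 : u ≠ 1 := fun e' => h.z_ne (by
    calc zOf T K = x * u * x⁻¹ := by rw [hu]; group
      _ = 1 := by rw [e']; group)
  exact htQ (h.mem_q_of_fixed (hO ht) huW hu1 huz hfix)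

theorem Member.relIndex_core (h : Member T K) : (pCoreOf 2 (K ⊔ T)).relIndex (K ⊔ T) = 6 := by
  rw [h.pCoreOf_sup, ← Subgroup.relIndex_mul_relIndex _ T _ inf_le_left le_sup_right,
    h.relIndex_q, h.relIndex_T]

/-- `T` is maximal in `KT`. -/
theorem Member.eq_sup (h : Member T K) {S X : Subgroup G} (hS : S.relIndex (K ⊔ T) = 3)
    (hSX : S ≤ X) (hX : X ≤ K ⊔ T) {g : G} (hg : g ∈ X) (hgS : g ∉ S) : X = K ⊔ T := by
  have h1 := Subgroup.relIndex_mul_relIndex S X (K ⊔ T) hSX hX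
  rw [hS] at h1
  rcases (Nat.dvd_prime Nat.prime_three).1 (Dvd.intro _ h1) with e | e
  · exact absurd (Subgroup.relIndex_eq_one.1 e hg) hgS
  · rw [e, Nat.mul_eq_left (by norm_num)] at h1
    exact le_antisymm hX (Subgroup.relIndex_eq_one.1 h1)

theorem exists_order_three (h3 : (pCoreOf 2 K).relIndex K = 3) :
    ∃ e ∈ K, e ^ 3 = 1 ∧ e ∉ pCoreOf 2 K := by
  obtain ⟨x, hx, hxQ⟩ := exists_not_mem_pCoreOf h3
  obtain ⟨m, hm⟩ := two_pow_pow_eq_one (LocalP.pCoreOf_isPGroup K) (pow_three_mem_pCoreOf h3 hx)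
  refine ⟨x ^ 2 ^ m, pow_mem hx _, by rw [← pow_mul, mul_comm, pow_mul, hm], fun h => hxQ ?_⟩
  exact mem_of_pow_two_three h (pow_three_mem_pCoreOf h3 hx)

/-- The image of `z` under an element of `K` outside `O₂(K)`. -/
theorem Member.z_moved (h : Member T K) {e : G} (he : e ∈ K) (heQ : e ∉ pCoreOf 2 K) :
    e * zOf T K * e⁻¹ ∈ wOf K ∧ e * zOf T K * e⁻¹ ≠ 1 ∧ e * zOf T K * e⁻¹ ≠ zOf T K :=
  ⟨(Subgroup.mem_normalizer_iff.1 (le_normalizer_wOf K he) _).1 h.z_mem,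
    fun e' => h.z_ne (conj_eq_one_iff.1 e'),
    fun e' => h.z_ne (wOf_fixed_eq_one h.idx he heQ h.z_mem e')⟩

theorem Member.two_conjugates (h : Member T K) {f e : G} (hf : f ∈ T) (hfQ : f ∉ qOf T K)
    (he : e ∈ K) (heQ : e ∉ pCoreOf 2 K) :
    f * (e * zOf T K * e⁻¹) * f⁻¹ = e * zOf T K * e⁻¹ * zOf T K ∧
    e * f * e⁻¹ * zOf T K * (e * f * e⁻¹)⁻¹ = zOf T K * (e * zOf T K * e⁻¹) ∧
    e * f * e⁻¹ * (e * zOf T K * e⁻¹) * (e * f * e⁻¹)⁻¹ = e * zOf T K * e⁻¹ := by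
  obtain ⟨hW, h1, h2⟩ := h.z_moved he heQ
  set z := zOf T K with hzdef
  set z' := e * z * e⁻¹ with hz'
  have hfix : e * f * e⁻¹ * z' * (e * f * e⁻¹)⁻¹ = z' := by
    calc e * f * e⁻¹ * z' * (e * f * e⁻¹)⁻¹ = e * (f * z * f⁻¹) * e⁻¹ := by rw [hz']; group
      _ = z' := by rw [h.z_fix hf]
  refine ⟨(h.conj_T hf hW).resolve_left fun e' => hfQ (h.mem_q_of_fixed hf hW h1 h2 e'), ?_, hfix⟩
  set u := e⁻¹ * z * e with hu
  have huW : u ∈ wOf K := by
    have h3 := (Subgroup.mem_normalizer_iff.1 (le_normalizer_wOf K (inv_mem he)) z).1 h.z_mem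
    simpa [hu] using h3
  have hu1 : u ≠ 1 := fun e' => h.z_ne (by
    calc z = e * u * e⁻¹ := by rw [hu]; group
      _ = 1 := by rw [e']; group)
  have huz : u ≠ z := fun e' => h.z_ne (wOf_fixed_eq_one h.idx he heQ h.z_mem (by
    conv_lhs => rw [← hzdef, ← e', hu]
    rw [← hzdef]; group))
  have e1 := (h.conj_T hf huW).resolve_left fun e' => hfQ (h.mem_q_of_fixed hf huW hu1 huz e')
  calc e * f * e⁻¹ * z * (e * f * e⁻¹)⁻¹ = e * (f * u * f⁻¹) * e⁻¹ := by rw [hu]; group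
    _ = z * z' := by rw [e1, conj_mul_conj, hu, hz', ← hzdef]; group

omit [Finite G] in
theorem eq_of_fixed_pow {g u : G} (h : g * u * g⁻¹ = u) (n : ℕ) : g ^ n * u * (g ^ n)⁻¹ = u := by
  induction n with
  | zero => simp
  | succ n ih =>
    rw [pow_succ', show g * g ^ n * u * (g * g ^ n)⁻¹ = g * (g ^ n * u * (g ^ n)⁻¹) * g⁻¹ by group,
      ih, h]

/-- An element of order three from two conjugate elements of `T`. -/
theorem Member.exists_sigma (h : Member T K) {f e : G} (hf : f ∈ T) (hfQ : f ∉ qOf T K)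
    (he : e ∈ K) (heQ : e ∉ pCoreOf 2 K) :
    ∃ σ ∈ K, σ ∉ pCoreOf 2 K ∧ σ ^ 3 = 1 ∧
      ∀ r : G, Commute f r → Commute (e * f * e⁻¹) r → Commute σ r := by
  obtain ⟨h1, h2, h3⟩ := h.two_conjugates hf hfQ he heQ
  obtain ⟨hW, hne1, hne2⟩ := h.z_moved he heQ
  set z := zOf T K with hzdef
  set z' := e * z * e⁻¹ with hz'
  set f' := e * f * e⁻¹ with hf'
  set g₀ := f' * f with hg₀
  have hzz : z * z' = z' * z := wOf_comm h.z_mem hW
  have hfz : f * z * f⁻¹ = z := h.z_fix hf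
  have a1 : g₀ * z * g₀⁻¹ = z * z' := by
    rw [hg₀, show f' * f * z * (f' * f)⁻¹ = f' * (f * z * f⁻¹) * f'⁻¹ by group, hfz, h2]
  have a2 : g₀ * z' * g₀⁻¹ = z := by
    rw [hg₀, show f' * f * z' * (f' * f)⁻¹ = f' * (f * z' * f⁻¹) * f'⁻¹ by group, h1,
      conj_mul_conj, h3, h2, hzz, ← mul_assoc, wOf_sq hW, one_mul]
  have a3 : g₀ ^ 3 * z * (g₀ ^ 3)⁻¹ = z := by
    calc g₀ ^ 3 * z * (g₀ ^ 3)⁻¹ = g₀ * (g₀ * (g₀ * z * g₀⁻¹) * g₀⁻¹) * g₀⁻¹ := by
          simp only [pow_three, mul_inv_rev, mul_assoc]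
      _ = g₀ * (z * z' * z) * g₀⁻¹ := by rw [a1, conj_mul_conj g₀ z z', a1, a2]
      _ = g₀ * z' * g₀⁻¹ := by
          rw [hzz, mul_assoc z' z z, show z * z = 1 from wOf_sq h.z_mem, mul_one]
      _ = z := a2
  have hg₀P : g₀ ∈ K ⊔ T := mul_mem (mul_mem (mul_mem (Subgroup.mem_sup_left he)
    (Subgroup.mem_sup_right hf)) (inv_mem (Subgroup.mem_sup_left he))) (Subgroup.mem_sup_right hf)
  obtain ⟨a, o, ho, hord⟩ := Nat.exists_eq_two_pow_mul_odd (orderOf_pos g₀).ne'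
  have hodd : Odd (orderOf (g₀ ^ 2 ^ a)) := by
    rw [orderOf_pow' _ (pow_ne_zero a two_ne_zero), hord,
      Nat.gcd_eq_right (Dvd.intro o rfl), Nat.mul_div_cancel_left _ (pow_pos two_pos a)]
    exact ho
  have hσK : g₀ ^ 2 ^ a ∈ K := mem_of_odd_sup h.hT h.norm (pow_mem hg₀P _) hodd
  have hσQ : g₀ ^ 2 ^ a ∉ pCoreOf 2 K := by
    intro hQ
    have h0 := not_odd_orderOf_of_pGroup (LocalP.pCoreOf_isPGroup K) hQ hodd
    have hmem : ∀ g, g * z * g⁻¹ = z → g ∈ Subgroup.centralizer ({z} : Set G) := fun g hg =>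
      Subgroup.mem_centralizer_singleton_iff.2 (mul_inv_eq_iff_eq_mul.1 hg)
    have hg : g₀ ∈ Subgroup.centralizer ({z} : Set G) :=
      mem_of_pow_two_three (m := a) (by rw [h0]; exact one_mem _) (hmem _ a3)
    have e1 := Subgroup.mem_centralizer_singleton_iff.1 hg
    rw [mul_inv_eq_iff_eq_mul.2 e1] at a1
    exact hne1 (mul_eq_left.1 a1.symm)
  refine ⟨g₀ ^ 2 ^ a, hσK, hσQ, ?_, fun r hr hr' => (hr'.mul_left hr).pow_left _⟩
  refine not_odd_orderOf_of_pGroup (LocalP.pCoreOf_isPGroup K) (pow_three_mem_pCoreOf h.idx hσK) ?_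
  exact Odd.of_dvd_nat hodd (orderOf_pow_dvd 3)

/-- Splitting an element of `C_T(W_K)` moved only inside the plane. -/
theorem Member.split (h : Member T K) {f e q : G} (hf : f ∈ T) (hfQ : f ∉ qOf T K)
    (he : e ∈ K) (heQ : e ∉ pCoreOf 2 K) (hq : q ∈ qOf T K)
    (hfq : f * q * f⁻¹ = q ∨ f * q * f⁻¹ = q * zOf T K)
    (hfq' : e * f * e⁻¹ * q * (e * f * e⁻¹)⁻¹ = q ∨
      e * f * e⁻¹ * q * (e * f * e⁻¹)⁻¹ = q * (e * zOf T K * e⁻¹)) :
    ∃ u ∈ wOf K, ∃ r ∈ qOf T K, q = u * r ∧ Commute f r ∧ Commute (e * f * e⁻¹) r := by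
  obtain ⟨h1, h2, h3⟩ := h.two_conjugates hf hfQ he heQ
  obtain ⟨hW, -, -⟩ := h.z_moved he heQ
  set z := zOf T K with hzdef
  set z' := e * z * e⁻¹ with hz'
  set f' := e * f * e⁻¹ with hf'
  have hfz : f * z * f⁻¹ = z := h.z_fix hf
  have hqc : ∀ v ∈ wOf K, v * q = q * v := fun v hv => Subgroup.mem_centralizer_iff.1 hq.2 v hv
  have hzsq : z * z = 1 := wOf_sq h.z_mem
  have hz'sq : z' * z' = 1 := wOf_sq hW
  have hzz : z * z' = z' * z := wOf_comm h.z_mem hW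
  suffices H : ∃ u ∈ wOf K, f * (u * q) * f⁻¹ = u * q ∧ f' * (u * q) * f'⁻¹ = u * q by
    obtain ⟨u, hu, e1, e2⟩ := H
    exact ⟨u, hu, u * q, mul_mem (h.wOf_le_q hu) hq, by rw [← mul_assoc, wOf_sq hu, one_mul],
      mul_inv_eq_iff_eq_mul.1 e1, mul_inv_eq_iff_eq_mul.1 e2⟩
  have red : ∀ x v : G, v ∈ wOf K → v * v = 1 → x * v * (q * v) = x * q := fun x v hv h2 => by
    calc x * v * (q * v) = x * ((v * q) * v) := by group
      _ = x * (q * (v * v)) := by rw [hqc v hv]; group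
      _ = x * q := by rw [h2, mul_one]
  rcases hfq with e1 | e1 <;> rcases hfq' with e2 | e2
  · exact ⟨1, one_mem _, by rw [one_mul, e1], by rw [one_mul, e2]⟩
  · refine ⟨z, h.z_mem, by rw [conj_mul_conj, hfz, e1], ?_⟩
    rw [conj_mul_conj, h2, e2, red z z' hW hz'sq]
  · refine ⟨z', hW, ?_, by rw [conj_mul_conj, h3, e2]⟩
    rw [conj_mul_conj, h1, e1, red z' z h.z_mem hzsq]
  · refine ⟨z * z', mul_mem h.z_mem hW, ?_, ?_⟩
    · rw [conj_mul_conj, conj_mul_conj f z, hfz, h1, e1, ← mul_assoc z z' z,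
        red (z * z') z h.z_mem hzsq]
    · rw [conj_mul_conj, conj_mul_conj f' z, h2, h3, e2, red (z * z') z' hW hz'sq]

/-- Conjugation of members. -/
theorem Member.conj (h : Member T K) (g : G) :
    Member (T.map (MulAut.conj g).toMonoidHom) (K.map (MulAut.conj g).toMonoidHom) := by
  refine ⟨h.hT.map _, ?_, map_conj_oddGen g h.gen, ?_, ?_, ?_, ?_⟩
  · rw [← Subgroup.map_equiv_normalizer_eq]; exact Subgroup.map_mono h.norm
  · rw [← Modules.conj_thompsonSubgroupOf, ← Subgroup.map_commutator, h.comm]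
  · rw [← map_conj_pCoreOf, Subgroup.relIndex_map_map_of_injective _ _ (MulAut.conj g).injective,
      h.idx]
  · rw [← map_conj_wOf, Subgroup.card_map_of_injective (MulAut.conj g).injective, h.card]
  · rw [← map_conj_pCoreOf]; exact Subgroup.map_mono h.core

theorem Member.zOf_conj (h : Member T K) (g : G) :
    zOf (T.map (MulAut.conj g).toMonoidHom) (K.map (MulAut.conj g).toMonoidHom) =
      g * zOf T K * g⁻¹ := by
  symm
  refine (h.conj g).zOf_eq ?_ (fun e => h.z_ne (conj_eq_one_iff.1 e)) ?_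
  · rw [← map_conj_wOf]; exact ⟨_, h.z_mem, rfl⟩
  · rintro _ ⟨t, ht, rfl⟩
    change g * t * g⁻¹ * (g * zOf T K * g⁻¹) * (g * t * g⁻¹)⁻¹ = _
    conv_rhs => rw [← h.z_fix ht]
    group

theorem qOf_conj (g : G) :
    (qOf T K).map (MulAut.conj g).toMonoidHom =
      qOf (T.map (MulAut.conj g).toMonoidHom) (K.map (MulAut.conj g).toMonoidHom) := by
  rw [qOf, qOf, Subgroup.map_inf _ _ _ (MulAut.conj g).injective, PSolv.map_centralizer_equiv,
    map_conj_wOf]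

end Cfsg.Agent.LocalEven
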